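import Cfsg.Agent.MaxSub.CSixOp.Act

/-!
The eigenspace of an involution of a frame: restriction, extension by the identity, and lifts.
-/

set_option autoImplicit false
set_option linter.unusedSectionVars false
attribute [-instance] AddSubgroupClass.instZModModule

namespace Cfsg.Agent.MaxSub.CSixOp

variable {F : Type*} [Field F] {V : Type*} [AddCommGroup V] [Module F V]

/-- An involution of a frame with an anticommuting element. -/
structure Blk {B : LinearMap.BilinForm F V} (S : Frame B) where
  x : G F V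
  a : G F V
  x_mem : x ∈ S.R
  a_mem : a ∈ S.R
  x_sq : x * x = 1
  anti : x * a = -(a * x)

namespace Blk

variable {B : LinearMap.BilinForm F V} {S : Frame B} (P : Blk S)

/-- The fixed space of the involution. -/
abbrev U : Submodule F V := LinearMap.ker ((P.x : Module.End F V) - 1)

lemma mem_U {v : V} : v ∈ P.U ↔ (P.x : Module.End F V) v = v := by simp [sub_eq_zero]

lemma x_x (v : V) : (P.x : Module.End F V) ((P.x : Module.End F V) v) = v := by
  simpa using congrArg (fun g : G F V => (g : Module.End F V) v) P.x_sq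

lemma x_a (v : V) : (P.x : Module.End F V) ((P.a : Module.End F V) v) =
    -((P.a : Module.End F V) ((P.x : Module.End F V) v)) := by
  simpa using congrArg (fun g : G F V => (g : Module.End F V) v) P.anti

lemma x_adj (u v : V) : B ((P.x : Module.End F V) u) v = B u ((P.x : Module.End F V) v) := by
  conv_rhs => rw [← S.isom P.x P.x_mem, P.x_x]

/-- The projection to the fixed space. -/
noncomputable def pr : V →ₗ[F] P.U :=
  LinearMap.codRestrict P.U ((2 : F)⁻¹ • (1 + (P.x : Module.End F V))) fun v => by
    rw [P.mem_U]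
    simp only [LinearMap.smul_apply, LinearMap.add_apply, Module.End.one_apply, map_smul, map_add,
      P.x_x, add_comm]

lemma pr_coe (v : V) : (P.pr v : V) = (2 : F)⁻¹ • (v + (P.x : Module.End F V) v) := rfl

lemma pr_self (w : P.U) : P.pr (w : V) = w := by
  refine Subtype.ext ?_
  rw [pr_coe, P.mem_U.1 w.2, ← two_smul F (w : V), smul_smul, inv_mul_cancel₀ S.two_ne, one_smul]

lemma x_pr (v : V) : (P.x : Module.End F V) (P.pr v : V) = P.pr v := P.mem_U.1 (P.pr v).2

lemma pr_x (v : V) : P.pr ((P.x : Module.End F V) v) = P.pr v := by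
  refine Subtype.ext ?_
  rw [pr_coe, pr_coe, P.x_x, add_comm]

lemma pr_sub (v : V) : P.pr (v - (P.pr v : V)) = 0 := by rw [map_sub, P.pr_self, sub_self]

/-- An endomorphism of the fixed space, extended by zero. -/
noncomputable def Phi (h : Module.End F P.U) : Module.End F V := P.U.subtype.comp (h.comp P.pr)

lemma Phi_apply (h : Module.End F P.U) (v : V) : P.Phi h v = (h (P.pr v) : V) := rfl

lemma Phi_mul (h k : Module.End F P.U) : P.Phi h * P.Phi k = P.Phi (h * k) :=
  LinearMap.ext fun v => by
    simp only [Module.End.mul_apply, Phi_apply, P.pr_self]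

/-- An endomorphism of the fixed space, extended by the identity. -/
noncomputable def Ext (h : Module.End F P.U) : Module.End F V := P.Phi h + (1 - P.Phi 1)

lemma Ext_apply (h : Module.End F P.U) (v : V) :
    P.Ext h v = (h (P.pr v) : V) + (v - (P.pr v : V)) := rfl

lemma pr_Ext (h : Module.End F P.U) (v : V) : P.pr (P.Ext h v) = h (P.pr v) := by
  rw [Ext_apply, map_add, P.pr_self, P.pr_sub, add_zero]

lemma Ext_mul (h k : Module.End F P.U) : P.Ext h * P.Ext k = P.Ext (h * k) :=
  LinearMap.ext fun v => by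
    rw [Module.End.mul_apply, P.Ext_apply h, P.pr_Ext, P.Ext_apply k, P.Ext_apply (h * k),
      Module.End.mul_apply]
    abel

lemma Ext_one : P.Ext 1 = 1 := by simp [Ext]

/-- Extension by the identity, as a homomorphism. -/
noncomputable def ext : G F P.U →* G F V where
  toFun h := ⟨P.Ext h, P.Ext (h⁻¹ : G F P.U), by rw [Ext_mul, Units.mul_inv, Ext_one],
    by rw [Ext_mul, Units.inv_mul, Ext_one]⟩
  map_one' := Units.ext P.Ext_one
  map_mul' h k := Units.ext (P.Ext_mul h k).symm

lemma ext_val (h : G F P.U) : (P.ext h : Module.End F V) = P.Ext h := rfl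

lemma ext_apply (h : G F P.U) (v : V) :
    (P.ext h : Module.End F V) v = ((h : Module.End F P.U) (P.pr v) : V) + (v - (P.pr v : V)) := rfl

/-- The centraliser of the involution. -/
def C : Subgroup (G F V) := Subgroup.centralizer {P.x}

lemma mem_C {g : G F V} : g ∈ P.C ↔ P.x * g = g * P.x := by
  rw [C, Subgroup.mem_centralizer_singleton_iff]
  exact eq_comm

lemma C_apply {g : G F V} (hg : g ∈ P.C) (v : V) :
    (P.x : Module.End F V) ((g : Module.End F V) v) = (g : Module.End F V) ((P.x : Module.End F V) v) := by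
  simpa using congrArg (fun g : G F V => (g : Module.End F V) v) (P.mem_C.1 hg)

lemma C_pr {g : G F V} (hg : g ∈ P.C) (v : V) :
    (P.pr ((g : Module.End F V) v) : V) = (g : Module.End F V) (P.pr v : V) := by
  rw [pr_coe, pr_coe, map_smul, map_add, P.C_apply hg]

/-- Restriction to the fixed space. -/
noncomputable def res : P.C →* G F P.U where
  toFun g :=
    { val := P.pr ∘ₗ ((g : G F V) : Module.End F V) ∘ₗ P.U.subtype
      inv := P.pr ∘ₗ (((g : G F V)⁻¹ : G F V) : Module.End F V) ∘ₗ P.U.subtype
      val_inv := LinearMap.ext fun w => Subtype.ext (by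
        simp only [Module.End.mul_apply, LinearMap.comp_apply, Submodule.subtype_apply,
          P.C_pr g.2, P.C_pr (P.C.inv_mem g.2), P.pr_self]
        rw [← Module.End.mul_apply, ← Units.val_mul, mul_inv_cancel]
        rfl)
      inv_val := LinearMap.ext fun w => Subtype.ext (by
        simp only [Module.End.mul_apply, LinearMap.comp_apply, Submodule.subtype_apply,
          P.C_pr g.2, P.C_pr (P.C.inv_mem g.2), P.pr_self]
        rw [← Module.End.mul_apply, ← Units.val_mul, inv_mul_cancel]
        rfl) }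
  map_one' := Units.ext (LinearMap.ext fun w => by simp [P.pr_self])
  map_mul' g h := Units.ext (LinearMap.ext fun w => Subtype.ext (by
    simp only [Units.val_mul, Subgroup.coe_mul, Module.End.mul_apply, LinearMap.comp_apply,
      Submodule.subtype_apply, P.C_pr g.2, P.C_pr h.2, P.pr_self]))

lemma res_coe (g : P.C) (w : P.U) :
    (((P.res g : G F P.U) : Module.End F P.U) w : V) = ((g : G F V) : Module.End F V) w := by
  show (P.pr (((g : G F V) : Module.End F V) (w : V)) : V) = _
  rw [P.C_pr g.2, P.pr_self]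

lemma ext_mem_C (h : G F P.U) : P.ext h ∈ P.C := by
  rw [mem_C]
  refine Units.ext (LinearMap.ext fun v => ?_)
  simp only [Units.val_mul, Module.End.mul_apply, ext_apply, map_add, map_sub, P.x_pr, P.pr_x]
  rw [P.mem_U.1 ((h : Module.End F P.U) (P.pr v)).2]

lemma res_ext (h : G F P.U) : P.res ⟨P.ext h, P.ext_mem_C h⟩ = h :=
  Units.ext (LinearMap.ext fun w => Subtype.ext (by
    rw [res_coe, ext_apply, P.pr_self, sub_self, add_zero]))

lemma ext_injective : Function.Injective P.ext := fun h k e => by
  rw [← P.res_ext h, ← P.res_ext k]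
  exact congrArg P.res (Subtype.ext e)

lemma x_mem_C : P.x ∈ P.C := P.mem_C.2 rfl

lemma conj_a_mem_C {g : G F V} (hg : g ∈ P.C) : P.a * g * P.a⁻¹ ∈ P.C := by
  rw [mem_C] at hg ⊢
  have h1 : P.x * P.a = -(P.a * P.x) := P.anti
  have h2 : P.x * P.a⁻¹ = -(P.a⁻¹ * P.x) := by
    rcases S.inv_eq P.a_mem with e | e <;> rw [e]
    · exact h1
    · rw [mul_neg, neg_mul, h1]
  calc P.x * (P.a * g * P.a⁻¹) = -(P.a * g * (P.x * P.a⁻¹)) := by
        rw [← mul_assoc, ← mul_assoc, h1, neg_mul, neg_mul, mul_assoc P.a, hg]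
        simp only [mul_assoc]
    _ = P.a * g * P.a⁻¹ * P.x := by rw [h2, mul_neg, neg_neg]; simp only [mul_assoc]

lemma conj_a_inv_mem_C {g : G F V} (hg : g ∈ P.C) : P.a⁻¹ * g * P.a ∈ P.C := by
  have h : P.a⁻¹ * g * P.a = P.a * g * P.a⁻¹ := by
    rcases S.inv_eq P.a_mem with e | e <;> rw [e] <;> simp
  exact h ▸ P.conj_a_mem_C hg

lemma pr_a (v : V) : (P.pr ((P.a : Module.End F V) v) : V) =
    (P.a : Module.End F V) (v - (P.pr v : V)) := by
  simp only [pr_coe, P.x_a, map_sub, map_smul, map_add]
  have : (P.a : Module.End F V) v =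
      (2 : F)⁻¹ • ((P.a : Module.End F V) v + (P.a : Module.End F V) v) := by
    rw [← two_smul F ((P.a : Module.End F V) v), smul_smul, inv_mul_cancel₀ S.two_ne, one_smul]
  conv_rhs => arg 1; rw [this]
  module

lemma pr_a_inv (v : V) : (P.pr (((P.a⁻¹ : G F V) : Module.End F V) v) : V) =
    ((P.a⁻¹ : G F V) : Module.End F V) (v - (P.pr v : V)) := by
  rcases S.inv_eq P.a_mem with e | e <;> rw [e]
  · exact P.pr_a v
  · simp only [Units.val_neg, LinearMap.neg_apply, map_neg, Submodule.coe_neg, P.pr_a v]

/-- The extension conjugated to the other eigenspace. -/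
noncomputable def ext' : G F P.U →* G F V := (MulAut.conj P.a).toMonoidHom.comp P.ext

lemma ext'_eq (h : G F P.U) : P.ext' h = P.a * P.ext h * P.a⁻¹ := rfl

lemma ext'_apply (h : G F P.U) (v : V) :
    (P.ext' h : Module.End F V) v = (P.a : Module.End F V)
      ((h : Module.End F P.U) (P.pr (((P.a⁻¹ : G F V) : Module.End F V) v)) : V) + (P.pr v : V) := by
  rw [ext'_eq, Units.val_mul, Units.val_mul, Module.End.mul_apply, Module.End.mul_apply, ext_apply,
    map_add]
  congr 1
  rw [P.pr_a_inv, ← map_sub, sub_sub_cancel, ← Module.End.mul_apply, ← Units.val_mul, mul_inv_cancel]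
  rfl

lemma ext'_mem_C (h : G F P.U) : P.ext' h ∈ P.C := P.conj_a_mem_C (P.ext_mem_C h)

lemma pr_ext' (h : G F P.U) (v : V) : P.pr ((P.ext' h : Module.End F V) v) = P.pr v := by
  rw [ext'_apply, map_add, P.pr_self, add_eq_right]
  refine Subtype.ext ?_
  rw [P.pr_a, P.pr_self, sub_self, map_zero]
  rfl

lemma res_ext' (h : G F P.U) : P.res ⟨P.ext' h, P.ext'_mem_C h⟩ = 1 :=
  Units.ext (LinearMap.ext fun w => by
    show P.pr ((P.ext' h : Module.End F V) (w : V)) = w
    rw [P.pr_ext', P.pr_self])

lemma pr_a_inv_self (w : P.U) : P.pr (((P.a⁻¹ : G F V) : Module.End F V) (w : V)) = 0 := by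
  refine Subtype.ext ?_
  rw [P.pr_a_inv, P.pr_self, sub_self, map_zero]
  rfl

lemma commute_ext (h k : G F P.U) : Commute (P.ext h) (P.ext' k) := by
  refine Units.ext (LinearMap.ext fun v => ?_)
  simp only [Units.val_mul, Module.End.mul_apply]
  have h1 : P.pr ((P.ext h : Module.End F V) v) = (h : Module.End F P.U) (P.pr v) := P.pr_Ext _ v
  have h2 : P.pr (((P.a⁻¹ : G F V) : Module.End F V) ((P.ext h : Module.End F V) v)) =
      P.pr (((P.a⁻¹ : G F V) : Module.End F V) v) := by
    rw [ext_apply, map_add, map_add, P.pr_a_inv_self, zero_add, map_sub, map_sub, P.pr_a_inv_self,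
      sub_zero]
  rw [P.ext_apply h, P.pr_ext', P.ext'_apply k ((P.ext h : Module.End F V) v), h1, h2, ext'_apply]
  abel

/-- An element centralising the involution is the product of its two halves. -/
lemma eq_ext_mul_ext' (g : P.C) :
    (g : G F V) = P.ext (P.res g) *
      P.ext' (P.res ⟨P.a⁻¹ * g * P.a, P.conj_a_inv_mem_C g.2⟩) := by
  refine Units.ext (LinearMap.ext fun v => ?_)
  rw [Units.val_mul, Module.End.mul_apply, ext_apply, P.pr_ext', res_coe, ext'_apply, res_coe]
  rw [add_sub_cancel_right, Units.val_mul, Units.val_mul, Module.End.mul_apply,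
    Module.End.mul_apply, P.pr_a_inv, ← Module.End.mul_apply (P.a : Module.End F V)
    ((P.a⁻¹ : G F V) : Module.End F V), ← Units.val_mul, mul_inv_cancel, Units.val_one,
    Module.End.one_apply]
  have e : ∀ u : V, (P.a : Module.End F V) (((P.a⁻¹ : G F V) : Module.End F V) u) = u := fun u => by
    rw [← Module.End.mul_apply, ← Units.val_mul, mul_inv_cancel]; rfl
  simp only [e, map_sub]
  abel

/-! ### The restricted frame -/

/-- The restricted form. -/
noncomputable abbrev B' : LinearMap.BilinForm F P.U := B.restrict P.U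

lemma B_pr (u v : V) : B (P.pr u : V) v = B (P.pr u : V) (P.pr v : V) := by
  conv_rhs => rw [pr_coe P v, map_smul, map_add, ← P.x_adj, P.x_pr, ← two_smul F (B _ _), smul_smul,
    inv_mul_cancel₀ S.two_ne, one_smul]

lemma B_pr' (u v : V) : B u (P.pr v : V) = B (P.pr u : V) (P.pr v : V) := by
  rw [S.symm u (P.pr v : V), P.B_pr v u, S.symm]

lemma ext_mem_Iso {h : G F P.U} (hh : h ∈ Iso P.B') : P.ext h ∈ Iso B := by
  intro u v
  have key : ∀ s t : P.U, ∀ u v : V, B ((s : V) + (u - (P.pr u : V))) ((t : V) + (v - (P.pr v : V))) =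
      B (s : V) t + (B u v - B (P.pr u : V) (P.pr v : V)) := by
    intro s t u v
    have hs : ∀ w : V, B (s : V) w = B (s : V) (P.pr w : V) := fun w => by
      conv_lhs => rw [← P.pr_self s, P.B_pr]
      rw [P.pr_self]
    have ht : ∀ w : V, B w (t : V) = B (P.pr w : V) (t : V) := fun w => by
      conv_lhs => rw [← P.pr_self t, P.B_pr']
      rw [P.pr_self]
    simp only [map_add, map_sub, LinearMap.add_apply, LinearMap.sub_apply]
    rw [hs v, ht u, P.B_pr u v, P.B_pr' u v]
    ring
  rw [ext_apply, ext_apply, key]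
  have := hh (P.pr u) (P.pr v)
  simp only [LinearMap.BilinForm.restrict_apply, LinearMap.domRestrict_apply] at this
  rw [this]
  ring

lemma res_mem_Iso {g : P.C} (hg : (g : G F V) ∈ Iso B) : P.res g ∈ Iso P.B' := fun u v => by
  simp only [LinearMap.BilinForm.restrict_apply, LinearMap.domRestrict_apply, P.res_coe]
  exact hg _ _

/-- The restricted group. -/
noncomputable def R' : Subgroup (G F P.U) := (S.R.subgroupOf P.C).map P.res

lemma mem_R' {h : G F P.U} :
    h ∈ P.R' ↔ ∃ (g : G F V) (hg : g ∈ P.C), g ∈ S.R ∧ P.res ⟨g, hg⟩ = h := by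
  constructor
  · rintro ⟨g, hg, rfl⟩
    exact ⟨g, g.2, hg, rfl⟩
  · rintro ⟨g, hg, hgR, rfl⟩
    exact ⟨⟨g, hg⟩, hgR, rfl⟩

lemma res_neg_one : P.res ⟨-1, P.mem_C.2 (by simp)⟩ = -1 :=
  Units.ext (LinearMap.ext fun w => Subtype.ext (by
    rw [res_coe]
    simp))

/-- The equivalence with two copies of the fixed space. -/
noncomputable def split : V ≃ₗ[F] P.U × P.U :=
  { (P.pr.prod (P.pr.comp ((P.a⁻¹ : G F V) : Module.End F V))) with
    invFun := fun p => (p.1 : V) + (P.a : Module.End F V) p.2
    left_inv := fun v => by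
      show (P.pr v : V) + (P.a : Module.End F V) (P.pr (((P.a⁻¹ : G F V) : Module.End F V) v) : V) = v
      rw [P.pr_a_inv, ← Module.End.mul_apply, ← Units.val_mul, mul_inv_cancel, Units.val_one,
        Module.End.one_apply, add_sub_cancel]
    right_inv := fun p => by
      refine Prod.ext ?_ ?_
      · show P.pr ((p.1 : V) + (P.a : Module.End F V) p.2) = p.1
        rw [map_add, P.pr_self, add_eq_left]
        refine Subtype.ext ?_
        rw [P.pr_a, P.pr_self, sub_self, map_zero]
        rfl
      · show P.pr (((P.a⁻¹ : G F V) : Module.End F V) ((p.1 : V) + (P.a : Module.End F V) p.2)) = p.2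
        rw [map_add, map_add, ← Module.End.mul_apply _ (P.a : Module.End F V), ← Units.val_mul,
          inv_mul_cancel, Units.val_one, Module.End.one_apply, P.pr_self, add_eq_right]
        refine Subtype.ext ?_
        rw [P.pr_a_inv, P.pr_self, sub_self, map_zero]
        rfl }

lemma finrank_U : 1 ≤ S.k ∧ Module.finrank F P.U = 2 ^ (S.k - 1) := by
  have := S.finite_dim
  have h := P.split.finrank_eq
  rw [Module.finrank_prod, S.dim] at h
  rcases Nat.eq_zero_or_pos S.k with hk | hk
  · rw [hk, pow_zero] at h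
    omega
  · refine ⟨hk, ?_⟩
    rw [show S.k = S.k - 1 + 1 by omega, pow_succ] at h
    omega

/-- The frame induced on the fixed space. -/
noncomputable def frame : Frame P.B' where
  two_ne := S.two_ne
  symm := fun u v => S.symm (u : V) (v : V)
  nondeg := by
    refine ⟨fun u hu => Subtype.ext (S.nondeg.1 _ fun v => ?_),
      fun v hv => Subtype.ext (S.nondeg.2 _ fun u => ?_)⟩
    · rw [← P.pr_self u, P.B_pr, P.pr_self]
      exact hu (P.pr v)
    · rw [← P.pr_self v, P.B_pr', P.pr_self]
      exact hv (P.pr u)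
  R := P.R'
  isom r hr := by
    obtain ⟨g, hg, hgR, rfl⟩ := P.mem_R'.1 hr
    exact P.res_mem_Iso (g := ⟨g, hg⟩) (S.R_le_Iso hgR)
  neg_one := P.mem_R'.2 ⟨-1, _, S.neg_one, P.res_neg_one⟩
  sq_sign r hr := by
    obtain ⟨g, hg, hgR, rfl⟩ := P.mem_R'.1 hr
    rw [← map_mul, ← P.res_neg_one, ← map_one P.res]
    rcases S.sq_sign g hgR with e | e
    · exact Or.inl (congrArg P.res (Subtype.ext e))
    · exact Or.inr (congrArg P.res (Subtype.ext e))
  span_eq := by
    refine eq_top_iff.2 fun φ _ => ?_
    let Ψ : Module.End F V →ₗ[F] Module.End F P.U :=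
      { toFun := fun f => P.pr ∘ₗ f ∘ₗ P.U.subtype
        map_add' := fun f g => by ext w; simp
        map_smul' := fun c f => by ext w; simp }
    have hφ : Ψ (P.Phi φ) = φ := LinearMap.ext fun w => by
      simp [Ψ, Phi_apply, P.pr_self]
    rw [← hφ]
    have hm : P.Phi φ ∈ Submodule.span F
        ((fun r : G F V => (r : Module.End F V)) '' (S.R : Set (G F V))) :=
      S.span_eq ▸ Submodule.mem_top
    generalize P.Phi φ = f at hm
    induction hm using Submodule.span_induction with
    | mem f hf =>
      obtain ⟨r, hr, rfl⟩ := hf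
      rcases S.comm_sign P.x_mem hr with e | e
      · exact Submodule.subset_span
          ⟨P.res ⟨r, P.mem_C.2 e⟩, P.mem_R'.2 ⟨r, P.mem_C.2 e, hr, rfl⟩, rfl⟩
      · have : Ψ (r : Module.End F V) = 0 := by
          refine LinearMap.ext fun w => Subtype.ext ?_
          show (P.pr ((r : Module.End F V) (w : V)) : V) = ((0 : P.U) : V)
          have e' : (P.x : Module.End F V) ((r : Module.End F V) (w : V)) =
              -((r : Module.End F V) ((P.x : Module.End F V) w)) := by
            simpa using congrArg (fun g : G F V => (g : Module.End F V) (w : V)) e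
          rw [pr_coe, e', P.mem_U.1 w.2, add_neg_cancel, smul_zero]
          rfl
        rw [this]
        exact Submodule.zero_mem _
    | zero => simp
    | add f g _ _ hf hg => rw [map_add]; exact Submodule.add_mem _ hf hg
    | smul c f _ hf => rw [map_smul]; exact Submodule.smul_mem _ c hf
  k := S.k - 1
  dim := P.finrank_U.2

lemma frame_R : P.frame.R = P.R' := rfl

lemma frame_k : P.frame.k = S.k - 1 := rfl

end Blk

end Cfsg.Agent.MaxSub.CSixOp
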