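import Cfsg.Agent.MaxSub.CSixOp.Dihedral

/-!
An overgroup of the quarter turns in which the centraliser of each nonsingular element of `R`
normalises the centraliser in `R` of that element: those centralisers normalise `R`.
-/

set_option autoImplicit false
set_option linter.unusedSectionVars false
attribute [-instance] AddSubgroupClass.instZModModule

namespace Cfsg.Agent.MaxSub.CSixOp

variable {F : Type*} [Field F] {V : Type*} [AddCommGroup V] [Module F V]

namespace Frame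

variable {B : LinearMap.BilinForm F V} (S : Frame B)

lemma act_eq_one_of_mem_R {r : G F V} (hr : r ∈ S.R) : S.act ⟨r, S.R_le_Nm hr⟩ = 1 := by
  refine LinearEquiv.ext fun x => ?_
  obtain ⟨s, rfl⟩ := S.cls_surjective x
  rw [S.act_cls]
  show S.cls _ = S.cls s
  rw [S.cls_eq_iff]
  rcases S.comm_sign hr s.2 with e | e
  · exact Or.inl (by simp [e])
  · exact Or.inr (by simp [e])

lemma pm_cls {a b : S.R} : PM (a : G F V) b ↔ S.cls a = S.cls b := by
  rw [S.cls_eq_iff]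
  exact ⟨fun h => h.symm, fun h => PM.symm h⟩

lemma qv_cls_eq_one {a : S.R} : S.qv (S.cls a) = 1 ↔ (a : G F V) * a = -1 := by
  rw [S.qv_cls, S.sgn_eq_one a.2]

lemma qv_cls_eq_zero {a : S.R} : S.qv (S.cls a) = 0 ↔ (a : G F V) * a = 1 := by
  rw [S.qv_cls, sgn_eq_zero]

lemma w_self {y : S.R} (hy : (y : G F V) * y = -1) : S.w hy hy = y := by
  refine Units.ext ?_
  have h : ((y : G F V) : Module.End F V) * (y : G F V) = -1 := by
    simpa using congrArg Units.val hy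
  rw [S.w_val, mul_add, add_mul, add_mul, one_mul, one_mul, mul_one, h,
    show (1 : Module.End F V) + ((y : G F V) : Module.End F V) + (((y : G F V) : Module.End F V) + -1)
      = (2 : F) • ((y : G F V) : Module.End F V) by rw [two_smul]; abel,
    smul_smul, inv_mul_cancel₀ S.two_ne, one_smul]

/-- An element of `R` with prescribed commutation with two elements. -/
lemma exists_mem_vals {a b : S.R} (ha : S.cls a ≠ 0) (hb : S.cls b ≠ 0) (hab : S.cls a ≠ S.cls b)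
    (u v : ZMod 2) : ∃ c : S.R, S.bf (S.cls a) (S.cls c) = u ∧ S.bf (S.cls b) (S.cls c) = v := by
  obtain ⟨x, h1, h2⟩ := S.QS'.exists_vals ha hb hab u v
  obtain ⟨c, rfl⟩ := S.cls_surjective x
  exact ⟨c, h1, h2⟩

/-- An element of `R` anticommuting with a given one. -/
lemma exists_anti {a : S.R} (ha : S.cls a ≠ 0) :
    ∃ c : S.R, (a : G F V) * c = -(c * a) := by
  obtain ⟨x, hx⟩ := S.QS'.exists_B_eq_one ha
  obtain ⟨c, rfl⟩ := S.cls_surjective x
  exact ⟨c, S.bf_eq_one.1 hx⟩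

/-- A sign change is undone by an element of `R`. -/
lemma exists_fix {a : S.R} (ha : S.cls a ≠ 0) {g : G F V} (h : PM (g * (a : G F V) * g⁻¹) a) :
    ∃ c ∈ S.R, c * g * (a : G F V) = a * (c * g) := by
  rcases h with h | h
  · exact ⟨1, S.R.one_mem, by rw [one_mul]; exact mul_inv_eq_iff_eq_mul.1 h⟩
  · obtain ⟨c, hc⟩ := S.exists_anti ha
    refine ⟨c, c.2, ?_⟩
    rw [mul_assoc, mul_inv_eq_iff_eq_mul.1 h, neg_mul, mul_neg, ← mul_assoc, ← mul_assoc, hc, neg_mul]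

lemma QS'_B : S.QS'.B = S.bf := rfl

lemma QS'_q : S.QS'.q = S.qv := rfl

lemma QS'_k : S.QS'.k = S.k := rfl

lemma ns_ne_zero {y : S.R} (hy : (y : G F V) * y = -1) : S.cls y ≠ 0 :=
  S.QS'.ne_zero_of_q (S.qv_cls_eq_one.2 hy)

end Frame

/-- An overgroup of the quarter turns with controlled centralisers. -/
structure Over {B : LinearMap.BilinForm F V} (S : Frame B) (M : Subgroup (G F V)) : Prop where
  le : M ≤ Iso B
  k_le : 4 ≤ S.k
  fin : Finite (G F V)
  w_mem : ∀ {y z : S.R} (hy : (y : G F V) * y = -1) (hz : (z : G F V) * z = -1), S.w hy hz ∈ M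
  cent : ∀ y : S.R, (y : G F V) * y = -1 → ∀ g ∈ M, g * (y : G F V) = y * g →
    ∀ r ∈ S.R, r * (y : G F V) = y * r → g * r * g⁻¹ ∈ S.R

namespace Over

variable {B : LinearMap.BilinForm F V} {S : Frame B} {M : Subgroup (G F V)} (hM : Over S M)

include hM

lemma R_le : S.R ≤ M := by
  have hk := hM.k_le
  have hns : ∀ y : S.R, (y : G F V) * y = -1 → (y : G F V) ∈ M := fun y hy =>
    S.w_self hy ▸ hM.w_mem hy hy
  intro r hr
  rcases S.sq_sign r hr with h | h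
  · obtain ⟨x, hx1, hx2⟩ := S.QS'.exists_perp_q (by rw [S.QS'_k]; omega) (S.cls ⟨r, hr⟩) 1
    obtain ⟨b, rfl⟩ := S.cls_surjective x
    have hb : (b : G F V) * b = -1 := S.qv_cls_eq_one.1 hx2
    have hrb : ((⟨r, hr⟩ * b : S.R) : G F V) * (⟨r, hr⟩ * b : S.R) = -1 := by
      refine S.qv_cls_eq_one.1 ?_
      have e1 : S.qv (S.cls ⟨r, hr⟩) = 0 := S.qv_cls_eq_zero.2 h
      have e2 : S.qv (S.cls b) = 1 := hx2
      have e3 : S.bf (S.cls ⟨r, hr⟩) (S.cls b) = 0 := hx1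
      rw [S.cls_mul, S.qv_add, e1, e2, e3]
      decide
    have := M.mul_mem (hns _ hrb) (M.inv_mem (hns b hb))
    simpa using this
  · exact hns ⟨r, hr⟩ h

lemma neg_one : (-1 : G F V) ∈ M := hM.R_le S.neg_one

/-- Products of two symmetries are induced by `M`. -/
lemma exists_TT {a b : S.E} (ha : S.qv a = 1) (hb : S.qv b = 1) :
    ∃ n : S.Nm, (n : G F V) ∈ M ∧ S.act n = S.QS'.T a * S.QS'.T b :=
  ⟨⟨_, (S.w_mem (S.sq_of_qv_one ha) (S.sq_of_qv_one hb)).1⟩,
    hM.w_mem (S.sq_of_qv_one ha) (S.sq_of_qv_one hb), LinearEquiv.ext fun x => by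
      rw [S.act_w, S.cls_rep, S.cls_rep]; rfl⟩

/-- Transitivity inside `M`. -/
lemma exists_conj_mem {a b : S.R} (ha : S.cls a ≠ 0) (hb : S.cls b ≠ 0)
    (hab : S.qv (S.cls a) = S.qv (S.cls b)) :
    ∃ n ∈ M, n ∈ S.Nm ∧ PM (n * (a : G F V) * n⁻¹) b := by
  have hk := hM.k_le
  let T : Set S.E := {x | ∃ n : S.Nm, (n : G F V) ∈ M ∧ S.act n (S.cls a) = x}
  have hmem : S.cls b ∈ T := by
    refine S.QS'.orbit (by rw [S.QS'_k]; omega) T ?_ (a := S.cls a)
      ⟨1, M.one_mem, by rw [map_one]; rfl⟩ ha hb hab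
    rintro x ⟨n, hn, rfl⟩ y z hy hz
    obtain ⟨m, hm, hmact⟩ := hM.exists_TT hy hz
    refine ⟨m * n, M.mul_mem hm hn, ?_⟩
    rw [map_mul, hmact]
    rfl
  obtain ⟨n, hn, hn'⟩ := hmem
  rw [S.act_cls'] at hn'
  exact ⟨n, hn, n.2, S.pm_cls.2 hn'⟩

/-- An element of `M` centralising a nonsingular element normalises `R`. -/
lemma centC {y : S.R} (hy : (y : G F V) * y = -1) {g : G F V} (hg : g ∈ M)
    (hgy : g * (y : G F V) = y * g) : g ∈ S.Nm := by
  have hk := hM.k_le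
  have hyq := S.qv_cls_eq_one.2 hy
  have hy0 := S.ns_ne_zero hy
  -- a nonsingular `z` commuting with `y`, of another class
  obtain ⟨x, hxy, hx, hxq⟩ : ∃ x, S.bf (S.cls y) x = 0 ∧ x ≠ S.cls y ∧ S.qv x = 1 := by
    obtain ⟨w, hw⟩ := S.QS'.exists_B_eq_one hy0
    have hw0 : w ≠ 0 := fun e => by rw [e, map_zero] at hw; exact zero_ne_one hw
    have hwy : w ≠ S.cls y := fun e => by rw [e, S.QS'.B_self] at hw; exact zero_ne_one hw
    obtain ⟨x, h1, h2, h3⟩ := S.QS'.exists_vals_q (by rw [S.QS'_k]; omega) hy0 hw0 hwy.symm 0 0 1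
    refine ⟨x, h1, fun e => ?_, h3⟩
    rw [e, S.QS'.B_comm] at h2
    exact one_ne_zero (hw.symm.trans h2)
  obtain ⟨z, rfl⟩ := S.cls_surjective x
  have hz : (z : G F V) * z = -1 := S.qv_cls_eq_one.1 hxq
  have hzy : (z : G F V) * y = y * z := (S.bf_eq_zero.1 hxy).symm
  -- its image
  obtain ⟨z', hz'⟩ : ∃ z' : S.R, (z' : G F V) = g * z * g⁻¹ :=
    ⟨⟨_, hM.cent y hy g hg hgy z z.2 hzy⟩, rfl⟩
  have hz'2 : (z' : G F V) * z' = -1 := by
    rw [hz', show g * (z : G F V) * g⁻¹ * (g * z * g⁻¹) = g * ((z : G F V) * z) * g⁻¹ by group, hz]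
    simp
  have hz'y : (z' : G F V) * y = y * z' := by
    rw [hz', mul_assoc _ g⁻¹, show g⁻¹ * (y : G F V) = y * g⁻¹ by
        rw [inv_mul_eq_iff_eq_mul, ← mul_assoc, hgy, mul_inv_cancel_right],
      ← mul_assoc, mul_assoc g, hzy, ← mul_assoc g, hgy]
    simp only [mul_assoc]
  have hz'ne : S.cls z' ≠ S.cls y := by
    intro e
    refine hx (S.cls_eq_iff.2 ?_)
    rcases S.cls_eq_iff.1 e with e | e
    · left
      rw [hz', eq_mul_inv_iff_mul_eq, ← hgy] at e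
      exact mul_left_cancel e
    · right
      rw [hz', eq_comm, neg_eq_iff_eq_neg, mul_inv_eq_iff_eq_mul, neg_mul, ← hgy, ← mul_neg] at e
      rw [mul_left_cancel e, neg_neg]
  -- an element of `M` in the normaliser undoing this
  obtain ⟨n, hn, hnN, hny, hnz⟩ : ∃ n ∈ M, n ∈ S.Nm ∧ PM (n * (y : G F V) * n⁻¹) y ∧
      PM (n * (z' : G F V) * n⁻¹) z := by
    have hq' := S.qv_cls_eq_one.2 hz'2
    have hy' : S.bf (S.cls y) (S.cls z') = 0 := S.bf_eq_zero.2 hz'y.symm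
    have hmove : ∀ s t : S.E, S.qv s = 1 → S.qv t = 1 → S.bf s t = 1 → S.bf (S.cls y) s = 0 →
        S.bf (S.cls y) t = 0 → ∃ n : S.Nm, (n : G F V) ∈ M ∧ S.act n (S.cls y) = S.cls y ∧
          S.act n s = t := by
      intro s t hs ht hst hys hyt
      obtain ⟨v, v1, v2, v3⟩ := S.QS'.exists_perp₂_one (by rw [S.QS'_k]; omega) (S.cls y) s
      have hu : S.qv (s + t) = 1 := by rw [S.qv_add, hs, ht, hst]; decide
      rw [S.QS'.B_comm] at v1 v2
      obtain ⟨n, hn, hact⟩ := hM.exists_TT hu v3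
      have b1 : S.QS'.B (s + t) (S.cls y) = 0 := by
        rw [S.QS'.B_comm, S.QS'_B, map_add, hys, hyt, add_zero]
      have b2 : S.QS'.B (s + t) s = 1 := by
        rw [S.QS'.B_comm, map_add, S.QS'.B_self, zero_add, S.QS'_B, hst]
      refine ⟨n, hn, ?_, ?_⟩
      · rw [hact, LinearEquiv.mul_apply, S.QS'.T_apply_of_perp v1, S.QS'.T_apply_of_perp b1]
      · rw [hact, LinearEquiv.mul_apply, S.QS'.T_apply_of_perp v2, S.QS'.T_apply_of_one b2,
          QS.add_cancel_left']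
    have hfin : ∃ n : S.Nm, (n : G F V) ∈ M ∧ S.act n (S.cls y) = S.cls y ∧
        S.act n (S.cls z') = S.cls z := by
      by_cases he : S.cls z' = S.cls z
      · exact ⟨1, M.one_mem, by rw [map_one]; rfl, by rw [map_one]; exact he⟩
      rcases zmod2_cases (S.bf (S.cls z') (S.cls z)) with hb | hb
      · have hns : S.cls z' ∉ Submodule.span (ZMod 2) {S.cls y, S.cls z} := by
          intro hmem
          obtain ⟨r, s, hrs⟩ := Submodule.mem_span_pair.1 hmem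
          rcases zmod2_cases r with rfl | rfl <;> rcases zmod2_cases s with rfl | rfl <;>
            simp only [zero_smul, one_smul, zero_add, add_zero] at hrs
          · exact S.QS'.ne_zero_of_q hq' hrs.symm
          · exact he hrs.symm
          · exact hz'ne hrs.symm
          · rw [← hrs, S.qv_add, hyq, hxq, hxy] at hq'
            revert hq'; decide
        obtain ⟨c, c1, c2, c3, c4⟩ := S.QS'.exists_vals₃_one (by rw [S.QS'_k]; omega) hy0
          (S.QS'.ne_zero_of_q hxq) (Ne.symm hx) hns 0 1 1 (Or.inl rfl)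
        obtain ⟨n₁, m1, a1, b1⟩ := hmove _ c hq' c4 c3 hy' c1
        obtain ⟨n₂, m2, a2, b2⟩ := hmove c _ c4 hxq (by rw [S.QS'.B_comm] at c2; exact c2) c1 hxy
        refine ⟨n₂ * n₁, M.mul_mem m2 m1, ?_, ?_⟩ <;> rw [map_mul] <;>
          show S.act n₂ (S.act n₁ _) = _
        · rw [a1, a2]
        · rw [b1, b2]
      · exact hmove _ _ hq' hxq hb hy' hxy
    obtain ⟨n, hn, a1, a2⟩ := hfin
    rw [S.act_cls'] at a1 a2
    exact ⟨n, hn, n.2, S.pm_cls.2 a1, S.pm_cls.2 a2⟩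
  -- the composite fixes both
  set g' := n * g with hg'
  have hPy : PM (g' * (y : G F V) * g'⁻¹) y := by
    rw [hg', show n * g * (y : G F V) * (n * g)⁻¹ = n * (g * y * g⁻¹) * n⁻¹ by group,
      show g * (y : G F V) * g⁻¹ = y by rw [hgy, mul_inv_cancel_right]]
    exact hny
  have hPz : PM (g' * (z : G F V) * g'⁻¹) z := by
    rw [hg', show n * g * (z : G F V) * (n * g)⁻¹ = n * (g * z * g⁻¹) * n⁻¹ by group, ← hz']
    exact hnz
  have hg'N : g' ∈ S.Nm := by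
    -- fix the signs by an element of `R`
    obtain ⟨ey, hey⟩ : ∃ e : ZMod 2, (e = 0 ∧ g' * (y : G F V) * g'⁻¹ = y) ∨
        (e = 1 ∧ g' * (y : G F V) * g'⁻¹ = -y) :=
      hPy.elim (fun h => ⟨0, Or.inl ⟨rfl, h⟩⟩) (fun h => ⟨1, Or.inr ⟨rfl, h⟩⟩)
    obtain ⟨ez, hez⟩ : ∃ e : ZMod 2, (e = 0 ∧ g' * (z : G F V) * g'⁻¹ = z) ∨
        (e = 1 ∧ g' * (z : G F V) * g'⁻¹ = -z) :=
      hPz.elim (fun h => ⟨0, Or.inl ⟨rfl, h⟩⟩) (fun h => ⟨1, Or.inr ⟨rfl, h⟩⟩)
    obtain ⟨c, c1, c2⟩ := S.exists_mem_vals hy0 (S.ns_ne_zero hz) (Ne.symm hx) ey ez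
    have hcy : ∀ (e : ZMod 2) (t : S.R), ((e = 0 ∧ g' * (t : G F V) * g'⁻¹ = t) ∨
        (e = 1 ∧ g' * (t : G F V) * g'⁻¹ = -t)) → S.bf (S.cls t) (S.cls c) = e →
        (c : G F V) * g' * t = t * ((c : G F V) * g') := by
      intro e t h hc
      rcases h with ⟨rfl, h⟩ | ⟨rfl, h⟩
      · rw [mul_assoc, mul_inv_eq_iff_eq_mul.1 h, ← mul_assoc, ← S.bf_eq_zero.1 hc, mul_assoc]
      · rw [mul_assoc, mul_inv_eq_iff_eq_mul.1 h, neg_mul, mul_neg, ← mul_assoc (c : G F V),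
          ← mul_assoc (t : G F V), S.bf_eq_one.1 hc, neg_mul]
    set g'' := (c : G F V) * g' with hg''
    have hg''M : g'' ∈ M := M.mul_mem (hM.R_le c.2) (M.mul_mem hn hg)
    have h1 := hcy ey y hey c1
    have h2 := hcy ez z hez c2
    have : g'' ∈ S.Nm := by
      refine S.mem_Nm_of_conj fun r hr => ?_
      rcases S.comm_sign hr y.2 with e | e
      · exact hM.cent y hy g'' hg''M h1 r hr e
      · obtain ⟨d, d1, d2⟩ := S.exists_mem_vals hy0 (S.ns_ne_zero hz) (Ne.symm hx) 1 0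
        have hrd : r * (d : G F V) * y = y * (r * (d : G F V)) := by
          have hd' : (d : G F V) * y = -(y * d) := by rw [S.bf_eq_one.1 d1, neg_neg]
          rw [mul_assoc, hd', mul_neg, ← mul_assoc, e, neg_mul, neg_neg, mul_assoc]
        have m1 := hM.cent y hy g'' hg''M h1 _ (S.R.mul_mem hr d.2) hrd
        have m2 := hM.cent z hz g'' hg''M h2 d d.2 (S.bf_eq_zero.1 d2).symm
        have := S.R.mul_mem m1 (S.R.inv_mem m2)
        have e2 : g'' * (r * (d : G F V)) * g''⁻¹ * (g'' * (d : G F V) * g''⁻¹)⁻¹ =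
            g'' * r * g''⁻¹ := by group
        rwa [e2] at this
    simpa [hg''] using S.Nm.mul_mem (S.R_le_Nm (S.R.inv_mem c.2)) this
  simpa [hg'] using S.Nm.mul_mem (S.Nm.inv_mem hnN) hg'N

/-- An element of `M` moving a nonsingular element of `R` into `R` normalises `R`. -/
lemma mem_Nm_of_ns {y : S.R} (hy : (y : G F V) * y = -1) {g : G F V} (hg : g ∈ M)
    (h : g * (y : G F V) * g⁻¹ ∈ S.R) : g ∈ S.Nm := by
  set y₁ : S.R := ⟨_, h⟩ with hy₁
  have hy1 : (y₁ : G F V) * y₁ = -1 := by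
    show g * (y : G F V) * g⁻¹ * (g * y * g⁻¹) = -1
    rw [show g * (y : G F V) * g⁻¹ * (g * y * g⁻¹) = g * ((y : G F V) * y) * g⁻¹ by group, hy]
    simp
  obtain ⟨n, hn, hnN, hny⟩ := hM.exists_conj_mem (S.ns_ne_zero hy1) (S.ns_ne_zero hy)
    (by rw [S.qv_cls_eq_one.2 hy1, S.qv_cls_eq_one.2 hy])
  have hP : PM (n * g * (y : G F V) * (n * g)⁻¹) y := by
    rw [show n * g * (y : G F V) * (n * g)⁻¹ = n * (g * y * g⁻¹) * n⁻¹ by group]
    exact hny
  obtain ⟨c, hc, hcomm⟩ := S.exists_fix (S.ns_ne_zero hy) hP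
  have h1 := hM.centC hy (M.mul_mem (hM.R_le hc) (M.mul_mem hn hg)) hcomm
  simpa [mul_assoc] using S.Nm.mul_mem (S.Nm.inv_mem hnN)
    (S.Nm.mul_mem (S.R_le_Nm (S.R.inv_mem hc)) h1)

end Over

end Cfsg.Agent.MaxSub.CSixOp
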