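import Cfsg.Agent.MaxSub.CSixOp.Block

/-!
Two elements that are involutions modulo signs and are not conjugate commute, modulo signs, with a
common third one.
-/

set_option autoImplicit false
set_option linter.unusedSectionVars false
attribute [-instance] AddSubgroupClass.instZModModule

namespace Cfsg.Agent.MaxSub.CSixOp

/-- The middle element of a dihedral group generated by two non-conjugate involutions. -/
lemma exists_mid_invol {H : Type*} [Group H] [Finite H] {a b : H} (ha : a * a = 1) (hb : b * b = 1)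
    (hnc : ∀ g : H, g * a * g⁻¹ ≠ b) :
    ∃ z : H, z ≠ 1 ∧ z * a = a * z ∧ z * b = b * z ∧
      ∃ g : H, a * z = g * a * g⁻¹ ∨ a * z = g * b * g⁻¹ := by
  set d := a * b with hd
  have hai : a⁻¹ = a := inv_eq_of_mul_eq_one_left ha
  have hbi : b⁻¹ = b := inv_eq_of_mul_eq_one_left hb
  have hadb : a * d = b := by rw [hd, ← mul_assoc, ha, one_mul]
  have hflip : ∀ j : ℕ, d ^ j * a = a * (d ^ j)⁻¹ := by
    intro j
    have h1 : a * d * a⁻¹ = d⁻¹ := by rw [hadb, hd, mul_inv_rev, hai, hbi]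
    have h2 : a * d ^ j * a⁻¹ = (d ^ j)⁻¹ := by rw [← conj_pow, h1, inv_pow]
    rw [← h2, hai, ← mul_assoc, ← mul_assoc, ha, one_mul]
  have hA : ∀ j : ℕ, a * d ^ (2 * j) = (d ^ j)⁻¹ * a * ((d ^ j)⁻¹)⁻¹ := by
    intro j
    rw [inv_inv, ← inv_inv (d ^ j), ← mul_inv_cancel_right ((d ^ j)⁻¹)⁻¹ a]
    have : a * (d ^ j)⁻¹ = d ^ j * a := (hflip j).symm
    have h3 : (d ^ j)⁻¹ * a = a * d ^ j := by
      rw [inv_mul_eq_iff_eq_mul, ← mul_assoc, hflip, inv_mul_cancel_right]
    rw [inv_inv, mul_inv_cancel_right, h3, two_mul, pow_add, mul_assoc]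
  have hB : ∀ j : ℕ, a * d ^ (2 * j + 1) = (d ^ j)⁻¹ * b * ((d ^ j)⁻¹)⁻¹ := by
    intro j
    have h3 : (d ^ j)⁻¹ * a = a * d ^ j := by
      rw [inv_mul_eq_iff_eq_mul, ← mul_assoc, hflip, inv_mul_cancel_right]
    rw [inv_inv, ← hadb, ← mul_assoc, h3, mul_assoc, mul_assoc, ← pow_succ', ← pow_add]
    congr 2
    omega
  rcases Nat.even_or_odd' (orderOf d) with ⟨m, hm | hm⟩
  · have hpos := orderOf_pos d
    refine ⟨d ^ m, fun h => ?_, ?_, ?_, ?_⟩
    · have := Nat.le_of_dvd (by omega) (orderOf_dvd_of_pow_eq_one h)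
      omega
    · have h2 : d ^ m * d ^ m = 1 := by rw [← pow_add, ← two_mul, ← hm, pow_orderOf_eq_one]
      rw [hflip, inv_eq_of_mul_eq_one_left h2]
    · have h2 : d ^ m * d ^ m = 1 := by rw [← pow_add, ← two_mul, ← hm, pow_orderOf_eq_one]
      rw [← hadb, ← mul_assoc, hflip, inv_eq_of_mul_eq_one_left h2, mul_assoc, mul_assoc,
        ← pow_succ, ← pow_succ']
    · rcases Nat.even_or_odd' m with ⟨j, rfl | rfl⟩
      · exact ⟨(d ^ j)⁻¹, Or.inl (hA j)⟩
      · exact ⟨(d ^ j)⁻¹, Or.inr (hB j)⟩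
  · exfalso
    have h1 := hB m
    rw [← hm, pow_orderOf_eq_one, mul_one] at h1
    refine hnc ((d ^ m)⁻¹)⁻¹ ?_
    conv_lhs => rw [h1]
    group

variable {F : Type*} [Field F] {V : Type*} [AddCommGroup V] [Module F V]

/-- Equality up to sign. -/
def PM (a b : G F V) : Prop := a = b ∨ a = -b

lemma PM.symm {a b : G F V} (h : PM a b) : PM b a := by
  rcases h with h | h
  · exact Or.inl h.symm
  · exact Or.inr (by rw [h, neg_neg])

lemma PM.refl (a : G F V) : PM a a := Or.inl rfl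

lemma PM.trans {a b c : G F V} (h : PM a b) (h' : PM b c) : PM a c := by
  rcases h with rfl | rfl <;> rcases h' with rfl | rfl
  exacts [Or.inl rfl, Or.inr rfl, Or.inr rfl, Or.inl (neg_neg c)]

lemma PM.conj {a b : G F V} (h : PM a b) (g : G F V) : PM (g * a * g⁻¹) (g * b * g⁻¹) := by
  rcases h with rfl | rfl
  · exact Or.inl rfl
  · exact Or.inr (by rw [mul_neg, neg_mul])

lemma PM.mul_left {a b : G F V} (h : PM a b) (g : G F V) : PM (g * a) (g * b) := by
  rcases h with rfl | rfl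
  · exact Or.inl rfl
  · exact Or.inr (by rw [mul_neg])

lemma PM.mul_right {a b : G F V} (h : PM a b) (g : G F V) : PM (a * g) (b * g) := by
  rcases h with rfl | rfl
  · exact Or.inl rfl
  · exact Or.inr (by rw [neg_mul])

lemma PM.mem {a b : G F V} (h : PM a b) {H : Subgroup (G F V)} (hn : (-1 : G F V) ∈ H)
    (hb : b ∈ H) : a ∈ H := by
  rcases h with rfl | rfl
  · exact hb
  · simpa using H.mul_mem hn hb

lemma PM.sq {a b : G F V} (h : PM a b) : a * a = b * b := by
  rcases h with rfl | rfl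
  · rfl
  · exact neg_mul_neg b b

lemma conj_sq_neg_one {a : G F V} (h : a * a = -1) (g : G F V) :
    g * a * g⁻¹ * (g * a * g⁻¹) = -1 := by
  rw [show g * a * g⁻¹ * (g * a * g⁻¹) = g * (a * a) * g⁻¹ by group, h, mul_neg_one, neg_mul,
    mul_inv_cancel]

lemma pm_conj_of_comm {g a : G F V} (h : g * a = a * g ∨ g * a = -(a * g)) :
    PM (g * a * g⁻¹) a := by
  rcases h with e | e
  · exact Or.inl (by rw [e, mul_inv_cancel_right])
  · exact Or.inr (by rw [e, neg_mul, mul_inv_cancel_right])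

lemma PM.unconj {a b h : G F V} (e : PM a (h * b * h⁻¹)) : PM (h⁻¹ * a * h) b := by
  have := e.conj h⁻¹
  rwa [inv_inv, show h⁻¹ * (h * b * h⁻¹) * h = b by group] at this

lemma gneg_mul (a b : G F V) : -a * b = -(a * b) := neg_mul a b

lemma gmul_neg (a b : G F V) : a * -b = -(a * b) := mul_neg a b

lemma gneg_neg (a : G F V) : - -a = a := neg_neg a

/-- The signs. -/
def signs (F V : Type*) [Field F] [AddCommGroup V] [Module F V] : Subgroup (G F V) where
  carrier := {g | PM g 1}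
  one_mem' := Or.inl rfl
  mul_mem' := by
    rintro a b (rfl | rfl) (rfl | rfl) <;> simp [PM]
  inv_mem' := by
    rintro a (rfl | rfl) <;> simp [PM]

instance : (signs F V).Normal where
  conj_mem := by
    rintro a (rfl | rfl) g
    · exact Or.inl (by simp)
    · exact Or.inr (by simp)

lemma mk_eq_iff {a b : G F V} :
    (QuotientGroup.mk a : G F V ⧸ signs F V) = QuotientGroup.mk b ↔ PM a b := by
  rw [QuotientGroup.eq]
  show PM _ _ ↔ _
  constructor
  · intro h
    have := h.mul_left a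
    rw [mul_inv_cancel_left, mul_one] at this
    exact this.symm
  · intro h
    have := h.symm.mul_left a⁻¹
    rwa [inv_mul_cancel] at this

/-- The middle element, modulo signs, in a finite group of units. -/
lemma exists_mid [Finite (G F V)] {K : Subgroup (G F V)} {a b : G F V} (ha : a ∈ K) (hb : b ∈ K)
    (ha2 : PM (a * a) 1) (hb2 : PM (b * b) 1) (hnc : ∀ g ∈ K, ¬ PM (g * a * g⁻¹) b) :
    ∃ z ∈ K, ¬ PM z 1 ∧ PM (z * a * z⁻¹) a ∧ PM (z * b * z⁻¹) b ∧
      ∃ g ∈ K, PM (a * z) (g * a * g⁻¹) ∨ PM (a * z) (g * b * g⁻¹) := by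
  let π := QuotientGroup.mk' (signs F V)
  let H := K.map π
  obtain ⟨⟨zb, hzb⟩, hz1, hza, hzb', ⟨gb, hgb⟩, hconj⟩ :=
    exists_mid_invol (H := H) (a := ⟨π a, ⟨a, ha, rfl⟩⟩) (b := ⟨π b, ⟨b, hb, rfl⟩⟩)
      (Subtype.ext (show π a * π a = 1 by rw [← map_mul, ← map_one π]; exact mk_eq_iff.2 ha2))
      (Subtype.ext (show π b * π b = 1 by rw [← map_mul, ← map_one π]; exact mk_eq_iff.2 hb2))
      (fun ⟨gb, g, hg, hgb⟩ h => hnc g hg (mk_eq_iff.1 (by
        show π (g * a * g⁻¹) = π b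
        subst hgb
        simpa using congrArg Subtype.val h)))
  obtain ⟨z, hz, rfl⟩ := hzb
  obtain ⟨g, hg, rfl⟩ := hgb
  have e : ∀ c : G F V, π z * π c = π c * π z → PM (z * c * z⁻¹) c := fun c h => mk_eq_iff.1 (by
    show π (z * c * z⁻¹) = π c
    rw [map_mul, map_mul, map_inv, h, mul_inv_cancel_right])
  refine ⟨z, hz, fun h => hz1 (Subtype.ext ?_), e a (congrArg Subtype.val hza),
    e b (congrArg Subtype.val hzb'), g, hg, ?_⟩
  · show π z = 1
    rw [← map_one π]
    exact mk_eq_iff.2 h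
  · refine hconj.imp (fun h => mk_eq_iff.1 ?_) (fun h => mk_eq_iff.1 ?_)
    · show π (a * z) = π (g * a * g⁻¹)
      simpa using congrArg Subtype.val h
    · show π (a * z) = π (g * b * g⁻¹)
      simpa using congrArg Subtype.val h

end Cfsg.Agent.MaxSub.CSixOp
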