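import Cfsg.Agent.MaxSub.CSixOp.Setup

/-!
Invertible matrices as units of the endomorphisms.
-/

set_option autoImplicit false

namespace Cfsg.Agent.MaxSub.CSixOp

open scoped MatrixGroups

variable {F : Type*} [Field F] {n : ℕ}

/-- Invertible matrices as units of the endomorphism ring. -/
noncomputable abbrev glE : GL (Fin n) F ≃* G F (Fin n → F) :=
  Units.mapEquiv (Matrix.toLinAlgEquiv' (R := F) (n := Fin n)).toMulEquiv

lemma glE_apply (g : GL (Fin n) F) (v : Fin n → F) :
    (glE g : Module.End F (Fin n → F)) v = Matrix.mulVec (g : Matrix (Fin n) (Fin n) F) v := rfl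

end Cfsg.Agent.MaxSub.CSixOp
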