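import Cfsg.Agent.GeoClasses.OrthTotDecomp

/-!
A group containing the Levi root elements of two complementary totally singular halves, a swap and
an element moving the pair contains `Ω(Q)`.
-/

set_option autoImplicit false

namespace Cfsg.Agent.MaxSub.CSixOp

open QuadraticMap Module Cfsg.Agent.Classical Cfsg.Agent.GeoClasses

universe u v

/-- Levi root elements, a swap and a mover of two totally singular halves generate `Ω(Q)`. -/
theorem commutator_le_of_halves {F : Type u} [Field F] [Finite F] {V : Type v} [AddCommGroup V]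
    [Module F V] [FiniteDimensional F V] {Q : QuadraticForm F V} (hBn : BNondeg Q)
    {A B : Submodule F V} (hc : IsCompl A B) (hA : ∀ x ∈ A, Q x = 0) (hB : ∀ x ∈ B, Q x = 0)
    (hdA : 6 ≤ finrank F A) (hd : finrank F A = finrank F B) {M : Subgroup (OQ Q)}
    (hK : ∀ u ∈ A, ∀ w ∈ B, ∀ (hu : Q u = 0) (h : polar Q u w = 0), siegel Q hu h ∈ M)
    {s : OQ Q} (hs : s ∈ M) (hsA : ∀ x ∈ A, s.1 x ∈ B) (hsB : ∀ x ∈ B, s.1 x ∈ A)
    {g : OQ Q} (hg : g ∈ M)
    (hmove : ¬ (((∀ x ∈ A, g.1 x ∈ A) ∧ ∀ x ∈ B, g.1 x ∈ B) ∨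
      ((∀ x ∈ A, g.1 x ∈ B) ∧ ∀ x ∈ B, g.1 x ∈ A))) : commutator (OQ Q) ≤ M := by
  have hn : 5 ≤ finrank F V := by
    have := Submodule.finrank_le A
    omega
  have hK' : ∀ w ∈ B, ∀ u ∈ A, ∀ (h0 : Q w = 0) (h : polar Q w u = 0), siegel Q h0 h ∈ M := by
    intro w hw u hu h0 h
    have h' : polar Q u (-w) = 0 := by rw [polar_neg_right, polar_comm, h, neg_zero]
    rw [siegel_swap Q h0 (hA u hu) h h']
    exact hK u hu _ (B.neg_mem hw) _ h'
  obtain ⟨p, x, hp, hpx, hh, hmv⟩ : ∃ p x, ∃ (hp : Q p = 0) (hpx : polar Q p x = 0),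
      siegel Q hp hpx ∈ M ∧ ((∃ y ∈ B, (siegel Q hp hpx).1 y ∉ B) ∨
        ∃ y ∈ A, (siegel Q hp hpx).1 y ∉ A) := by
    by_contra hcon
    push Not at hcon
    refine hmove ?_
    have key : ∀ S : Submodule F V, S = A ∨ S = B →
        Submodule.comap g.1.toLinearMap S = A ∨ Submodule.comap g.1.toLinearMap S = B := by
      intro S hS
      set W := Submodule.comap g.1.toLinearMap S with hWdef
      have hdS : finrank F S = finrank F A := by
        rcases hS with rfl | rfl
        · rfl
        · exact hd.symm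
      have hdW : finrank F W = finrank F A := by
        rw [(Submodule.equivMapOfInjective g.1.toLinearMap g.1.injective W).finrank_eq, hWdef,
          Submodule.map_comap_eq_of_surjective g.1.surjective, hdS]
      have hinv : ∀ u ∈ A, ∀ w ∈ B, polar Q u w = 0 → ∀ y ∈ W,
          y + polar Q u y • w - polar Q w y • u ∈ W := by
        intro u hu w hw huw y hy
        have hmem := mul_mem (mul_mem hg (hK u hu w hw (hA u hu) huw)) (inv_mem hg)
        rw [siegel_conj] at hmem
        obtain ⟨hcB, hcA⟩ := hcon _ _ _ _ hmem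
        have hgy : g.1 y ∈ S := hy
        show g.1 _ ∈ S
        have hval : ∀ (h0 : Q (g.1 u) = 0) (h : polar Q (g.1 u) (g.1 w) = 0),
            (siegel Q h0 h).1 (g.1 y) = g.1 (y + polar Q u y • w - polar Q w y • u) := by
          intro h0 h
          rw [siegel_apply, OQ_polar, OQ_polar, OQ_map_app, hB w hw, map_sub, map_add, map_smul,
            map_smul, zero_mul, zero_smul, sub_zero]
        rcases hS with rfl | rfl
        · rw [← hval]; exact hcA _ hgy
        · rw [← hval]; exact hcB _ hgy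
      rcases orth_invariant_dichotomy hBn hc hA hB (by omega) hinv with h | h
      · exact Or.inr (Submodule.eq_of_le_of_finrank_eq h (hd.symm.trans hdW.symm)).symm
      · exact Or.inl (Submodule.eq_of_le_of_finrank_eq h (hdW))
    have hne : Submodule.comap g.1.toLinearMap A ≠ Submodule.comap g.1.toLinearMap B := fun h => by
      have hAB : A = B := Submodule.comap_injective_of_surjective g.1.surjective h
      rw [hAB] at hc
      have h0 := hc.inf_eq_bot
      rw [inf_idem] at h0
      rw [h0, finrank_bot] at hd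
      omega
    rcases key A (Or.inl rfl) with ha | ha <;> rcases key B (Or.inr rfl) with hb | hb
    · exact (hne (ha.trans hb.symm)).elim
    · exact Or.inl ⟨fun y hy => ha.ge hy, fun y hy => hb.ge hy⟩
    · exact Or.inr ⟨fun y hy => hb.ge hy, fun y hy => ha.ge hy⟩
    · exact (hne (ha.trans hb.symm)).elim
  have hsurj : ∀ (S T : Submodule F V), finrank F S = finrank F T →
      (∀ z ∈ S, s.1 z ∈ T) → ∀ y ∈ T, ∃ a ∈ S, s.1 a = y := by
    intro S T hd hST y hy
    have hmap : S.map s.1.toLinearMap = T := Submodule.eq_of_le_of_finrank_eq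
      (by rintro _ ⟨z, hz, rfl⟩; exact hST z hz)
      (by rw [← (Submodule.equivMapOfInjective _ s.1.injective S).finrank_eq, hd])
    obtain ⟨a, ha, hay⟩ := hmap.ge hy
    exact ⟨a, ha, hay⟩
  have hAX : ∀ e ∈ A, e ∈ siegelCentres Q M := by
    rcases hmv with h | h
    · exact half_subset_siegelCentres hBn hc hA hB (by omega) hK hp hpx hh h
    · have hBX := half_subset_siegelCentres hBn hc.symm hB hA (by omega) hK' hp hpx hh h
      intro e he
      obtain ⟨b, hb, rfl⟩ := hsurj B A hd.symm hsB e he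
      exact map_mem_siegelCentres (hBX b hb) hs
  obtain ⟨y, hy, hy0⟩ := B.exists_mem_ne_zero_of_ne_bot (fun h => by
    rw [h, finrank_bot] at hd; omega)
  obtain ⟨u, hu, -, huy⟩ := orth_pair_vector hBn hc hB (bot_le : (⊥ : Submodule F V) ≤ B) hy
    (by simpa using hy0)
  obtain ⟨a, ha, rfl⟩ := hsurj A B hd hsA y hy
  rw [commutator_eq_EQ hBn hn]
  exact EQ_le_of_siegel_pair hBn hn (hAX u hu) (map_mem_siegelCentres (hAX a ha) hs)
    (by rw [polar_comm, huy]; exact one_ne_zero)

end Cfsg.Agent.MaxSub.CSixOp
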