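import Cfsg.Agent.MaxSub.CSixOp.Core
import Cfsg.Agent.MaxSub.CSix.Linear

/-!
Overgroups of the quarter turns, at an element `y` of square `-1` when `-1` is a square: either the
centraliser of `y` normalises that of `y` in `R`, or the root elements of the Levi factor occur.
-/

set_option autoImplicit false
set_option linter.unusedSectionVars false
attribute [-instance] AddSubgroupClass.instZModModule

namespace Cfsg.Agent.MaxSub.CSixOp

universe u v

variable {F : Type u} [Field F] {V : Type v} [AddCommGroup V] [Module F V]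

namespace Frame

variable {B : LinearMap.BilinForm F V} (S : Frame B)

/-- The quarter turns generate a group containing `R`. -/
lemma R_le_of_w (hk : 4 ≤ S.k) {M : Subgroup (G F V)}
    (hw : ∀ {y z : S.R} (hy : (y : G F V) * y = -1) (hz : (z : G F V) * z = -1), S.w hy hz ∈ M) :
    S.R ≤ M := by
  have hns : ∀ y : S.R, (y : G F V) * y = -1 → (y : G F V) ∈ M := fun y hy => S.w_self hy ▸ hw hy hy
  intro r hr
  rcases S.sq_sign r hr with h | h
  · obtain ⟨x, hx1, hx2⟩ := S.QS'.exists_perp_q (by rw [S.QS'_k]; omega) (S.cls ⟨r, hr⟩) 1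
    obtain ⟨b, rfl⟩ := S.cls_surjective x
    rw [S.QS'_B] at hx1
    rw [S.QS'_q] at hx2
    have hrb : ((⟨r, hr⟩ * b : S.R) : G F V) * (⟨r, hr⟩ * b : S.R) = -1 := by
      refine S.qv_cls_eq_one.1 ?_
      have e1 : S.qv (S.cls ⟨r, hr⟩) = 0 := S.qv_cls_eq_zero.2 h
      rw [S.cls_mul, S.qv_add, e1, hx2, hx1]
      decide
    simpa using M.mul_mem (hns _ hrb) (M.inv_mem (hns b (S.qv_cls_eq_one.1 hx2)))
  · exact hns ⟨r, hr⟩ h

end Frame

/-- Isometries commuting with a skew `y` agreeing on an eigenspace of `y` are equal. -/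
lemma eq_of_eig {B : LinearMap.BilinForm F V} (h2 : (2 : F) ≠ 0)
    (hnd : B.Nondegenerate) {i : F} (hi : i * i = -1) {y : Module.End F V}
    (hyy : ∀ v, y (y v) = -v) (hyiso : ∀ u v, B (y u) (y v) = B u v) {g : G F V} (hg : g ∈ Iso B)
    (hgy : ∀ v, (g : Module.End F V) (y v) = y ((g : Module.End F V) v)) {L : Module.End F V}
    (hL : ∀ u v, B (L u) (L v) = B u v) (hLy : ∀ v, L (y v) = y (L v))
    (heq : ∀ z, y z = i • z → (g : Module.End F V) z = L z) : (g : Module.End F V) = L := by
  have hi0 : i ≠ 0 := fun h => by simp [h] at hi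
  -- the part in the second eigenspace
  have hiso2 : ∀ a b, y a = -(i • a) → y b = -(i • b) → B a b = 0 := fun a b ha hb => by
    have h := hyiso a b
    rw [ha, hb] at h
    simp only [map_neg, LinearMap.neg_apply, map_smul, LinearMap.smul_apply, smul_eq_mul,
      neg_neg] at h
    refine (mul_eq_zero.1 (show (2 : F) * B a b = 0 from ?_)).resolve_left h2
    linear_combination -h + B a b * hi
  have hsec : ∀ z, y z = -(i • z) → (g : Module.End F V) z = L z := by
    intro z hz
    refine sub_eq_zero.1 (hnd.1 _ fun t => ?_)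
    set d := (g : Module.End F V) z - L z with hd
    have hyd : y d = -(i • d) := by
      rw [hd, map_sub, ← hgy, ← hLy, hz, map_neg, map_neg, map_smul, map_smul, smul_sub]
      abel
    -- split `t`
    obtain ⟨t₁, t₂, ht₁, ht₂, rfl⟩ : ∃ t₁ t₂, y t₁ = i • t₁ ∧ y t₂ = -(i • t₂) ∧ t = t₁ + t₂ := by
      refine ⟨(2 : F)⁻¹ • (t + -(i • y t)), (2 : F)⁻¹ • (t + i • y t), ?_, ?_, ?_⟩
      · simp only [map_smul, map_add, map_neg, hyy]
        linear_combination (norm := module) ((2 : F)⁻¹ * hi) • y t
      · simp only [map_smul, map_add, hyy]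
        linear_combination (norm := module) ((2 : F)⁻¹ * hi) • y t
      · match_scalars <;> field_simp <;> ring
    rw [map_add, hiso2 d t₂ hyd ht₂, add_zero]
    set t' := ((g⁻¹ : G F V) : Module.End F V) t₁
    have hgt : (g : Module.End F V) t' = t₁ := by
      rw [← Module.End.mul_apply, ← Units.val_mul, mul_inv_cancel]; rfl
    have ht' : y t' = i • t' := by
      have h1 := hgy t'
      rw [hgt, ht₁, ← hgt, ← map_smul] at h1
      have := congrArg ((g⁻¹ : G F V) : Module.End F V) h1
      simp only [← Module.End.mul_apply, ← mul_assoc, ← Units.val_mul, inv_mul_cancel, Units.val_one,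
        one_mul, Module.End.one_apply] at this
      exact this
    rw [hd, map_sub, LinearMap.sub_apply, ← hgt, hg]
    conv_lhs => rw [heq t' ht', hL]
    exact sub_self _
  refine LinearMap.ext fun t => ?_
  have e : t = (2 : F)⁻¹ • (t + -(i • y t)) + (2 : F)⁻¹ • (t + i • y t) := by
    match_scalars <;> field_simp <;> ring
  rw [e, map_add, map_add L, heq _ ?_, hsec _ ?_]
  · simp only [map_smul, map_add, hyy]
    linear_combination (norm := module) ((2 : F)⁻¹ * hi) • y t
  · simp only [map_smul, map_add, map_neg, hyy]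
    linear_combination (norm := module) ((2 : F)⁻¹ * hi) • y t

open CSix

/-- The dichotomy at `y` when `i² = -1` in `F`. -/
theorem cent_or_root_lin [Fintype F] {B : LinearMap.BilinForm F V} (S : Frame B) (hk : 4 ≤ S.k)
    {p : ℕ} (hp : p.Prime) (hcard : Fintype.card F = p) {i : F} (hi : i * i = -1)
    {M : Subgroup (G F V)} (hle : M ≤ Iso B)
    (hw : ∀ {y z : S.R} (hy : (y : G F V) * y = -1) (hz : (z : G F V) * z = -1), S.w hy hz ∈ M)
    (y : S.R) (hy : (y : G F V) * y = -1) :
    (∀ g ∈ M, g * (y : G F V) = y * g → ∀ r ∈ S.R, r * (y : G F V) = y * r → g * r * g⁻¹ ∈ S.R) ∨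
    (∀ u w : V, ((y : G F V) : Module.End F V) u = i • u →
      ((y : G F V) : Module.End F V) w = -(i • w) → B u w = 0 →
      ∃ g ∈ M, ∀ v, (g : Module.End F V) v = v + B u v • w - B w v • u) := by
  classical
  have h2 := S.two_ne
  have hi0 : i ≠ 0 := fun h => by simp [h] at hi
  have := S.nontrivial
  have := S.finite_dim
  have hRM := S.R_le_of_w hk hw
  set Y : Module.End F V := ((y : G F V) : Module.End F V) with hY
  have hYY : Y * Y = -1 := by simpa [hY] using congrArg Units.val hy
  have hyy : ∀ v, Y (Y v) = -v := fun v => by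
    simpa using congrArg (fun f : Module.End F V => f v) hYY
  have hyiso : ∀ u v, B (Y u) (Y v) = B u v := S.isom _ y.2
  let R₁ : Set (Module.End F V) :=
    {f | ∃ r ∈ S.R, f = (r : Module.End F V) ∨ f = i • (r : Module.End F V)}
  have hD : Data i R₁ := by
    refine ⟨hi, h2, ⟨1, S.R.one_mem, Or.inr (by simp)⟩, ?_, ?_, ?_, ?_⟩
    · rintro _ ⟨a, ha, e⟩ _ ⟨b, hb, e'⟩
      rcases e with rfl | rfl <;> rcases e' with rfl | rfl
      · exact ⟨a * b, S.R.mul_mem ha hb, Or.inl (by simp)⟩
      · exact ⟨a * b, S.R.mul_mem ha hb, Or.inr (by simp)⟩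
      · exact ⟨a * b, S.R.mul_mem ha hb, Or.inr (by simp)⟩
      · refine ⟨-(a * b), S.neg_mem (S.R.mul_mem ha hb), Or.inl ?_⟩
        rw [smul_mul_smul_comm, hi, Units.val_neg, Units.val_mul, neg_one_smul]
    · rintro _ ⟨a, ha, e⟩ _ ⟨b, hb, e'⟩
      refine (S.comm_sign ha hb).imp (fun h => ?_) (fun h => ?_)
      all_goals
        have h' := congrArg Units.val h
        simp only [Units.val_mul, Units.val_neg] at h'
        rcases e with rfl | rfl <;> rcases e' with rfl | rfl <;>
          simp [h', smul_smul, mul_comm]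
    · rintro _ ⟨a, ha, e⟩
      rcases S.sq_sign a ha with h | h <;> rcases e with rfl | rfl
      all_goals
        have h' := congrArg Units.val h
        simp only [Units.val_mul, Units.val_neg, Units.val_one] at h'
      · exact Or.inl h'
      · exact Or.inr (by rw [smul_mul_smul_comm, hi, h', neg_one_smul])
      · exact Or.inr h'
      · exact Or.inl (by rw [smul_mul_smul_comm, hi, h', neg_one_smul, neg_neg])
    · refine eq_top_iff.2 (S.span_eq.ge.trans (Submodule.span_mono ?_))
      rintro _ ⟨r, hr, rfl⟩
      exact ⟨r, hr, Or.inl rfl⟩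
  set x : Module.End F V := (-i) • Y with hx
  have hxR : x ∈ R₁ := ⟨-(y : G F V), S.neg_mem y.2, Or.inr (by
    rw [hx, Units.val_neg, smul_neg, neg_smul])⟩
  have hxx : x * x = 1 := by
    rw [hx, smul_mul_smul_comm, hYY, neg_mul_neg, hi, neg_one_smul, neg_neg]
  obtain ⟨a, ha⟩ := S.exists_anti (S.ns_ne_zero hy)
  set A : Module.End F V := ((a : G F V) : Module.End F V) with hA
  have hYA : Y * A = -(A * Y) := by simpa [hY, hA] using congrArg Units.val ha
  have hns : NS x := hD.ns_of_anticomm (p := A) ⟨a, a.2, Or.inl rfl⟩ hxR (by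
    rw [hx, smul_mul_assoc, mul_smul_comm, hYA, smul_neg])
  have hW1 := finrank_eig_of_mem hD hxR hxx hns
  rw [S.dim, show 2 ^ S.k = 2 * 2 ^ (S.k - 1) by rw [← pow_succ']; congr 1; omega] at hW1
  have hW8 : 8 ≤ Module.finrank F (Eig x) := by
    have : 2 ^ 3 ≤ 2 ^ (S.k - 1) := Nat.pow_le_pow_right two_pos (by omega)
    omega
  have hW0 : Nontrivial (Eig x) := nontrivial_eig hD hxR hxx hns
  have hDW := hD.res hxR hxx
  have hmem : ∀ v, v ∈ Eig x ↔ Y v = i • v := by
    intro v
    rw [mem_eig, hx, LinearMap.smul_apply]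
    constructor
    · intro h
      conv_rhs => rw [← h]
      rw [smul_smul, mul_neg, hi, neg_neg, one_smul]
    · intro h
      rw [h, smul_smul, neg_mul, hi, neg_neg, one_smul]
  have hcomm : ∀ f : Module.End F V, x * f = f * x ↔ Y * f = f * Y := by
    intro f
    rw [hx, smul_mul_assoc, mul_smul_comm]
    exact (smul_right_injective _ (neg_ne_zero.2 hi0)).eq_iff
  let G₁ : Set (Module.End F (Eig x)) :=
    {φ | ∃ c : F, c ≠ 0 ∧ ∃ g ∈ M, Y * (g : Module.End F V) = g * Y ∧
      ∀ w : Eig x, (φ w : V) = c • (g : Module.End F V) w}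
  -- every restriction is that of an element of `R` commuting with `y`
  have hlift : ∀ φ ∈ Res x R₁, ∃ r ∈ S.R, Y * (r : Module.End F V) = r * Y ∧
      ∀ w : Eig x, (φ w : V) = (r : Module.End F V) w := by
    rintro φ ⟨_, ⟨r, hr, e⟩, hfc, hφ⟩
    rcases e with rfl | rfl
    · exact ⟨r, hr, (hcomm _).1 hfc, hφ⟩
    · have hrc : Y * (r : Module.End F V) = r * Y := by
        refine smul_right_injective _ hi0 (?_ : i • _ = i • _)
        rw [← mul_smul_comm, ← smul_mul_assoc]
        exact (hcomm _).1 hfc
      refine ⟨(y : G F V) * r, S.R.mul_mem y.2 hr, ?_, fun w => ?_⟩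
      · rw [Units.val_mul, mul_assoc, ← hrc]
      · rw [hφ w, LinearMap.smul_apply, Units.val_mul, Module.End.mul_apply]
        show _ = Y _
        rw [← Module.End.mul_apply Y, hrc, Module.End.mul_apply, (hmem w).1 w.2, map_smul]
  have hG : Grp i (Res x R₁) G₁ := by
    refine ⟨?_, ?_, ?_, ?_, ?_⟩
    · rintro φ ⟨c, hc, g, hg, hgY, hφ⟩
      have hgY' : Y * ((g⁻¹ : G F V) : Module.End F V) = ((g⁻¹ : G F V) : Module.End F V) * Y := by
        have h' : Commute Y (g : Module.End F V) := hgY
        exact h'.units_inv_right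
      let ψ : Module.End F (Eig x) :=
        resEl x (c⁻¹ • ((g⁻¹ : G F V) : Module.End F V))
          ((show Commute x ((g⁻¹ : G F V) : Module.End F V) from (hcomm _).2 hgY').smul_right c⁻¹).eq
      refine ⟨ψ, ⟨c⁻¹, inv_ne_zero hc, g⁻¹, M.inv_mem hg, hgY', fun w => rfl⟩, ?_, ?_⟩ <;>
        refine LinearMap.ext fun w => Subtype.ext ?_
      · rw [Module.End.mul_apply, hφ, resEl_coe, LinearMap.smul_apply, map_smul, smul_smul,
          mul_inv_cancel₀ hc, one_smul, ← Module.End.mul_apply, ← Units.val_mul, mul_inv_cancel]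
        rfl
      · rw [Module.End.mul_apply, resEl_coe, hφ, LinearMap.smul_apply, map_smul, smul_smul,
          inv_mul_cancel₀ hc, one_smul, ← Module.End.mul_apply, ← Units.val_mul, inv_mul_cancel]
        rfl
    · rintro φ ⟨c, hc, g, hg, hgY, hφ⟩ ψ ⟨d, hd, h, hh, hhY, hψ⟩
      refine ⟨c * d, mul_ne_zero hc hd, g * h, M.mul_mem hg hh, ?_, fun w => ?_⟩
      · rw [Units.val_mul, ← mul_assoc, hgY, mul_assoc, hhY, mul_assoc]
      · rw [Module.End.mul_apply, hφ, hψ, map_smul, smul_smul, Units.val_mul, Module.End.mul_apply]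
    · intro c hc
      exact ⟨c, hc, 1, M.one_mem, by simp, fun w => by simp⟩
    · intro φ hφ
      obtain ⟨r, hr, hrY, h⟩ := hlift φ hφ
      exact ⟨1, one_ne_zero, r, hRM hr, hrY, fun w => by rw [h, one_smul]⟩
    · intro φ hφR hsq
      obtain ⟨r, hr, hrY, h⟩ := hlift φ hφR
      obtain ⟨w₀, hw₀⟩ := exists_ne (0 : Eig x)
      have hr2 : r * r = 1 := (S.sq_sign r hr).resolve_right fun e => by
        have e1 := congrArg (fun f : Module.End F (Eig x) => ((f w₀ : Eig x) : V)) hsq
        have e2 := congrArg (fun f : G F V => (f : Module.End F V) w₀) e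
        simp only [Module.End.mul_apply, h, Module.End.one_apply] at e1
        simp only [Units.val_mul, Module.End.mul_apply, Units.val_neg, Units.val_one,
          LinearMap.neg_apply, Module.End.one_apply, e1] at e2
        refine hw₀ (Subtype.ext ((smul_eq_zero.1 ?_).resolve_left h2))
        rw [two_smul]
        nth_rewrite 1 [e2]
        exact neg_add_cancel _
      have hry : r * (y : G F V) = y * r := Units.ext hrY.symm
      have hs : ((⟨r, hr⟩ * y : S.R) : G F V) * (⟨r, hr⟩ * y : S.R) = -1 := by
        show r * (y : G F V) * (r * y) = -1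
        rw [mul_assoc, ← mul_assoc (y : G F V), ← hry, mul_assoc r (y : G F V), hy, ← mul_assoc, hr2,
          one_mul]
      have hrY' : ∀ v, (r : Module.End F V) (Y v) = Y ((r : Module.End F V) v) := fun v =>
        (congrArg (fun f : Module.End F V => f v) hrY).symm
      refine ⟨1 - i, fun e => h2 (by linear_combination hi + (1 + i) * e), _, hw hy hs, ?_,
        fun w => ?_⟩
      · refine LinearMap.ext fun v => ?_
        simp only [Module.End.mul_apply, S.w_val, LinearMap.smul_apply, LinearMap.add_apply,
          Module.End.one_apply, map_smul, map_add, Subgroup.coe_mul, Units.val_mul, ← hY, hrY']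
      · simp only [S.w_val, LinearMap.smul_apply, LinearMap.add_apply, Module.End.mul_apply,
          Module.End.one_apply, map_add, Subgroup.coe_mul, Units.val_mul, Submodule.coe_add,
          Submodule.coe_smul, h, ← hY, (hmem w).1 w.2, map_smul, ← hrY']
        match_scalars <;> field_simp
        all_goals first | ring1 | linear_combination hi | linear_combination (-1 : F) * hi
  -- the restriction determines an element
  have hext : ∀ g ∈ Iso B, Y * (g : Module.End F V) = g * Y → ∀ L : Module.End F V,
      (∀ u v, B (L u) (L v) = B u v) → (∀ v, L (Y v) = Y (L v)) →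
      (∀ w : Eig x, (g : Module.End F V) (w : V) = L (w : V)) → (g : Module.End F V) = L :=
    fun g hg hgY L hL hLY h => eq_of_eig h2 S.nondeg hi hyy hyiso hg
      (fun v => (congrArg (fun f : Module.End F V => f v) hgY).symm) hL hLY
      fun z hz => h ⟨z, (hmem z).2 hz⟩
  rcases normalises_or_sl hp hcard hDW hG (by omega) with hN | hSL
  · left
    intro g hg hgy r hr hry
    have hgY : Y * (g : Module.End F V) = g * Y := by
      simpa [hY] using congrArg Units.val hgy.symm
    have hrY : Y * (r : Module.End F V) = r * Y := by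
      simpa [hY] using congrArg Units.val hry.symm
    have hφ : resEl x (g : Module.End F V) ((hcomm _).2 hgY) ∈ G₁ :=
      ⟨1, one_ne_zero, g, hg, hgY, fun w => by simp⟩
    obtain ⟨φ', hφ', e⟩ := hN _ hφ (resEl x (r : Module.End F V) ((hcomm _).2 hrY))
      ⟨_, ⟨r, hr, Or.inl rfl⟩, (hcomm _).2 hrY, fun w => rfl⟩
    obtain ⟨r', hr', hr'Y, hφr⟩ := hlift φ' hφ'
    suffices g * r = r' * g by rw [this, mul_inv_cancel_right]; exact hr'
    refine Units.ext (hext (g * r) ((Iso B).mul_mem (hle hg) (S.R_le_Iso hr)) ?_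
      ((r' * g : G F V) : Module.End F V) ((Iso B).mul_mem (S.R_le_Iso hr') (hle hg)) ?_ fun w => ?_)
    · rw [Units.val_mul, ← mul_assoc, hgY, mul_assoc, hrY, mul_assoc]
    · intro v
      have h' : Y * ((r' * g : G F V) : Module.End F V) = (r' * g : G F V) * Y := by
        rw [Units.val_mul, ← mul_assoc, hr'Y, mul_assoc, hgY, mul_assoc]
      exact (congrArg (fun f : Module.End F V => f v) h').symm
    · have := congrArg (fun f : Module.End F (Eig x) => ((f w : Eig x) : V)) e
      simp only [Module.End.mul_apply, hφr, resEl_coe] at this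
      rw [Units.val_mul, Units.val_mul, Module.End.mul_apply, Module.End.mul_apply]
      exact this
  · right
    intro u w hu hw' huw
    set N₀ : Module.End F V := LinearMap.smulRight (B w) u with hN₀
    have hskew : ∀ a b, B (Y a) b = -B a (Y b) := fun a b => by
      rw [← hyiso a (Y b), hyy, map_neg, neg_neg]
    have hN₀mem : ∀ z : Eig x, N₀ z ∈ Eig x := fun z => by
      rw [hmem, hN₀, LinearMap.smulRight_apply, map_smul, hu, smul_comm]
    set f : Module.End F (Eig x) :=
      1 - LinearMap.codRestrict (Eig x) (N₀.comp (Eig x).subtype) hN₀mem with hf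
    have hfz : ∀ z : Eig x, (f z : V) = (z : V) - B w (z : V) • u := fun z => by
      simp [hf, hN₀]
    have hwu : B w u = 0 := by rw [S.symm]; exact huw
    have hpow : ∀ (n : ℕ) (z : Eig x), ((f ^ n) z : V) = (z : V) - (n : F) • (B w (z : V) • u) := by
      intro n
      induction n with
      | zero => intro z; simp
      | succ n ih =>
        intro z
        rw [pow_succ', Module.End.mul_apply, hfz, ih, map_sub, map_smul, map_smul, hwu, smul_zero,
          smul_zero, sub_zero, Nat.cast_succ, add_smul, one_smul]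
        abel
    haveI := Fact.mk hp
    haveI : CharP F p := charP_of_card_eq_prime hcard
    have hfdet : LinearMap.det f = 1 := by
      have h1 : f ^ p = 1 := LinearMap.ext fun z => Subtype.ext (by
        rw [hpow, CharP.cast_eq_zero, zero_smul, sub_zero]; rfl)
      have := congrArg LinearMap.det h1
      rw [map_pow, map_one, ← hcard, FiniteField.pow_card] at this
      exact this
    obtain ⟨c, hc, g, hg, hgY, hfg⟩ := hSL f hfdet
    set e := (p - 1) * (p - 1) with he
    have hce : c ^ e = 1 := by
      rw [he, pow_mul, ← hcard, FiniteField.pow_card_sub_one_eq_one c hc, one_pow]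
    have heF : (e : F) = 1 := by
      rw [he, Nat.cast_mul, Nat.cast_sub hp.one_le, CharP.cast_eq_zero, Nat.cast_one]
      ring
    have hge : ∀ (n : ℕ) (z : Eig x), ((f ^ n) z : V) = c ^ n • ((g ^ n : G F V) : Module.End F V) z := by
      intro n
      induction n with
      | zero => intro z; simp
      | succ n ih =>
        intro z
        rw [pow_succ', Module.End.mul_apply, hfg, ih, map_smul, smul_smul, ← pow_succ', pow_succ' g,
          Units.val_mul, Module.End.mul_apply]
    have hgeY : Y * ((g ^ e : G F V) : Module.End F V) = ((g ^ e : G F V) : Module.End F V) * Y := by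
      rw [Units.val_pow_eq_pow_val]
      exact (show Commute Y (g : Module.End F V) from hgY).pow_right e
    refine ⟨g ^ e, M.pow_mem hg e, fun v => ?_⟩
    have hiw : B w w = 0 := by
      have h := hyiso w w
      rw [hw'] at h
      simp only [map_neg, LinearMap.neg_apply, map_smul, LinearMap.smul_apply, smul_eq_mul] at h
      refine (mul_eq_zero.1 (show (2 : F) * B w w = 0 from ?_)).resolve_left h2
      linear_combination -h + B w w * hi
    have hiu : ∀ z, Y z = i • z → B u z = 0 := fun z hz => by
      have h := hyiso u z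
      rw [hu, hz] at h
      simp only [map_smul, LinearMap.smul_apply, smul_eq_mul] at h
      refine (mul_eq_zero.1 (show (2 : F) * B u z = 0 from ?_)).resolve_left h2
      linear_combination -h + B u z * hi
    have hL := hext (g ^ e) (hle (M.pow_mem hg e)) hgeY
      (1 + (LinearMap.smulRight (B u) w - LinearMap.smulRight (B w) u)) ?_ ?_ ?_
    · rw [hL]
      simp only [LinearMap.add_apply, Module.End.one_apply, LinearMap.sub_apply,
        LinearMap.smulRight_apply]
      abel
    · intro a b
      simp only [LinearMap.add_apply, Module.End.one_apply, LinearMap.sub_apply,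
        LinearMap.smulRight_apply, map_add, map_sub, map_smul, LinearMap.smul_apply, smul_eq_mul]
      rw [S.symm a w, S.symm a u, huw, hwu, hiu u hu, hiw]
      ring
    · intro a
      simp only [LinearMap.add_apply, Module.End.one_apply, LinearMap.sub_apply,
        LinearMap.smulRight_apply, map_add, map_sub, map_smul, hu, hw']
      have e1 : B u (Y a) = -(i * B u a) := by
        rw [← neg_eq_iff_eq_neg, ← hskew, hu, map_smul, LinearMap.smul_apply, smul_eq_mul]
      have e2 : B w (Y a) = i * B w a := by
        rw [← neg_inj, ← hskew, hw', map_neg, LinearMap.neg_apply, map_smul, LinearMap.smul_apply,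
          smul_eq_mul]
      rw [e1, e2]
      module
    · intro z
      have hz := hpow e z
      rw [hge, hce, one_smul, heF, one_smul] at hz
      rw [hz]
      simp only [LinearMap.add_apply, Module.End.one_apply, LinearMap.sub_apply,
        LinearMap.smulRight_apply]
      rw [hiu z ((hmem z).1 z.2), zero_smul, zero_sub, sub_eq_add_neg]

end Cfsg.Agent.MaxSub.CSixOp
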