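import Cfsg.Agent.MaxSub.CSixOp.Gl
import Cfsg.Agent.MaxSub.LinearClasses
import Cfsg.Agent.ClassicalMax.SympCases
import Cfsg.Agent.GeoClasses.OrthMaxBase

/-!
Symplectic-type groups of matrices preserving a quadratic form give frames.
-/

set_option autoImplicit false
set_option linter.unusedSectionVars false
attribute [-instance] AddSubgroupClass.instZModModule

namespace Cfsg.Agent.MaxSub.CSixOp

open Cfsg.Geo Cfsg.Agent Cfsg.Agent.Classical
open scoped Matrix MatrixGroups

variable {F : Type*} [Field F] {n : ℕ}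

/-- A class two group of exponent four with scalar centre. -/
lemma class_two_of_symplecticType [Finite F] {R : Subgroup (GL (Fin n) F)}
    (hR : IsSymplecticTypeGroup 2 R) (hZ : Nat.card (Subgroup.center R) = 2) :
    commutator R ≤ Subgroup.center R := by
  haveI : Fact (Nat.Prime 2) := ⟨Nat.prime_two⟩
  haveI : Group.IsNilpotent R := hR.pGroup.isNilpotent
  refine ClassicalMax.commutator_le_center_of_exponent_four (fun x => ?_)
    hR.cyclic_of_characteristic hZ
  have h := Monoid.pow_exponent_eq_one x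
  rwa [hR.exponent_eq] at h

lemma degree_of_symplecticType [Finite F] (hn : 0 < n) {k : ℕ} {R : Subgroup (GL (Fin n) F)}
    (hR : IsSymplecticTypeGroup 2 R) (hirr : ActsAbsolutelyIrreducibly (matrixSet R))
    (hc : Nat.card R = 2 ^ (1 + 2 * k)) (hZ : Nat.card (Subgroup.center R) = 2) : 2 ^ k = n := by
  haveI : Nonempty (Fin n) := ⟨⟨0, hn⟩⟩
  have hsq := MaxSub.sq_card_eq_index_center hirr (class_two_of_symplecticType hR hZ)
  have hmul := (Subgroup.center R).card_mul_index
  rw [hc, hZ, pow_add, pow_one, ← hsq, Fintype.card_fin] at hmul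
  have := Nat.eq_of_mul_eq_mul_left two_pos hmul
  rw [mul_comm 2 k, pow_mul] at this
  exact (Nat.pow_left_injective two_ne_zero this).symm

/-- A symplectic-type group of isometries of a quadratic form gives a frame. -/
theorem exists_frame_of_group {F : Type*} [Field F] [Fintype F] {n k : ℕ} (hn : 0 < n)
    (h2 : (2 : F) ≠ 0) {Qf : QuadraticForm F (Fin n → F)} (hB : BNondeg Qf)
    {R : Subgroup (GL (Fin n) F)} (hR : Cfsg.Geo.IsSymplecticTypeGroup 2 R)
    (hirr : Cfsg.Geo.ActsAbsolutelyIrreducibly (Cfsg.Geo.matrixSet R))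
    (hRD : R ≤ Cfsg.isometryGroup F ⇑Qf) (hcard : Nat.card R = 2 ^ (1 + 2 * k))
    (hZ : Nat.card (Subgroup.center R) = 2) :
    ∃ S : Frame (QuadraticMap.polarBilin Qf), S.k = k ∧ 2 ^ k = n ∧
      S.R = R.map glE.toMonoidHom := by
  have hdeg := degree_of_symplecticType hn hR hirr hcard hZ
  have hcl := class_two_of_symplecticType hR hZ
  have : Nonempty (Fin n) := ⟨⟨0, hn⟩⟩
  have hQ : ∀ g ∈ R, ∀ u, Qf ((g : Matrix (Fin n) (Fin n) F) *ᵥ u) = Qf u :=
    fun g hg u => hRD hg u u
  obtain ⟨v, hv⟩ : ∃ v, Qf v ≠ 0 := by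
    by_contra h
    push_neg at h
    obtain ⟨x, hx⟩ : ∃ x : Fin n → F, x ≠ 0 := exists_ne 0
    exact hx (hB x fun y => by simp [QuadraticMap.polar, h])
  -- central elements are signs
  have hcen : ∀ z : R, z ∈ Subgroup.center R → (z : GL (Fin n) F) = 1 ∨
      (z : GL (Fin n) F) = -1 := by
    intro z hz
    obtain ⟨c, hc⟩ := MaxSub.exists_scalar_of_mem_center hirr hz
    have h := hQ _ z.2 v
    rw [hc, Matrix.smul_mulVec, Matrix.one_mulVec, QuadraticMap.map_smul, smul_eq_mul] at h
    rcases mul_self_eq_one_iff.1 (mul_right_cancel₀ hv (h.trans (one_mul _).symm)) with rfl | rfl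
    · exact Or.inl (Units.ext (by simpa using hc))
    · exact Or.inr (Units.ext (by simpa using hc))
  have hneg : (-1 : GL (Fin n) F) ∈ R := by
    have : Nontrivial (Subgroup.center R) :=
      Finite.one_lt_card_iff_nontrivial.1 (by rw [hZ]; norm_num)
    obtain ⟨z, hz⟩ := exists_ne (1 : Subgroup.center R)
    rcases hcen z z.2 with h | h
    · exact absurd (Subtype.ext (Subtype.ext h)) hz
    · exact h ▸ (z : R).2
  have hsq : ∀ g ∈ R, g * g = 1 ∨ g * g = -1 := by
    intro g hg
    refine hcen ⟨g * g, R.mul_mem hg hg⟩ (Subgroup.mem_center_iff.2 fun h => ?_)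
    set g' : R := ⟨g, hg⟩
    show h * (g' * g') = g' * g' * h
    set c := g' * h * g'⁻¹ * h⁻¹
    have hc : c ∈ Subgroup.center R := hcl (by
      have := Subgroup.commutator_mem_commutator (Subgroup.mem_top g') (Subgroup.mem_top h)
      simpa [c, commutatorElement_def, commutator_def] using this)
    have e1 : g' * h = c * h * g' := by simp only [c]; group
    have hc2 : c * c = 1 := by
      refine Subtype.ext ?_
      rcases hcen c hc with e | e <;> rw [Subgroup.coe_mul, e] <;> simp
    have e2 : g' * g' * h = c * c * (h * (g' * g')) := by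
      rw [mul_assoc g', e1, show g' * (c * h * g') = (g' * c) * h * g' by simp only [mul_assoc],
        Subgroup.mem_center_iff.1 hc g', show c * g' * h * g' = c * (g' * h) * g' by
          simp only [mul_assoc], e1]
      simp only [mul_assoc]
    rw [e2, hc2, one_mul]
  have hBn : (QuadraticMap.polarBilin Qf).Nondegenerate := by
    have hflip : ∀ u w, QuadraticMap.polarBilin Qf u w = QuadraticMap.polarBilin Qf w u :=
      fun u w => QuadraticMap.polar_comm _ u w
    exact ⟨fun x hx => hB x hx, fun y hy => hB y fun x => (hflip y x).trans (hy x)⟩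
  have hneg' : glE (-1 : GL (Fin n) F) = -1 := by
    refine Units.ext (LinearMap.ext fun u => ?_)
    rw [glE_apply]
    simp [Matrix.neg_mulVec]
  refine ⟨⟨h2, fun u w => QuadraticMap.polar_comm _ u w, hBn, R.map glE.toMonoidHom, ?_, ?_, ?_, ?_,
    k, ?_⟩, rfl, hdeg, rfl⟩
  · rintro _ ⟨g, hg, rfl⟩ u w
    show QuadraticMap.polar Qf ((glE g : Module.End F _) u) ((glE g : Module.End F _) w) =
      QuadraticMap.polar Qf u w
    simp only [glE_apply, QuadraticMap.polar, ← Matrix.mulVec_add, hQ g hg]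
  · exact ⟨-1, hneg, hneg'⟩
  · rintro _ ⟨g, hg, rfl⟩
    rcases hsq _ hg with e | e
    · exact Or.inl (by show glE g * glE g = 1; rw [← map_mul, e, map_one])
    · exact Or.inr (by show glE g * glE g = -1; rw [← map_mul, e, hneg'])
  · have h1 := Cfsg.Agent.GeoClasses.spanAlg_toSubmodule (F := F) R
    rw [Cfsg.Agent.GeoClasses.spanAlg_eq_top hirr, Algebra.top_toSubmodule] at h1
    refine eq_top_iff.2 fun f _ => ?_
    set L : Matrix (Fin n) (Fin n) F ≃ₐ[F] Module.End F (Fin n → F) := Matrix.toLinAlgEquiv'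
    have hf : L.symm f ∈ Submodule.span F (matrixSet R) := h1 ▸ Submodule.mem_top
    have h3 := Submodule.mem_map_of_mem (f := L.toLinearMap) hf
    rw [Submodule.map_span, AlgEquiv.toLinearMap_apply, AlgEquiv.apply_symm_apply] at h3
    refine Submodule.span_mono ?_ h3
    rintro _ ⟨_, ⟨g, hg, rfl⟩, rfl⟩
    exact ⟨glE g, ⟨g, hg, rfl⟩, rfl⟩
  · rw [Module.finrank_fin_fun, hdeg]

end Cfsg.Agent.MaxSub.CSixOp
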