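import Cfsg.Agent.MaxSub.CSixOp.Core

/-!
The quarter turns lie in the commutator subgroup of the isometry group; a normalising isometry
moving little is trivial.
-/

set_option autoImplicit false
set_option linter.unusedSectionVars false
attribute [-instance] AddSubgroupClass.instZModModule

namespace Cfsg.Agent.MaxSub.CSixOp

open scoped commutatorElement

variable {F : Type*} [Field F] {V : Type*} [AddCommGroup V] [Module F V]

lemma commutator_mul_center {H : Type*} [Group H] {a b d c : H} (hda : Commute d a)
    (hdb : Commute d b) (hc : ∀ h : H, Commute c h) : ⁅c * (a * d), c * (b * d)⁆ = ⁅a, b⁆ := by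
  have h1 : ∀ h t, c * h * t * (c * h)⁻¹ = h * t * h⁻¹ := fun h t => by
    rw [mul_inv_rev, show c * h * t * (h⁻¹ * c⁻¹) = c * (h * t * h⁻¹) * c⁻¹ by group,
      (hc _).eq, mul_inv_cancel_right]
  rw [commutatorElement_def, commutatorElement_def, h1, mul_inv_rev (c : H) (b * d),
    show a * d * (c * (b * d)) * (a * d)⁻¹ * ((b * d)⁻¹ * c⁻¹) =
      a * d * (c * (b * d)) * (d⁻¹ * a⁻¹) * (d⁻¹ * b⁻¹) * c⁻¹ by group,
    ← mul_assoc (a * d) c, ← (hc (a * d)).eq,
    show c * (a * d) * (b * d) * (d⁻¹ * a⁻¹) * (d⁻¹ * b⁻¹) * c⁻¹ =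
      c * (a * (d * b) * a⁻¹ * d⁻¹ * b⁻¹) * c⁻¹ by group,
    (hc _).eq, mul_inv_cancel_right, hdb.eq, show a * (b * d) * a⁻¹ * d⁻¹ = a * b * (d * a⁻¹) * d⁻¹ by group,
    (hda.inv_right).eq, ← mul_assoc (a * b), mul_inv_cancel_right]

namespace Frame

variable {B : LinearMap.BilinForm F V} (S : Frame B)

/-- A quarter turn of anticommuting elements is a commutator of similitudes. -/
lemma w_eq_commutator {y z : S.R} (hy : (y : G F V) * y = -1) (hz : (z : G F V) * z = -1)
    (hy' : (-(y : G F V)) * -y = -1) (hyz : (y : G F V) * z = -(z * y)) :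
    ⁅tq S.two_ne (z : G F V) hz, tq S.two_ne (-(y : G F V)) hy'⁆ = S.w hy hz := by
  rw [commutatorElement_def]
  have hY : ((y : G F V) : Module.End F V) * (y : G F V) = -1 := by
    simpa using congrArg Units.val hy
  have hZ : ((z : G F V) : Module.End F V) * (z : G F V) = -1 := by
    simpa using congrArg Units.val hz
  have hYZ : ((y : G F V) : Module.End F V) * (z : G F V) = -((z : G F V) * (y : G F V)) := by
    simpa using congrArg Units.val hyz
  refine Units.ext (LinearMap.ext fun v => ?_)
  have eY : ∀ v, ((y : G F V) : Module.End F V) (((y : G F V) : Module.End F V) v) = -v := fun v => by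
    simpa using congrArg (fun f : Module.End F V => f v) hY
  have eZ : ∀ v, ((z : G F V) : Module.End F V) (((z : G F V) : Module.End F V) v) = -v := fun v => by
    simpa using congrArg (fun f : Module.End F V => f v) hZ
  have eYZ : ∀ v, ((y : G F V) : Module.End F V) (((z : G F V) : Module.End F V) v) =
      -((z : G F V) : Module.End F V) (((y : G F V) : Module.End F V) v) := fun v => by
    simpa using congrArg (fun f : Module.End F V => f v) hYZ
  rw [S.w_val]
  show ((1 + ((z : G F V) : Module.End F V)) * (1 + ((-(y : G F V) : G F V) : Module.End F V)) *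
    ((2 : F)⁻¹ • (1 - ((z : G F V) : Module.End F V))) *
    ((2 : F)⁻¹ • (1 - ((-(y : G F V) : G F V) : Module.End F V)))) v = _
  simp only [Units.val_neg, Module.End.mul_apply, LinearMap.smul_apply, LinearMap.add_apply,
    LinearMap.sub_apply, LinearMap.neg_apply, Module.End.one_apply, map_add, map_sub, map_neg,
    map_smul, smul_add, smul_sub, smul_neg, eY, eZ, eYZ]
  match_scalars <;> field_simp [S.two_ne] <;> ring

lemma exists_ns_vals (hk : 4 ≤ S.k) {y z : S.R} (hy : (y : G F V) * y = -1)
    (hz : (z : G F V) * z = -1) :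
    ∃ u : S.R, (u : G F V) * u = -1 ∧ (y : G F V) * u = -(u * y) ∧ (z : G F V) * u = -(u * z) := by
  obtain ⟨x, h1, h2, h3⟩ : ∃ x, S.bf (S.cls y) x = 1 ∧ S.bf (S.cls z) x = 1 ∧ S.qv x = 1 := by
    by_cases he : S.cls y = S.cls z
    · obtain ⟨x, h1, h2⟩ := S.QS'.exists_B_q (by rw [S.QS'_k]; omega) (S.ns_ne_zero hy) 1
      exact ⟨x, h1, he ▸ h1, h2⟩
    · exact S.QS'.exists_vals_one (by rw [S.QS'_k]; omega) (S.ns_ne_zero hy) (S.ns_ne_zero hz) he
        (u := 1) (v := 1) (Or.inl rfl)
  obtain ⟨u, rfl⟩ := S.cls_surjective x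
  exact ⟨u, S.qv_cls_eq_one.1 h3, S.bf_eq_one.1 h1, S.bf_eq_one.1 h2⟩

/-- The quarter turns lie in the commutator subgroup of the isometry group. -/
theorem w_mem_commutator (hk : 4 ≤ S.k) {y z : S.R} (hy : (y : G F V) * y = -1)
    (hz : (z : G F V) * z = -1) : S.w hy hz ∈ ⁅Iso B, Iso B⁆ := by
  have anti : ∀ {y z : S.R} (hy : (y : G F V) * y = -1) (hz : (z : G F V) * z = -1),
      (y : G F V) * z = -(z * y) → S.w hy hz ∈ ⁅Iso B, Iso B⁆ := by
    intro y z hy hz hyz
    obtain ⟨x, h1, h2, h3⟩ := S.QS'.exists_perp₂_one (by rw [S.QS'_k]; omega) (S.cls y) (S.cls z)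
    obtain ⟨u, rfl⟩ := S.cls_surjective x
    have hu : (u : G F V) * u = -1 := S.qv_cls_eq_one.1 h3
    have hyu : (y : G F V) * u = u * y := S.bf_eq_zero.1 h1
    have hzu : (z : G F V) * u = u * z := S.bf_eq_zero.1 h2
    have hy' : ((⟨-(y : G F V), S.neg_mem y.2⟩ : S.R) : G F V) *
        (⟨-(y : G F V), S.neg_mem y.2⟩ : S.R) = -1 := (neg_mul_neg (y : G F V) y).trans hy
    have hcomm : ∀ {a b : G F V} (ha : a * a = -1) (hb : b * b = -1), a * b = b * a →
        Commute (tq S.two_ne a ha) (tq S.two_ne b hb) := by
      intro a b ha hb hab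
      refine Units.ext ?_
      have h : (a : Module.End F V) * b = b * a := by simpa using congrArg Units.val hab
      show (1 + (a : Module.End F V)) * (1 + (b : Module.End F V)) =
        (1 + (b : Module.End F V)) * (1 + (a : Module.End F V))
      rw [mul_add, add_mul, add_mul, mul_add, add_mul, add_mul, one_mul, one_mul, mul_one, mul_one,
        one_mul, h]
      abel
    have e := Subgroup.commutator_mem_commutator (S.w_mem hz hu).2 (S.w_mem hy' hu).2
    rwa [Frame.w, Frame.w, commutator_mul_center (hcomm hu hz hzu.symm)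
      (hcomm hu hy' (show (u : G F V) * -(y : G F V) = -(y : G F V) * u by
        rw [mul_neg, neg_mul, hyu]))
      (fun h => sc_comm _ _ h), S.w_eq_commutator hy hz hy' hyz] at e
  obtain ⟨u, hu, hyu, hzu⟩ := S.exists_ns_vals hk hy hz
  have hu' : ((⟨-(u : G F V), S.neg_mem u.2⟩ : S.R) : G F V) *
      (⟨-(u : G F V), S.neg_mem u.2⟩ : S.R) = -1 := (neg_mul_neg (u : G F V) u).trans hu
  have h1 := anti hy hu hyu
  have h2 := anti hu' hz (show -(u : G F V) * z = -(z * -(u : G F V)) by
    rw [neg_mul, mul_neg, neg_neg, hzu])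
  have e : S.w hy hu * S.w hu' hz = S.w hy hz := by
    refine Units.ext (LinearMap.ext fun v => ?_)
    rw [Units.val_mul, S.w_val, S.w_val, S.w_val]
    have eU : ∀ v, ((u : G F V) : Module.End F V) (((u : G F V) : Module.End F V) v) = -v :=
      fun v => by simpa using congrArg (fun f : G F V => (f : Module.End F V) v) hu
    simp only [Module.End.mul_apply, LinearMap.smul_apply, LinearMap.add_apply, Units.val_neg,
      LinearMap.neg_apply, Module.End.one_apply, map_add, map_smul, map_neg, smul_add, smul_neg, eU]
    match_scalars <;> field_simp [S.two_ne] <;> ring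
  exact e ▸ mul_mem h1 h2

/-- An isometry normalising `R` that fixes a subspace of codimension two pointwise is trivial. -/
theorem eq_one_of_small (hk : 4 ≤ S.k) {g : G F V} (hg : g ∈ Iso B) (hgN : g ∈ S.Nm)
    (hrank : Module.finrank F (LinearMap.range ((g : Module.End F V) - 1)) ≤ 2) : g = 1 := by
  have := S.finite_dim
  have := S.nontrivial
  have h16 : 16 ≤ Module.finrank F V := by
    rw [S.dim]
    exact le_trans (by norm_num) (Nat.pow_le_pow_right two_pos hk)
  have hcomm : ∀ r ∈ S.R, g * r = r * g := by
    intro r hr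
    set c : S.R := ⟨g * r * g⁻¹ * r⁻¹, S.R.mul_mem (S.conj_mem hgN hr) (S.R.inv_mem hr)⟩ with hc
    suffices (c : G F V) = 1 by
      rw [hc] at this
      exact mul_inv_eq_iff_eq_mul.1 (mul_inv_eq_one.1 this)
    set d : Module.End F V := ((c : G F V) : Module.End F V) - 1 with hd
    have hd4 : Module.finrank F (LinearMap.range d) ≤ 4 := by
      set N : Module.End F V := (g : Module.End F V) - 1
      have e : d = N * ((r * g⁻¹ * r⁻¹ : G F V) : Module.End F V) +
          ((r : Module.End F V) * N) * (-((g⁻¹ * r⁻¹ : G F V) : Module.End F V)) := by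
        have hr1 : (r : Module.End F V) * ((r⁻¹ : G F V) : Module.End F V) = 1 := r.mul_inv
        have hg1 : (g : Module.End F V) * ((g⁻¹ : G F V) : Module.End F V) = 1 := g.mul_inv
        simp only [hd, hc, N, Units.val_mul, sub_mul, mul_sub, mul_neg, one_mul, mul_one, mul_assoc]
        rw [← mul_assoc (g : Module.End F V) ((g⁻¹ : G F V) : Module.End F V), hg1, one_mul, hr1]
        abel
      rw [e]
      have h1 : LinearMap.range (N * ((r * g⁻¹ * r⁻¹ : G F V) : Module.End F V)) ≤ LinearMap.range N :=
        LinearMap.range_comp_le_range _ _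
      have h2 : LinearMap.range (((r : Module.End F V) * N) *
          (-((g⁻¹ * r⁻¹ : G F V) : Module.End F V))) ≤ (LinearMap.range N).map (r : Module.End F V) := by
        refine (LinearMap.range_comp_le_range _ _).trans (le_of_eq ?_)
        exact LinearMap.range_comp N (r : Module.End F V)
      have h3 := (Submodule.finrank_map_le (r : Module.End F V) (LinearMap.range N)).trans hrank
      refine le_trans (Submodule.finrank_mono ((LinearMap.range_add_le _ _).trans (sup_le_sup h1 h2))) ?_
      exact le_trans (Submodule.finrank_add_le_finrank_add_finrank _ _) (by omega)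
    rcases eq_or_ne (S.cls c) 0 with h0 | h0
    · rcases S.cls_eq_zero.1 h0 with e | e
      · exact e
      · exfalso
        have : Function.Surjective d := fun v => ⟨(-2 : F)⁻¹ • v, by
          simp only [hd, e, Units.val_neg, Units.val_one, LinearMap.sub_apply, LinearMap.neg_apply,
            Module.End.one_apply]
          match_scalars
          field_simp [S.two_ne]
          ring⟩
        rw [LinearMap.range_eq_top.2 this, finrank_top] at hd4
        omega
    · exfalso
      obtain ⟨a, ha⟩ := S.exists_anti h0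
      set A : Module.End F V := ((a : G F V) : Module.End F V)
      have e : ∀ v, d v + A (d ((((a : G F V)⁻¹ : G F V) : Module.End F V) v)) = (-2 : F) • v := by
        intro v
        have h' : (a : G F V) * c * (a : G F V)⁻¹ = -(c : G F V) := by
          rw [mul_inv_eq_iff_eq_mul, neg_mul, ha, neg_neg]
        have h'' := congrArg (fun f : G F V => (f : Module.End F V) v) h'
        simp only [Units.val_mul, Units.val_neg, Module.End.mul_apply, LinearMap.neg_apply] at h''
        have ha1 : A ((((a : G F V)⁻¹ : G F V) : Module.End F V) v) = v := by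
          rw [← Module.End.mul_apply, ← Units.val_mul, mul_inv_cancel]; rfl
        simp only [hd, LinearMap.sub_apply, Module.End.one_apply, map_sub, h'', ha1, A]
        module
      have htop : (⊤ : Submodule F V) ≤ LinearMap.range d ⊔ (LinearMap.range d).map A := by
        intro v _
        have := e ((-2 : F)⁻¹ • v)
        rw [smul_smul, mul_inv_cancel₀ (neg_ne_zero.2 S.two_ne), one_smul] at this
        rw [← this]
        exact Submodule.add_mem_sup ⟨_, rfl⟩ ⟨_, ⟨_, rfl⟩, rfl⟩
      have h5 := (Submodule.finrank_mono htop).trans (Submodule.finrank_add_le_finrank_add_finrank _ _)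
      have h6 := Submodule.finrank_map_le A (LinearMap.range d)
      rw [finrank_top] at h5
      omega
  rcases S.eq_sign_of_commute hg hcomm with e | e
  · exact e
  · exfalso
    have hs : Function.Surjective ((g : Module.End F V) - (1 : Module.End F V) : Module.End F V) := fun v => ⟨(-2 : F)⁻¹ • v, by
      simp only [e, Units.val_neg, Units.val_one, LinearMap.sub_apply, LinearMap.neg_apply,
        Module.End.one_apply]
      match_scalars
      field_simp [S.two_ne]
      ring⟩
    rw [LinearMap.range_eq_top.2 hs, finrank_top] at hrank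
    omega

end Frame

end Cfsg.Agent.MaxSub.CSixOp
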