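import Cfsg.Agent.MaxSub.CSixOp.Act
import Cfsg.Agent.MaxSub.CSixU.Dichotomy
import Mathlib.Algebra.QuadraticAlgebra.Basic

/-!
The centraliser of an element of square `-1` of a frame, over a prime field with `p % 4 = 3`: a
unitary space over the field with `p ^ 2` elements in which it normalises or gives the long root
elements.
-/

set_option autoImplicit false
set_option linter.unusedSectionVars false
attribute [-instance] AddSubgroupClass.instZModModule

namespace Cfsg.Agent.MaxSub.CSixOp

open Classical.U DecompMax.UN Module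

universe u

/-- The dichotomy in every degree `2 ^ (t + 3)`. -/
theorem unit_dichotomy_pow {K : Type u} [Field K] [Fintype K] {p : ℕ} (hK : SqField K p)
    (hp : p.Prime) (hp4 : p % 4 = 3) : ∀ t : ℕ, CSixU.Dichotomy (2 ^ (t + 3)) K p hK := by
  intro t
  induction t with
  | zero => exact CSixU.dichotomy_eight hK hp hp4
  | succ t ih =>
    intro i R G hD hG hR hU
    have h8 : 8 ≤ 2 ^ (t + 3) :=
      le_trans (by norm_num) (Nat.pow_le_pow_right (n := 2) (by norm_num) (show 3 ≤ t + 3 by omega))
    have hn : 2 ^ (t + 1 + 3) = 2 * 2 ^ (t + 3) := by ring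
    refine CSixU.dichotomy_step hK hp hp4 (m := 2 ^ (t + 3)) (by omega) hn hD hG hR hU
      (fun R' G' hD' hG' hR' hU' => (ih i R' G' hD' hG' hR' hU').imp_right
        fun h => ⟨fun h4 => absurd h4 (by omega), h⟩) ?_
    intro hGood _
    refine CSix.fix_of_noControlled hD hG hGood ?_
    haveI : Nonempty (Fin (2 ^ (t + 1 + 3))) := ⟨⟨0, by omega⟩⟩
    exact CSixU.noControlled_of_eight hD hGood (by rw [Module.finrank_fin_fun]; omega)

variable {F : Type u} [Field F]

/-- The extension by a square root of `-1`. -/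
abbrev GI (F : Type u) [Field F] := QuadraticAlgebra F (-1) 0

section gi

variable [Fintype F] {p : ℕ}

theorem gi_fact (hp4 : p % 4 = 3) (hcard : Fintype.card F = p) :
    Fact (∀ r : F, r ^ 2 ≠ -1 + 0 * r) := by
  refine ⟨fun r hr => ?_⟩
  have h : IsSquare (-1 : F) := ⟨r, by linear_combination -hr⟩
  exact FiniteField.isSquare_neg_one_iff.1 h (hcard ▸ hp4)

variable [Fact (∀ r : F, r ^ 2 ≠ -1 + 0 * r)]

theorem gi_omega_sq : (QuadraticAlgebra.omega : GI F) * QuadraticAlgebra.omega = -1 := by
  ext <;> simp [QuadraticAlgebra.re_one, QuadraticAlgebra.im_one]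

theorem gi_sqField (hcard : Fintype.card F = p) : SqField (GI F) p := by
  refine ⟨Finite.of_equiv _ (QuadraticAlgebra.equivProd (-1 : F) 0).symm, ?_⟩
  rw [Nat.card_congr (QuadraticAlgebra.equivProd (-1 : F) 0), Nat.card_prod,
    Nat.card_eq_fintype_card, hcard, pow_two]

theorem gi_pow (hp4 : p % 4 = 3) (hcard : Fintype.card F = p) (z : GI F) :
    z ^ p = ⟨z.re, -z.im⟩ := by
  have hF := gi_sqField hcard
  have hz : z = algebraMap F (GI F) z.re + algebraMap F (GI F) z.im * QuadraticAlgebra.omega := by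
    ext <;> simp
  conv_lhs => rw [hz]
  rw [hF.add_pow, mul_pow, CSixU.i_pow hF hp4 gi_omega_sq, ← map_pow, ← map_pow, ← hcard,
    FiniteField.pow_card, FiniteField.pow_card]
  ext <;> simp

theorem gi_re_sum {ι : Type*} (s : Finset ι) (f : ι → GI F) :
    (∑ i ∈ s, f i).re = ∑ i ∈ s, (f i).re := by
  induction s using Finset.cons_induction with
  | empty => simp
  | cons a s ha ih => simp [Finset.sum_cons, ih]

end gi

section coord

variable {V : Type*} [AddCommGroup V] [Module F V] (Y : Module.End F V)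

/-- Coordinates on the span of a tuple and its image. -/
def jmap {k : ℕ} (u : Fin k → V) : (Fin k → GI F) →ₗ[F] V where
  toFun c := ∑ l, ((c l).re • u l + (c l).im • Y (u l))
  map_add' c d := by
    rw [← Finset.sum_add_distrib]
    refine Finset.sum_congr rfl fun l _ => ?_
    simp only [Pi.add_apply, QuadraticAlgebra.re_add, QuadraticAlgebra.im_add]
    module
  map_smul' a c := by
    rw [RingHom.id_apply, Finset.smul_sum]
    refine Finset.sum_congr rfl fun l _ => ?_
    simp only [Pi.smul_apply, QuadraticAlgebra.re_smul, QuadraticAlgebra.im_smul, smul_eq_mul]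
    module

lemma jmap_apply {k : ℕ} (u : Fin k → V) (c : Fin k → GI F) :
    jmap Y u c = ∑ l, ((c l).re • u l + (c l).im • Y (u l)) := rfl

lemma jmap_smul [Fact (∀ r : F, r ^ 2 ≠ -1 + 0 * r)] {k : ℕ} (hY : ∀ v, Y (Y v) = -v)
    (u : Fin k → V) (z : GI F) (c : Fin k → GI F) :
    jmap Y u (z • c) = z.re • jmap Y u c + z.im • Y (jmap Y u c) := by
  simp only [jmap_apply, map_sum, map_add, map_smul, hY, Finset.smul_sum, ← Finset.sum_add_distrib]
  refine Finset.sum_congr rfl fun l _ => ?_
  simp only [Pi.smul_apply, smul_eq_mul, QuadraticAlgebra.re_mul, QuadraticAlgebra.im_mul]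
  module

/-- An orthonormal tuple for a complex structure. -/
structure Orthon (B : LinearMap.BilinForm F V) {k : ℕ} (u : Fin k → V) : Prop where
  uu : ∀ l r, B (u l) (u r) = if l = r then 1 else 0
  uy : ∀ l r, B (u l) (Y (u r)) = 0

variable {Y}

lemma jmap_pair {B : LinearMap.BilinForm F V} (hsk : ∀ a b, B (Y a) b = -B a (Y b))
    (hY : ∀ v, Y (Y v) = -v) {k : ℕ} {u : Fin k → V} (hu : Orthon Y B u) (c : Fin k → GI F)
    (r : Fin k) :
    B (jmap Y u c) (u r) = (c r).re ∧ B (jmap Y u c) (Y (u r)) = (c r).im := by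
  constructor <;>
  · rw [jmap_apply, map_sum, LinearMap.sum_apply, Finset.sum_eq_single r]
    · simp [hsk, hY, hu.uu, hu.uy]
    · intro l _ hl
      simp [hsk, hY, hu.uu, hu.uy, hl]
    · exact fun h => absurd (Finset.mem_univ r) h

lemma exists_two_squares [Fintype F] (h2 : ringChar F ≠ 2) (x : F) :
    ∃ a b : F, a ^ 2 + b ^ 2 = x := by
  obtain ⟨a, b, h⟩ := FiniteField.exists_root_sum_quadratic (R := F)
    (f := Polynomial.X ^ 2) (g := Polynomial.X ^ 2 - Polynomial.C x)
    (Polynomial.degree_X_pow 2) (Polynomial.degree_X_pow_sub_C (by decide) _)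
    (FiniteField.odd_card_of_char_ne_two h2)
  exact ⟨a, b, sub_eq_zero.1 (by simpa [add_sub_assoc] using h)⟩

/-- Orthonormal coordinates. -/
theorem exists_orthon [Fintype F] [Fact (∀ r : F, r ^ 2 ≠ -1 + 0 * r)] [FiniteDimensional F V]
    {B : LinearMap.BilinForm F V} (h2 : (2 : F) ≠ 0) (hsymm : ∀ a b, B a b = B b a)
    (hnd : B.Nondegenerate) (hsk : ∀ a b, B (Y a) b = -B a (Y b)) (hY : ∀ v, Y (Y v) = -v)
    (m : ℕ) (hdim : finrank F V = 2 * m) :
    ∀ k, k ≤ m → ∃ u : Fin k → V, Orthon Y B u := by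
  intro k
  induction k with
  | zero => exact fun _ => ⟨Fin.elim0, fun l => l.elim0, fun l => l.elim0⟩
  | succ k ih =>
    intro hk
    obtain ⟨u, hu⟩ := ih (by omega)
    have hself : ∀ a, B a (Y a) = 0 := fun a => by
      have h : B a (Y a) = -B a (Y a) := by rw [← hsk, hsymm]
      exact (mul_eq_zero.1 (show (2 : F) * B a (Y a) = 0 by linear_combination h)).resolve_left h2
    let co : V → (Fin k → GI F) := fun v l => ⟨B v (u l), B v (Y (u l))⟩
    let π : V → V := fun v => v - jmap Y u (co v)
    have hπ : ∀ v l, B (π v) (u l) = 0 ∧ B (π v) (Y (u l)) = 0 := fun v l => by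
      obtain ⟨e1, e2⟩ := jmap_pair hsk hY hu (co v) l
      simp only [π, map_sub, LinearMap.sub_apply, e1, e2, co, sub_self, and_self]
    obtain ⟨v, hv, hvv⟩ : ∃ v, (∀ l, B v (u l) = 0 ∧ B v (Y (u l)) = 0) ∧ B v v ≠ 0 := by
      by_contra hcon
      push Not at hcon
      have hzero : ∀ v w, (∀ l, B v (u l) = 0 ∧ B v (Y (u l)) = 0) →
          (∀ l, B w (u l) = 0 ∧ B w (Y (u l)) = 0) → B v w = 0 := by
        intro v w hv hw
        have h := hcon (v + w) fun l => by simp [(hv l).1, (hv l).2, (hw l).1, (hw l).2]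
        simp only [map_add, LinearMap.add_apply, hcon v hv, hcon w hw, hsymm w v] at h
        exact (mul_eq_zero.1 (show (2 : F) * B v w = 0 by linear_combination h)).resolve_left h2
      have hsurj : Function.Surjective (jmap Y u) := fun v => by
        refine ⟨co v, (sub_eq_zero.1 (hnd.1 (π v) fun w => ?_)).symm⟩
        have hperp : B (π v) (jmap Y u (co w)) = 0 := by
          simp [jmap_apply, map_sum, (hπ v _).1, (hπ v _).2]
        have := hzero _ _ (hπ v) (hπ w)
        rw [show π w = w - jmap Y u (co w) from rfl, map_sub, hperp, sub_zero] at this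
        exact this
      have h := LinearMap.finrank_range_le (jmap Y u)
      rw [LinearMap.range_eq_top.2 hsurj, finrank_top, hdim, Module.finrank_pi_fintype,
        Finset.sum_const, Finset.card_univ, Fintype.card_fin,
        QuadraticAlgebra.finrank_eq_two, smul_eq_mul] at h
      omega
    have hr : ringChar F ≠ 2 := fun h => h2 (by
      have := (ringChar.spec F 2).2 (h ▸ dvd_refl _)
      exact_mod_cast this)
    obtain ⟨a, b, hab⟩ := exists_two_squares hr (B v v)⁻¹
    set v' := a • v + b • Y v with hv'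
    have hYY : B (Y v) (Y v) = B v v := by rw [hsk, hY, map_neg, neg_neg]
    have hvy : B (Y v) v = 0 := by rw [hsymm, hself]
    have hv'v' : B v' v' = 1 := by
      simp only [hv', map_add, map_smul, LinearMap.add_apply, LinearMap.smul_apply, smul_eq_mul,
        hself, hvy, hYY]
      rw [← mul_inv_cancel₀ hvv, ← hab]
      ring
    have hperp : ∀ l, B v' (u l) = 0 ∧ B v' (Y (u l)) = 0 := fun l => by
      simp [hv', hsk, hY, (hv l).1, (hv l).2]
    refine ⟨Fin.cons v' u, fun l r => ?_, fun l r => ?_⟩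
    · refine Fin.cases ?_ (fun l => ?_) l <;> refine Fin.cases ?_ (fun r => ?_) r
      · simp [hv'v']
      · simp [(hperp r).1, (Fin.succ_ne_zero r).symm]
      · simp [hsymm (u l) v', (hperp l).1, Fin.succ_ne_zero l]
      · simp [hu.uu, Fin.succ_inj]
    · refine Fin.cases ?_ (fun l => ?_) l <;> refine Fin.cases ?_ (fun r => ?_) r
      · simp [hself]
      · simp [(hperp r).2]
      · simp [hsymm (u l) (Y v'), hsk, (hperp l).2]
      · simp [hu.uy]

end coord

variable {V : Type*} [AddCommGroup V] [Module F V] {B : LinearMap.BilinForm F V}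

/-- The centraliser of `y` normalises that of `y` in `R`, or all long root elements for `y` occur. -/
theorem cent_or_root_unit [Fintype F] (S : Frame B) (hk : 4 ≤ S.k) {p : ℕ} (hp : p.Prime)
    (hp4 : p % 4 = 3) (hcard : Fintype.card F = p) {M : Subgroup (G F V)} (hle : M ≤ Iso B)
    (hw : ∀ {y z : S.R} (hy : (y : G F V) * y = -1) (hz : (z : G F V) * z = -1), S.w hy hz ∈ M)
    (y : S.R) (hy : (y : G F V) * y = -1) :
    (∀ g ∈ M, g * (y : G F V) = y * g → ∀ r ∈ S.R, r * (y : G F V) = y * r →
      g * r * g⁻¹ ∈ S.R) ∨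
    (∀ u : V, B u u = 0 → ∀ t : F, ∃ g ∈ M, ∀ v, (g : Module.End F V) v =
      v + t • (B u v • ((y : G F V) : Module.End F V) u -
        B (((y : G F V) : Module.End F V) u) v • u)) := by
  classical
  haveI := gi_fact (F := F) hp4 hcard
  have := S.finite_dim
  have := S.nontrivial
  have h2 := S.two_ne
  have hK : SqField (GI F) p := gi_sqField hcard
  haveI : Finite (GI F) := hK.1
  letI : Fintype (GI F) := Fintype.ofFinite _
  set Y : Module.End F V := ((y : G F V) : Module.End F V) with hYdef
  have hYm : Y * Y = -1 := by simpa [hYdef] using congrArg Units.val hy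
  have hY : ∀ v, Y (Y v) = -v := fun v => by
    simpa using congrArg (fun f : Module.End F V => f v) hYm
  have hsk : ∀ a b, B (Y a) b = -B a (Y b) := fun a b => by
    rw [← S.isom y y.2 a (Y b), ← hYdef, hY, map_neg, neg_neg]
  obtain ⟨t, ht⟩ : ∃ t, S.k = t + 4 := ⟨S.k - 4, by omega⟩
  set m := 2 ^ (t + 3) with hm
  have hdim : finrank F V = 2 * m := by rw [S.dim, ht, hm]; ring
  obtain ⟨u, hu⟩ := exists_orthon h2 S.symm S.nondeg hsk hY m hdim m le_rfl
  set J := jmap Y u with hJdef
  have hJs : ∀ (z : GI F) c, J (z • c) = z.re • J c + z.im • Y (J c) := jmap_smul Y hY u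
  have hre : ∀ c d : Fin m → GI F, (herm p c d).re = B (J c) (J d) := by
    intro c d
    rw [herm_def, gi_re_sum]
    conv_rhs => rw [hJdef, jmap_apply Y u d, map_sum]
    refine Finset.sum_congr rfl fun l _ => ?_
    obtain ⟨e1, e2⟩ := jmap_pair hsk hY hu c l
    rw [gi_pow hp4 hcard, map_add, map_smul, map_smul, e1, e2]
    simp
    ring
  have hherm : ∀ c d : Fin m → GI F, herm p c d = ⟨B (J c) (J d), B (J c) (Y (J d))⟩ := by
    intro c d
    refine QuadraticAlgebra.ext (hre c d) ?_
    show _ = B (J c) (Y (J d))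
    have h := hre c ((QuadraticAlgebra.omega : GI F) • d)
    rw [herm_smul_right, CSixU.i_pow hK hp4 gi_omega_sq, hJs] at h
    simpa using h
  have hinj : Function.Injective J := (injective_iff_map_eq_zero J).2 fun c hc =>
    hK.eq_zero_of_herm c fun d => by rw [hherm, hc]; simp; rfl
  have hfr : finrank F (Fin m → GI F) = finrank F V := by
    rw [Module.finrank_pi_fintype, Finset.sum_const, Finset.card_univ, Fintype.card_fin,
      QuadraticAlgebra.finrank_eq_two, smul_eq_mul, hdim, mul_comm]
  let j : (Fin m → GI F) ≃ₗ[F] V := LinearEquiv.ofBijective J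
    ⟨hinj, (LinearMap.injective_iff_surjective_of_finrank_eq_finrank hfr).1 hinj⟩
  have hj : ∀ c, j c = J c := fun _ => rfl
  let φ : Module.End (GI F) (Fin m → GI F) → Module.End F V := fun g =>
    j.toLinearMap ∘ₗ g.restrictScalars F ∘ₗ j.symm.toLinearMap
  have hφ : ∀ g c, φ g (J c) = J (g c) := fun g c => by simp [φ, ← hj]
  have hext : ∀ {f f' : Module.End F V}, (∀ c, f (J c) = f' (J c)) → f = f' := fun h =>
    LinearMap.ext fun v => by
      obtain ⟨c, rfl⟩ := j.surjective v
      exact h c
  have φ_inj : ∀ {g g'}, φ g = φ g' → g = g' := fun {g g'} h => LinearMap.ext fun c => hinj (by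
    rw [← hφ, ← hφ, h])
  have φ_mul : ∀ g g', φ (g * g') = φ g * φ g' := fun g g' => hext fun c => by
    simp [Module.End.mul_apply, hφ]
  have φ_one : φ 1 = 1 := hext fun c => by simp [hφ]
  have φ_neg : ∀ g, φ (-g) = -φ g := fun g => hext fun c => by simp [hφ]
  have φ_add : ∀ g g', φ (g + g') = φ g + φ g' := fun g g' => hext fun c => by simp [hφ]
  have φ_smul : ∀ (z : GI F) g, φ (z • g) = z.re • φ g + z.im • (Y * φ g) := fun z g =>
    hext fun c => by simp [hφ, hJs]
  have φ_surj : ∀ f : Module.End F V, f * Y = Y * f → ∃ g, φ g = f := by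
    intro f hf
    have hf' : ∀ v, f (Y v) = Y (f v) := fun v => by
      simpa using congrArg (fun e : Module.End F V => e v) hf
    refine ⟨{ toFun := fun c => j.symm (f (J c))
              map_add' := fun a b => by simp
              map_smul' := fun z c => hinj ?_ }, hext fun c => ?_⟩
    · simp only [RingHom.id_apply, hJs, map_add, map_smul, hf', ← hj, LinearEquiv.apply_symm_apply]
    · rw [hφ]
      show J (j.symm (f (J c))) = _
      rw [← hj, LinearEquiv.apply_symm_apply]
  have φ_comm : ∀ g, φ g * Y = Y * φ g := fun g => by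
    have h1 := φ_mul g ((QuadraticAlgebra.omega : GI F) • 1)
    have h3 : φ ((QuadraticAlgebra.omega : GI F) • 1) = Y := by simp [φ_smul, φ_one]
    rw [h3, mul_smul_comm, mul_one, φ_smul] at h1
    simpa using h1.symm
  have uval : ∀ {a b : G F V}, a * b = b * a →
      (a : Module.End F V) * b = (b : Module.End F V) * a := fun h => by
    simpa using congrArg Units.val h
  -- the two sets
  let R' : Set (Module.End (GI F) (Fin m → GI F)) :=
    {r | ∃ x ∈ S.R, x * (y : G F V) = y * x ∧ φ r = (x : Module.End F V)}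
  let G' : Set (Module.End (GI F) (Fin m → GI F)) :=
    {g | ∃ (d : GI F) (h : Module.End (GI F) (Fin m → GI F)) (x : G F V), d ≠ 0 ∧ x ∈ M ∧
      x * (y : G F V) = y * x ∧ φ h = (x : Module.End F V) ∧ g = d • h}
  have hiR : (QuadraticAlgebra.omega : GI F) • (1 : Module.End (GI F) (Fin m → GI F)) ∈ R' :=
    ⟨y, y.2, rfl, by simp [φ_smul, φ_one, hYdef]⟩
  have hD : CSix.Data (QuadraticAlgebra.omega : GI F) R' := by
    refine ⟨gi_omega_sq, fun h => h2 ?_, hiR, ?_, ?_, ?_, ?_⟩
    · have := congrArg QuadraticAlgebra.re h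
      simpa [QuadraticAlgebra.re_ofNat] using this
    · rintro a ⟨x, hx, hxy, ha⟩ b ⟨x', hx', hxy', hb⟩
      exact ⟨x * x', S.R.mul_mem hx hx', by rw [mul_assoc, hxy', ← mul_assoc, hxy, mul_assoc],
        by rw [φ_mul, ha, hb, Units.val_mul]⟩
    · rintro a ⟨x, hx, -, ha⟩ b ⟨x', hx', -, hb⟩
      refine (S.comm_sign hx hx').imp (fun e => φ_inj ?_) (fun e => φ_inj ?_)
      · rw [φ_mul, φ_mul, ha, hb, ← Units.val_mul, e, Units.val_mul]
      · rw [φ_mul, φ_neg, φ_mul, ha, hb, ← Units.val_mul, e, Units.val_neg, Units.val_mul]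
    · rintro a ⟨x, hx, -, ha⟩
      refine (S.sq_sign x hx).imp (fun e => φ_inj ?_) (fun e => φ_inj ?_)
      · rw [φ_mul, φ_one, ha, ← Units.val_mul, e, Units.val_one]
      · rw [φ_mul, φ_neg, φ_one, ha, ← Units.val_mul, e, Units.val_neg, Units.val_one]
    · rw [eq_top_iff]
      intro g _
      let C : Set (Module.End F V) :=
        (fun x : G F V => (x : Module.End F V)) '' {x | x ∈ S.R ∧ x * (y : G F V) = y * x}
      have key : ∀ f : Module.End F V, f - Y * f * Y ∈ Submodule.span F C := by
        intro f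
        have hf : f ∈ Submodule.span F ((fun r : G F V => (r : Module.End F V)) ''
            (S.R : Set (G F V))) := S.span_eq ▸ Submodule.mem_top
        induction hf using Submodule.span_induction with
        | mem x hx =>
          obtain ⟨r, hr, rfl⟩ := hx
          rcases S.comm_sign y.2 hr with h | h
          · rw [show Y * (r : Module.End F V) = r * Y from uval h, mul_assoc, hYm, mul_neg,
              mul_one, sub_neg_eq_add]
            exact Submodule.add_mem _ (Submodule.subset_span ⟨r, ⟨hr, h.symm⟩, rfl⟩)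
              (Submodule.subset_span ⟨r, ⟨hr, h.symm⟩, rfl⟩)
          · have h' : Y * (r : Module.End F V) = -(r * Y) := by
              simpa [hYdef] using congrArg Units.val h
            rw [h', neg_mul, mul_assoc, hYm, mul_neg, mul_one, neg_neg, sub_self]
            exact Submodule.zero_mem _
        | zero => simp
        | add a b _ _ ha hb =>
          rw [mul_add, add_mul, add_sub_add_comm]
          exact Submodule.add_mem _ ha hb
        | smul c a _ ha =>
          rw [mul_smul_comm, smul_mul_assoc, ← smul_sub]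
          exact Submodule.smul_mem _ _ ha
      have hg : φ g ∈ Submodule.span F C := by
        have := key (φ g)
        rw [← φ_comm, mul_assoc, hYm, mul_neg, mul_one, sub_neg_eq_add, ← two_smul F] at this
        have := Submodule.smul_mem _ (2 : F)⁻¹ this
        rwa [inv_smul_smul₀ h2] at this
      suffices ∀ f ∈ Submodule.span F C,
          ∃ g ∈ Submodule.span (GI F) R', φ g = f by
        obtain ⟨g', hg', e⟩ := this _ hg
        exact φ_inj e ▸ hg'
      intro f hf
      induction hf using Submodule.span_induction with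
      | mem x hx =>
        obtain ⟨r, ⟨hr, hry⟩, rfl⟩ := hx
        obtain ⟨g, hg⟩ := φ_surj r (uval hry)
        exact ⟨g, Submodule.subset_span ⟨r, hr, hry, hg⟩, hg⟩
      | zero => exact ⟨0, Submodule.zero_mem _, hext fun c => by simp [hφ]⟩
      | add a b _ _ ha hb =>
        obtain ⟨g, hg, rfl⟩ := ha
        obtain ⟨g', hg', rfl⟩ := hb
        exact ⟨g + g', Submodule.add_mem _ hg hg', φ_add g g'⟩
      | smul c a _ ha =>
        obtain ⟨g, hg, rfl⟩ := ha
        exact ⟨algebraMap F (GI F) c • g, Submodule.smul_mem _ _ hg, by rw [φ_smul]; simp⟩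
  have hYv : ∀ {x : G F V}, x * (y : G F V) = y * x → ∀ v,
      (x : Module.End F V) (Y v) = Y ((x : Module.End F V) v) := fun h v => by
    simpa using congrArg (fun e : Module.End F V => e v) (uval h)
  have hiso : ∀ {x : G F V}, x ∈ Iso B → x * (y : G F V) = y * x → ∀ {g}, φ g = (x : Module.End F V) →
      ∀ a b, herm p (g a) (g b) = herm p a b := by
    intro x hx hxy g hg a b
    rw [hherm, hherm, ← hφ g a, ← hφ g b, hg, ← hYv hxy, hx, hx]
  have hR : CSixU.Isom p R' := fun r ⟨x, hx, hxy, hr⟩ => hiso (S.R_le_Iso hx) hxy hr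
  -- `C_R(y)` lies in `M`
  have hwself : ∀ {z : S.R} (hz : (z : G F V) * z = -1), S.w hz hz = z := fun {z} hz => by
    refine Units.ext ?_
    rw [S.w_val]
    have h : ((z : G F V) : Module.End F V) * (z : G F V) = -1 := by
      simpa using congrArg Units.val hz
    rw [add_mul, one_mul, mul_add, mul_one, h]
    match_scalars <;> field_simp <;> ring
  have hsqneg : ∀ {x : G F V}, x ∈ S.R → x * (y : G F V) = y * x → x * x = 1 →
      (y : G F V) * x * ((y : G F V) * x) = -1 := fun {x} _ hxy hxx => by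
    rw [show (y : G F V) * x * ((y : G F V) * x) = (y : G F V) * (x * (y : G F V)) * x by group,
      hxy, show (y : G F V) * ((y : G F V) * x) * x = (y : G F V) * y * (x * x) by group,
      hy, hxx, mul_one]
  have hRM : ∀ {x : G F V}, x ∈ S.R → x * (y : G F V) = y * x → x ∈ M := by
    intro x hx hxy
    rcases S.sq_sign x hx with h | h
    · have h1 := hw (y := ⟨_, S.R.mul_mem y.2 hx⟩) (z := ⟨_, S.R.mul_mem y.2 hx⟩)
        (hsqneg hx hxy h) (hsqneg hx hxy h)
      rw [hwself] at h1
      have h0 := hw hy hy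
      rw [hwself] at h0
      have := M.mul_mem (M.inv_mem h0) h1
      rwa [inv_mul_cancel_left] at this
    · have h1 := hw (y := ⟨x, hx⟩) (z := ⟨x, hx⟩) h h
      rwa [hwself] at h1
  have hG : CSix.Grp (QuadraticAlgebra.omega : GI F) R' G' := by
    refine ⟨?_, ?_, ?_, ?_, ?_⟩
    · rintro g ⟨d, h, x, hd, hx, hxy, hh, rfl⟩
      have hxy' : x⁻¹ * (y : G F V) = y * x⁻¹ := by
        rw [inv_mul_eq_iff_eq_mul, ← mul_assoc, hxy, mul_inv_cancel_right]
      obtain ⟨h', hh'⟩ := φ_surj ((x⁻¹ : G F V) : Module.End F V) (uval hxy')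
      have e1 : h * h' = 1 := φ_inj (by rw [φ_mul, hh, hh', φ_one, Units.mul_inv])
      have e2 : h' * h = 1 := φ_inj (by rw [φ_mul, hh, hh', φ_one, Units.inv_mul])
      refine ⟨d⁻¹ • h', ⟨d⁻¹, h', x⁻¹, inv_ne_zero hd, M.inv_mem hx, hxy', hh', rfl⟩, ?_, ?_⟩
      · rw [smul_mul_smul_comm, mul_inv_cancel₀ hd, e1, one_smul]
      · rw [smul_mul_smul_comm, inv_mul_cancel₀ hd, e2, one_smul]
    · rintro a ⟨d, h, x, hd, hx, hxy, hh, rfl⟩ b ⟨d', h', x', hd', hx', hxy', hh', rfl⟩
      exact ⟨d * d', h * h', x * x', mul_ne_zero hd hd', M.mul_mem hx hx',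
        by rw [mul_assoc, hxy', ← mul_assoc, hxy, mul_assoc],
        by rw [φ_mul, hh, hh', Units.val_mul], smul_mul_smul_comm _ _ _ _⟩
    · exact fun c hc => ⟨c, 1, 1, hc, M.one_mem, by simp, by simp [φ_one], rfl⟩
    · rintro r ⟨x, hx, hxy, hr⟩
      exact ⟨1, r, x, one_ne_zero, hRM hx hxy, hxy, hr, (one_smul _ _).symm⟩
    · rintro r ⟨x, hx, hxy, hr⟩ hrr
      have hxx : x * x = 1 := Units.ext (by
        rw [Units.val_mul, ← hr, ← φ_mul, hrr, φ_one, Units.val_one])
      have hz := hsqneg hx hxy hxx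
      set z : S.R := ⟨_, S.R.mul_mem y.2 hx⟩
      have hz' : (z : G F V) * z = -1 := hz
      set W := S.w hy hz' with hW
      have hWv : (W : Module.End F V) = (2 : F)⁻¹ • ((1 + Y) * (1 + Y * (x : Module.End F V))) :=
        S.w_val hy hz'
      have hxY : (x : Module.End F V) * Y = Y * x := uval hxy
      have hWy : W * (y : G F V) = y * W := Units.ext (by
        rw [Units.val_mul, Units.val_mul, hWv, smul_mul_assoc, mul_smul_comm]
        congr 1
        simp only [← hYdef, mul_add, add_mul, mul_one, one_mul, mul_assoc, hxY])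
      obtain ⟨h, hh⟩ := φ_surj W (uval hWy)
      set c : GI F := (2 : GI F) * (1 + QuadraticAlgebra.omega)⁻¹
      have h10 : (1 + QuadraticAlgebra.omega : GI F) ≠ 0 := fun e => by
        simpa [QuadraticAlgebra.re_one] using congrArg QuadraticAlgebra.re e
      have h20 : (2 : GI F) ≠ 0 := fun e => h2 (by
        simpa [QuadraticAlgebra.re_ofNat] using congrArg QuadraticAlgebra.re e)
      refine ⟨c, h, W, mul_ne_zero h20 (inv_ne_zero h10), hw hy hz', hWy, hh, ?_⟩
      have e : h = ((2 : GI F)⁻¹ * (1 + QuadraticAlgebra.omega)) •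
          (1 + (QuadraticAlgebra.omega : GI F) • r) := by
        refine φ_inj ?_
        have e2 : (2 : GI F)⁻¹ * (1 + QuadraticAlgebra.omega) =
            algebraMap F (GI F) (2 : F)⁻¹ * (1 + QuadraticAlgebra.omega) := by
          rw [map_inv₀, map_ofNat]
        rw [hh, hWv, e2]
        simp only [φ_smul, φ_add, φ_one, hr, mul_add, add_mul, mul_one, one_mul]
        simp [QuadraticAlgebra.re_one, QuadraticAlgebra.im_one]
        match_scalars <;> field_simp <;> ring
      rw [e, smul_smul, show c * ((2 : GI F)⁻¹ * (1 + QuadraticAlgebra.omega)) = 1 by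
        simp only [c]; field_simp, one_smul]
  have hU : CSixU.Simil p G' := by
    rintro g ⟨d, h, x, -, hx, hxy, hh, rfl⟩
    refine ⟨d * d ^ p, fun a b => ?_⟩
    rw [LinearMap.smul_apply, LinearMap.smul_apply, herm_smul_left, herm_smul_right,
      hiso (hle hx) hxy hh, mul_assoc]
  rcases unit_dichotomy_pow hK hp hp4 t _ R' G' hD hG hR hU with hn | hall
  · refine Or.inl fun g hg hgy r hr hry => ?_
    obtain ⟨h, hh⟩ := φ_surj (g : Module.End F V) (uval hgy)
    obtain ⟨a, ha⟩ := φ_surj (r : Module.End F V) (uval hry)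
    obtain ⟨a', ⟨r', hr', -, ha'⟩, e⟩ :=
      hn h ⟨1, h, g, one_ne_zero, hg, hgy, hh, (one_smul _ _).symm⟩ a ⟨r, hr, hry, ha⟩
    have e' : g * r = r' * g := Units.ext (by
      rw [Units.val_mul, Units.val_mul, ← hh, ← ha, ← ha', ← φ_mul, ← φ_mul, e])
    rw [e', mul_inv_cancel_right]
    exact hr'
  · refine Or.inr fun w hw0 s => ?_
    obtain ⟨e, rfl⟩ := j.surjective w
    rw [hj] at hw0 ⊢
    have hee : herm p e e = 0 := by
      rw [hherm, hw0]
      refine QuadraticAlgebra.ext rfl ?_
      show B (J e) (Y (J e)) = 0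
      have h : B (J e) (Y (J e)) = -B (J e) (Y (J e)) := by rw [← hsk, S.symm]
      exact (mul_eq_zero.1 (show (2 : F) * B (J e) (Y (J e)) = 0 by linear_combination h)).resolve_left
        h2
    have hcond : TrvCond p e ((⟨0, s⟩ : GI F)) := ⟨hee, by rw [gi_pow hp4 hcard]; ext <;> simp⟩
    obtain ⟨d, h, x, hd, hx, hxy, hh, hT⟩ := (hall e hee).2 _ hcond
    set N := (p ^ 2 - 1) * (p ^ 2 - 1) with hN
    have hdN : d ^ N = 1 := by
      have hq : Fintype.card (GI F) = p ^ 2 := by rw [← Nat.card_eq_fintype_card]; exact hK.2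
      rw [hN, pow_mul, ← hq, FiniteField.pow_card_sub_one_eq_one d hd, one_pow]
    have hN1 : (N : GI F) = 1 := by
      have := CSixU.char_eq_of_prime hK hp
      rw [hN, Nat.cast_mul, Nat.cast_sub (Nat.one_le_pow _ _ hp.pos), Nat.cast_pow,
        CharP.cast_eq_zero, Nat.cast_one]
      ring
    refine ⟨x ^ N, M.pow_mem hx N, fun v => ?_⟩
    obtain ⟨c, rfl⟩ := j.surjective v
    rw [hj]
    have hxN : φ (h ^ N) = ((x ^ N : G F V) : Module.End F V) := by
      clear hN1 hdN hN
      induction N with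
      | zero => simp [φ_one]
      | succ n ih => rw [pow_succ, pow_succ, φ_mul, ih, hh, Units.val_mul]
    have hTN : h ^ N = ((trv hK hcond ^ N : UG m (GI F) p).1 : Module.End (GI F) (Fin m → GI F)) := by
      have hpow : ∀ n : ℕ, ((trv hK hcond ^ n : UG m (GI F) p).1 :
          Module.End (GI F) (Fin m → GI F)) = (d • h) ^ n := by
        intro n
        induction n with
        | zero => exact LinearMap.ext fun v => by simp
        | succ n ih =>
          rw [pow_succ (a := d • h), ← ih, ← hT]
          exact LinearMap.ext fun v => by simp [pow_succ]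
      rw [hpow, _root_.smul_pow, hdN, one_smul]
    rw [← hxN, hφ, hTN, LinearEquiv.coe_coe, CSixU.trv_pow, hN1, one_mul, map_add, hJs, hherm]
    simp only [QuadraticAlgebra.re_mul, QuadraticAlgebra.im_mul]
    rw [S.symm (J c) (J e), show B (J c) (Y (J e)) = B (Y (J e)) (J c) from S.symm _ _]
    module

end Cfsg.Agent.MaxSub.CSixOp
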