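import Cfsg.Agent.MaxSub.CSixOp.Weak
import Cfsg.Agent.MaxSub.CSixOp.Linear
import Cfsg.Agent.MaxSub.CSixOp.Omega
import Cfsg.Agent.MaxSub.CSixOp.Unit
import Cfsg.Agent.MaxSub.CSixOp.Matrices
import Cfsg.Agent.MaxSub.CSixOp.Halves
import Cfsg.Agent.MaxSub.OrthOverfield.Main
import Cfsg.Agent.GeoClasses.FieldFacts

/-!
Normalisers of symplectic-type groups of plus type are maximal in `Ω⁺_{2^k}(p)`.
-/

set_option autoImplicit false
set_option linter.unusedSectionVars false
attribute [-instance] AddSubgroupClass.instZModModule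

namespace Cfsg.Agent.MaxSub.CSixOp

open QuadraticMap Module Cfsg.Agent.Classical
open scoped Matrix MatrixGroups commutatorElement

variable {F : Type*} [Field F] {n : ℕ} {Qf : QuadraticForm F (Fin n → F)}

lemma glE_mem_Iso (h2 : (2 : F) ≠ 0) {g : GL (Fin n) F} :
    glE g ∈ Iso (polarBilin Qf) ↔ g ∈ Cfsg.isometryGroup F ⇑Qf := by
  constructor
  · intro h u v
    show Qf ((g : Matrix (Fin n) (Fin n) F) *ᵥ u) = Qf u
    have := h u u
    simp only [polarBilin_apply_apply, glE_apply, polar_self, nsmul_eq_mul, Nat.cast_ofNat,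
      smul_eq_mul] at this
    exact mul_left_cancel₀ h2 this
  · intro h u v
    have h' : ∀ w, Qf ((g : Matrix (Fin n) (Fin n) F) *ᵥ w) = Qf w := fun w => h w w
    simp only [polarBilin_apply_apply, glE_apply, polar, ← Matrix.mulVec_add, h']

lemma map_isometryGroup (h2 : (2 : F) ≠ 0) :
    (Cfsg.isometryGroup F ⇑Qf).map glE.toMonoidHom = Iso (polarBilin Qf) := by
  ext x
  obtain ⟨g, rfl⟩ := glE.surjective x
  rw [glE_mem_Iso h2]
  exact ⟨fun ⟨g', hg', e⟩ => glE.injective e ▸ hg', fun h => ⟨g, h, rfl⟩⟩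

lemma map_omegaGL (h2 : (2 : F) ≠ 0) :
    (Cfsg.Geo.omegaGL ⇑Qf).map glE.toMonoidHom =
      ⁅Iso (polarBilin Qf), Iso (polarBilin Qf)⁆ := by
  rw [← map_isometryGroup h2, ← Subgroup.map_commutator, Cfsg.Geo.omegaGL, Cfsg.Omega,
    Subgroup.map_subtype_commutator]

lemma glE_oqToGL (g : OQ Qf) (v : Fin n → F) :
    (glE (GeoClasses.oqToGL Qf g) : Module.End F (Fin n → F)) v = g.1 v := by
  rw [glE_apply, GeoClasses.oqToGL_mulVec]

lemma omegaGL_le_of {M : Subgroup (GL (Fin n) F)}
    (h : commutator (OQ Qf) ≤ M.comap (GeoClasses.oqToGL Qf)) : Cfsg.Geo.omegaGL ⇑Qf ≤ M := by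
  rw [← GeoClasses.map_oqToGL_commutator, Subgroup.map_le_iff_le_comap]
  exact h

/-- An element with prescribed values is the image of the given isometry. -/
lemma mem_comap_of_eq {M : Subgroup (GL (Fin n) F)} {g : OQ Qf} {x : G F (Fin n → F)}
    (hx : x ∈ M.map glE.toMonoidHom) (h : ∀ v, (x : Module.End F (Fin n → F)) v = g.1 v) :
    g ∈ M.comap (GeoClasses.oqToGL Qf) := by
  obtain ⟨m, hm, rfl⟩ := hx
  rw [Subgroup.mem_comap, show GeoClasses.oqToGL Qf g = m from glE.injective (Units.ext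
    (LinearMap.ext fun v => (glE_oqToGL g v).trans (h v).symm))]
  exact hm

/-- An isometry as an element of the orthogonal group. -/
lemma exists_OQ (h2 : (2 : F) ≠ 0) {x : G F (Fin n → F)} (hx : x ∈ Iso (polarBilin Qf)) :
    ∃ g : OQ Qf, ∀ v, g.1 v = (x : Module.End F (Fin n → F)) v := by
  obtain ⟨m, rfl⟩ := glE.surjective x
  exact ⟨OrthGen.matEquiv Qf ⟨m, (glE_mem_Iso h2).1 hx⟩, fun v => rfl⟩

variable [Fintype F]

/-- Maximality in matrix language. -/
theorem omegaGL_symplecticType_maximal {p k : ℕ} (hn : 13 ≤ n) (hp : p.Prime) (hpo : Odd p)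
    (hF : Fintype.card F = p) (hB : BNondeg Qf)
    (hplus : Cfsg.Geo.IsPlusTypeOn (⇑Qf) ⊤) {R : Subgroup (GL (Fin n) F)}
    (hR : Cfsg.Geo.IsSymplecticTypeGroup 2 R)
    (hirr : Cfsg.Geo.ActsAbsolutelyIrreducibly (Cfsg.Geo.matrixSet R))
    (hRD : R ≤ Cfsg.isometryGroup F ⇑Qf) (hcard : Nat.card R = 2 ^ (1 + 2 * k))
    (hZ : Nat.card (Subgroup.center R) = 2) :
    Cfsg.Geo.IsMaximalIn (Cfsg.Geo.omegaGL ⇑Qf)
      (Cfsg.Geo.subgroupNormalizer R ⊓ Cfsg.Geo.omegaGL ⇑Qf) := by
  classical
  have h2 : (2 : F) ≠ 0 := GeoClasses.two_ne_zero_iff_odd_card.2 (hF ▸ hpo)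
  obtain ⟨S, hSk, hkn, hSR⟩ := exists_frame_of_group (by omega) h2 hB hR hirr hRD hcard hZ
  have hk : 4 ≤ S.k := by
    rw [hSk]
    by_contra hlt
    have : 2 ^ k ≤ 2 ^ 3 := Nat.pow_le_pow_right two_pos (by omega)
    omega
  have hn16 : 16 ≤ n := by
    rw [← hkn]
    exact le_trans (by norm_num) (Nat.pow_le_pow_right two_pos (hSk ▸ hk))
  have hfin : Finite (G F (Fin n → F)) :=
    Finite.of_equiv _ (glE (F := F) (n := n)).toEquiv
  have hdimV : finrank F (Fin n → F) = n := Module.finrank_fin_fun F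
  -- normalising `R`
  have hNm : ∀ g : GL (Fin n) F, g ∈ Cfsg.Geo.subgroupNormalizer R ↔ glE g ∈ S.Nm := by
    intro g
    have hm : ∀ x, glE x ∈ S.R ↔ x ∈ R := fun x => by
      rw [hSR]
      exact ⟨fun ⟨x', hx', e⟩ => glE.injective e ▸ hx', fun h => ⟨x, h, rfl⟩⟩
    rw [Frame.Nm, Cfsg.Geo.subgroupNormalizer, Subgroup.mem_normalizer_iff,
      Subgroup.mem_normalizer_iff]
    constructor
    · intro h x
      obtain ⟨r, rfl⟩ := glE.surjective x
      simp only [← map_inv, ← map_mul, SetLike.mem_coe, hm]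
      exact h r
    · intro h r
      have := h (glE r)
      simp only [← map_inv, ← map_mul, SetLike.mem_coe, hm] at this
      exact this
  refine ⟨lt_of_le_not_ge inf_le_right fun hle => ?_, fun M hNM hMΩ => ?_⟩
  · -- properness
    obtain ⟨U, -, hU, hdU⟩ := hplus
    rw [finrank_top, hdimV] at hdU
    have hUne : U ≠ ⊥ := fun h => by rw [h, finrank_bot] at hdU; omega
    obtain ⟨u, hu, hu0⟩ := U.exists_mem_ne_zero_of_ne_bot hUne
    obtain ⟨w, hw, hwu⟩ := GeoClasses.exists_not_mem_sup (S := U) (P := (F ∙ u)) fun h => by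
      have := (Submodule.finrank_mono h).trans (finrank_span_le_card ({u} : Set (Fin n → F)))
      simp only [Set.toFinset_singleton, Finset.card_singleton] at this
      omega
    have huw : polar Qf u w = 0 := GeoClasses.polar_zero_of_sing hU hu hw
    set g := siegel Qf (hU u hu) huw with hg
    have hgC : g ∈ commutator (OQ Qf) :=
      GeoClasses.siegel_singular_mem_commutator hB (by omega) (hU u hu) huw (hU w hw)
    have hgΩ : GeoClasses.oqToGL Qf g ∈ Cfsg.Geo.omegaGL ⇑Qf := by
      rw [← GeoClasses.map_oqToGL_commutator]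
      exact ⟨g, hgC, rfl⟩
    have hgiso : glE (GeoClasses.oqToGL Qf g) ∈ Iso (polarBilin Qf) := fun a b => by
      simp only [polarBilin_apply_apply, glE_oqToGL]
      exact OQ_polar g a b
    have hrank : finrank F
        (LinearMap.range ((glE (GeoClasses.oqToGL Qf g) : Module.End F (Fin n → F)) - 1)) ≤ 2 := by
      refine le_trans (Submodule.finrank_mono (t := Submodule.span F {w, u}) ?_) ?_
      · rintro _ ⟨v, rfl⟩
        refine Submodule.mem_span_pair.2 ⟨polar Qf u v, -polar Qf w v, ?_⟩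
        rw [LinearMap.sub_apply, Module.End.one_apply, glE_oqToGL, hg, siegel_apply, hU w hw,
          zero_mul, zero_smul, sub_zero, neg_smul]
        abel
      · refine (finrank_span_le_card _).trans ?_
        rw [Set.toFinset_insert, Set.toFinset_singleton]
        exact Finset.card_le_two
    have h1 := S.eq_one_of_small hk hgiso ((hNm _).1 (hle hgΩ).1) hrank
    obtain ⟨v, hv⟩ : ∃ v, polar Qf u v ≠ 0 := by
      by_contra hcon
      push Not at hcon
      exact hu0 (hB u hcon)
    have h3 := glE_oqToGL g v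
    rw [h1, Units.val_one, Module.End.one_apply, hg, siegel_apply, hU w hw, zero_mul, zero_smul,
      sub_zero] at h3
    refine hwu (Submodule.mem_span_singleton.2 ⟨(polar Qf u v)⁻¹ * polar Qf w v, ?_⟩)
    have h4 : polar Qf u v • w = polar Qf w v • u := by
      linear_combination (norm := module) -h3
    rw [mul_smul, ← h4, inv_smul_smul₀ hv]
  -- overgroups
  set M' := M.map glE.toMonoidHom with hM'
  have hM'iso : M' ≤ Iso (polarBilin Qf) := by
    refine (Subgroup.map_mono hMΩ).trans ?_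
    rw [map_omegaGL h2]
    exact Subgroup.commutator_le_self _
  have hw : ∀ {y z : S.R} (hy : (y : G F (Fin n → F)) * y = -1)
      (hz : (z : G F (Fin n → F)) * z = -1), S.w hy hz ∈ M' := by
    intro y z hy hz
    have h1 := S.w_mem_commutator hk hy hz
    rw [← map_omegaGL h2] at h1
    obtain ⟨g, hg, hgw⟩ := h1
    refine ⟨g, hNM ⟨(hNm g).2 ?_, hg⟩, hgw⟩
    rw [show glE g = S.w hy hz from hgw]
    exact (S.w_mem hy hz).1
  by_cases hcent : ∀ y : S.R, (y : G F (Fin n → F)) * y = -1 → ∀ g ∈ M',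
      g * (y : G F (Fin n → F)) = y * g → ∀ r ∈ S.R, r * (y : G F (Fin n → F)) = y * r →
        g * r * g⁻¹ ∈ S.R
  · left
    have hle := Over.le_Nm (M := M') (S := S) ⟨hM'iso, hk, hfin, hw, hcent⟩
    refine le_antisymm (fun g hg => ⟨(hNm g).2 (hle ⟨g, hg, rfl⟩), hMΩ hg⟩) hNM
  right
  refine le_antisymm hMΩ (omegaGL_le_of ?_)
  set MQ := M.comap (GeoClasses.oqToGL Qf)
  push Not at hcent
  obtain ⟨y, hy, hbad⟩ := hcent
  set Y : Module.End F (Fin n → F) := ((y : G F (Fin n → F)) : Module.End F (Fin n → F)) with hY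
  have hYY : ∀ v, Y (Y v) = -v := fun v => by
    simpa [hY] using congrArg (fun f : G F (Fin n → F) => (f : Module.End F (Fin n → F)) v) hy
  have hYiso : ∀ a b, polar Qf (Y a) (Y b) = polar Qf a b := fun a b => S.isom _ y.2 a b
  have hskew : ∀ a b, polar Qf (Y a) b = -polar Qf a (Y b) := fun a b => by
    rw [← hYiso a (Y b), hYY, polar_neg_right, neg_neg]
  -- an element of `M'` moving the class of `y`
  obtain ⟨x₁, hx1, hx1q⟩ := S.QS'.exists_B_q (by rw [S.QS'_k]; omega) (S.ns_ne_zero hy) 1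
  obtain ⟨x₂, hx2, hx2q⟩ := S.QS'.exists_perp_q (by rw [S.QS'_k]; omega) (S.cls y) 1
  set t : G F (Fin n → F) := S.w (S.sq_of_qv_one hx1q) (S.sq_of_qv_one hx2q) with ht
  have htM : t ∈ M' := hw _ _
  have htN : t ∈ S.Nm := (S.w_mem _ _).1
  obtain ⟨r', hr'⟩ : ∃ r' : S.R, (r' : G F (Fin n → F)) = t * y * t⁻¹ :=
    ⟨⟨_, S.conj_mem htN y.2⟩, rfl⟩
  have hr'cls : S.cls r' = S.cls y + x₁ := by
    have h := S.act_cls htN y
    rw [show (⟨t * y * t⁻¹, S.conj_mem htN y.2⟩ : S.R) = r' from Subtype.ext hr'.symm] at h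
    rw [← h]
    show S.act ⟨S.w _ _, _⟩ (S.cls y) = _
    rw [S.act_w, S.cls_rep, S.cls_rep,
      QS.T_apply_of_perp _ (y := x₂) (a := S.cls y) (by rw [S.QS'.B_comm]; exact hx2),
      QS.T_apply_of_one _ (y := x₁) (a := S.cls y) (by rw [S.QS'.B_comm]; exact hx1)]
  have hr'ne : S.cls r' ≠ S.cls y := by
    rw [hr'cls, Ne, add_eq_left]
    exact S.QS'.ne_zero_of_q hx1q
  -- it moves the span of `1` and `Y`
  have hspan : ∀ c d : F, ¬ ((r' : G F (Fin n → F)) : Module.End F (Fin n → F)) = c • 1 + d • Y := by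
    intro c d h
    have hne : ∀ {a : S.R}, S.cls r' ≠ S.cls a →
        Frame.co (r' : G F (Fin n → F)) ((a : G F (Fin n → F)) : Module.End F (Fin n → F)) = 0 := by
      intro a ha
      refine S.co_eq_zero r'.2 a.2 (fun e => ha (S.cls_eq_iff.2 (Or.inl e))) (fun e => ha ?_)
      exact S.cls_eq_iff.2 (Or.inr e)
    have h' := congrArg (Frame.co (r' : G F (Fin n → F))) h
    rw [S.co_self, map_add, map_smul, map_smul, hY, hne hr'ne,
      show (1 : Module.End F (Fin n → F)) = (((1 : S.R) : G F (Fin n → F)) : Module.End F (Fin n → F))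
        from rfl, hne (a := 1) (fun e => S.ns_ne_zero (y := r') (by
          rw [hr']; exact conj_sq_neg_one hy t) (e.trans S.cls_one)), smul_zero, smul_zero,
      add_zero] at h'
    exact one_ne_zero h'
  obtain ⟨g₀, hg₀⟩ := exists_OQ h2 (hM'iso htM)
  have hg₀M : g₀ ∈ MQ := mem_comap_of_eq htM fun v => (hg₀ v).symm
  have hty : ∀ v, g₀.1 (Y v) = ((r' : G F (Fin n → F)) : Module.End F (Fin n → F)) (g₀.1 v) := by
    intro v
    rw [hg₀, hg₀, hY, ← Module.End.mul_apply, ← Units.val_mul, ← Module.End.mul_apply, ← Units.val_mul,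
      hr', inv_mul_cancel_right]
  by_cases hi : ∃ i : F, i * i = -1
  · -- two totally singular eigenspaces
    obtain ⟨i, hi⟩ := hi
    have hi0 : i ≠ 0 := fun h => by simp [h] at hi
    rcases cent_or_root_lin S hk hp hF hi hM'iso hw y hy with h | hroot
    · obtain ⟨g, hg, hgy, r, hr, hry, hgr⟩ := hbad
      exact absurd (h g hg hgy r hr hry) hgr
    let A : Submodule F (Fin n → F) := LinearMap.ker (Y - i • 1)
    let B : Submodule F (Fin n → F) := LinearMap.ker (Y + i • 1)
    have memA : ∀ v, v ∈ A ↔ Y v = i • v := fun v => by simp [A, sub_eq_zero]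
    have memB : ∀ v, v ∈ B ↔ Y v = -(i • v) := fun v => by simp [B, add_eq_zero_iff_eq_neg]
    have hQ0 : ∀ v, (Y v = i • v ∨ Y v = -(i • v)) → Qf v = 0 := by
      intro v hv
      have h := hYiso v v
      rcases hv with hv | hv <;> rw [hv] at h <;>
        simp only [polar_neg_left, polar_neg_right, polar_smul_left, polar_smul_right, smul_eq_mul,
          neg_neg, polar_self, nsmul_eq_mul, Nat.cast_ofNat, QuadraticMap.map_smul,
          QuadraticMap.map_neg] at h <;>
        refine (mul_eq_zero.1 (show (2 * 2 : F) * Qf v = 0 from ?_)).resolve_left (mul_ne_zero h2 h2) <;>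
        linear_combination -h + 2 * Qf v * hi
    have hA : ∀ v ∈ A, Qf v = 0 := fun v hv => hQ0 v (Or.inl ((memA v).1 hv))
    have hB' : ∀ v ∈ B, Qf v = 0 := fun v hv => hQ0 v (Or.inr ((memB v).1 hv))
    have hcompl : IsCompl A B := by
      refine ⟨Submodule.disjoint_def.2 fun v h1 h1' => ?_, codisjoint_iff.2 ?_⟩
      · rw [memA] at h1
        rw [memB, h1, eq_neg_iff_add_eq_zero, ← two_smul F, smul_smul] at h1'
        exact (smul_eq_zero.1 h1').resolve_left (mul_ne_zero h2 hi0)
      · refine eq_top_iff.2 fun v _ => Submodule.mem_sup.2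
          ⟨(2 : F)⁻¹ • (v + -(i • Y v)), (memA _).2 ?_, (2 : F)⁻¹ • (v + i • Y v), (memB _).2 ?_, ?_⟩
        · simp only [map_smul, map_add, map_neg, hYY]
          linear_combination (norm := module) ((2 : F)⁻¹ * hi) • Y v
        · simp only [map_smul, map_add, hYY]
          linear_combination (norm := module) ((2 : F)⁻¹ * hi) • Y v
        · match_scalars <;> field_simp <;> ring
    obtain ⟨a, ha⟩ := S.exists_anti (S.ns_ne_zero hy)
    set As : Module.End F (Fin n → F) := ((a : G F (Fin n → F)) : Module.End F (Fin n → F)) with hAs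
    have hYa : ∀ v, Y (As v) = -As (Y v) := fun v => by
      simpa [hY, hAs] using congrArg (fun f : G F (Fin n → F) => (f : Module.End F (Fin n → F)) v) ha
    have hsA : ∀ v ∈ A, As v ∈ B := fun v hv => by
      rw [memB, hYa, (memA v).1 hv, map_smul]
    have hsB : ∀ v ∈ B, As v ∈ A := fun v hv => by
      rw [memA, hYa, (memB v).1 hv, map_neg, map_smul, neg_neg]
    have hd : finrank F A = finrank F B := by
      have hinj : Function.Injective As := fun u v h => by
        have := congrArg (((a : G F (Fin n → F))⁻¹ : G F (Fin n → F)) : Module.End F (Fin n → F)) h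
        simp only [hAs, ← Module.End.mul_apply, ← Units.val_mul, inv_mul_cancel, Units.val_one,
          Module.End.one_apply] at this
        exact this
      refine le_antisymm ?_ ?_
      · rw [(Submodule.equivMapOfInjective As hinj A).finrank_eq]
        exact Submodule.finrank_mono (by rintro _ ⟨v, hv, rfl⟩; exact hsA v hv)
      · rw [(Submodule.equivMapOfInjective As hinj B).finrank_eq]
        exact Submodule.finrank_mono (by rintro _ ⟨v, hv, rfl⟩; exact hsB v hv)
    have hdsum := Submodule.finrank_add_eq_of_isCompl hcompl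
    rw [hdimV] at hdsum
    have haM : (a : G F (Fin n → F)) ∈ M' := S.R_le_of_w hk hw a.2
    obtain ⟨s, hs⟩ := exists_OQ h2 (hM'iso haM)
    refine commutator_le_of_halves hB hcompl hA hB' (by omega) hd ?_
      (mem_comap_of_eq haM fun v => (hs v).symm) (fun v hv => by rw [hs]; exact hsA v hv)
      (fun v hv => by rw [hs]; exact hsB v hv) hg₀M ?_
    · intro u hu w hw' hu0 huw
      obtain ⟨g, hg, hgv⟩ := hroot u w ((memA u).1 hu) ((memB w).1 hw') huw
      refine mem_comap_of_eq hg fun v => ?_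
      rw [hgv, siegel_apply, hB' w hw', zero_mul, zero_smul, sub_zero]
      simp only [polarBilin_apply_apply]
    · -- `g₀` would fix the span of `1` and `Y`
      have hsplit : ∀ c : F, (∀ v ∈ A, g₀.1 (Y v) = c • Y (g₀.1 v)) →
          (∀ v ∈ B, g₀.1 (Y v) = c • Y (g₀.1 v)) → False := by
        intro c h1 h1'
        refine hspan 0 c (LinearMap.ext fun v => ?_)
        obtain ⟨v', rfl⟩ := g₀.1.surjective v
        obtain ⟨a', ha', b', hb', rfl⟩ :=
          Submodule.mem_sup.1 (show v' ∈ A ⊔ B by rw [hcompl.sup_eq_top]; trivial)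
        rw [← hty, map_add Y, map_add, map_add, h1 a' ha', h1' b' hb', zero_smul, zero_add,
          LinearMap.smul_apply, map_add, smul_add]
      rintro (⟨hgA, hgB⟩ | ⟨hgA, hgB⟩)
      · refine hsplit 1 (fun v hv => ?_) (fun v hv => ?_)
        · rw [(memA v).1 hv, map_smul, one_smul, (memA _).1 (hgA v hv)]
        · rw [(memB v).1 hv, map_neg, map_smul, one_smul, (memB _).1 (hgB v hv)]
      · refine hsplit (-1) (fun v hv => ?_) (fun v hv => ?_)
        · rw [(memA v).1 hv, map_smul, neg_one_smul, (memB _).1 (hgA v hv), neg_neg]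
        · rw [(memB v).1 hv, map_neg, map_smul, neg_one_smul, (memA _).1 (hgB v hv)]
  · -- a quadratic overfield
    push Not at hi
    have hp4 : p % 4 = 3 := by
      by_contra h
      have : IsSquare (-1 : F) := FiniteField.isSquare_neg_one_iff.2 (by rw [hF]; exact h)
      obtain ⟨i, hi'⟩ := this
      exact hi i hi'.symm
    rcases cent_or_root_unit S hk hp hp4 hF hM'iso hw y hy with h | hroot
    · obtain ⟨g, hg, hgy, r, hr, hry, hgr⟩ := hbad
      exact absurd (h g hg hgy r hr hry) hgr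
    have hstr : OrthOverfield.OStr Qf Y 0 (-1) := by
      refine ⟨fun x hx => hi x (by rwa [zero_mul, zero_add] at hx), fun v => ?_, fun v => ?_,
        fun v => ?_⟩
      · rw [hYY, zero_smul, zero_add, neg_one_smul]
      · have h := hYiso v v
        rw [polar_self, polar_self, nsmul_eq_mul, nsmul_eq_mul] at h
        rw [neg_neg, one_mul]
        exact mul_left_cancel₀ h2 (by simpa using h)
      · rw [zero_mul]
        have h := hskew v v
        rw [polar_comm (⇑Qf) (Y v) v] at h
        refine (mul_eq_zero.1 (show (2 : F) * polar Qf v (Y v) = 0 from ?_)).resolve_left h2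
        linear_combination h
    have hO : OrthOverfield.Over Y (0 : F) (-1) MQ := by
      refine ⟨hstr, fun u hu => ⟨by rw [hstr.self, zero_mul], fun t ht' => ?_⟩⟩
      obtain ⟨g, hg, hgv⟩ := hroot u (by
        rw [polarBilin_apply_apply, polar_self, hu, smul_zero]) t
      refine mem_comap_of_eq hg fun v => ?_
      rw [hgv, siegel_apply]
      simp only [polarBilin_apply_apply, QuadraticMap.map_smul, hstr.scale, hu, mul_zero, smul_zero,
        zero_mul, zero_smul, sub_zero, polar_smul_left, smul_eq_mul, ← hY]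
      module
    refine hO.commutator_le hB (by omega) hg₀M ?_
    rintro ⟨c, d, hcd⟩
    refine hspan c d (LinearMap.ext fun v => ?_)
    obtain ⟨v', rfl⟩ := g₀.1.surjective v
    rw [← hty, hcd, LinearMap.add_apply, LinearMap.smul_apply, LinearMap.smul_apply,
      Module.End.one_apply]

end Cfsg.Agent.MaxSub.CSixOp
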