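import Cfsg.Agent.MaxSub.CSixOp.Singular

/-!
An element of an overgroup moving a noncentral element of `R` into `R` normalises `R`.
-/

set_option autoImplicit false
set_option linter.unusedSectionVars false
attribute [-instance] AddSubgroupClass.instZModModule

namespace Cfsg.Agent.MaxSub.CSixOp

variable {F : Type*} [Field F] {V : Type*} [AddCommGroup V] [Module F V]

namespace Over

variable {B : LinearMap.BilinForm F V} {S : Frame B} {M : Subgroup (G F V)} (hM : Over S M)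

include hM

/-- An element of `M` centralising an involution of `R` normalises `R`. -/
theorem centX (P : Blk S) {g : G F V} (hg : g ∈ M) (hgC : g ∈ P.C) : g ∈ S.Nm := by
  have hk := hM.k_le
  have hk' : 3 ≤ P.frame.k := by rw [P.frame_k]; omega
  have hK := hM.half_eq P
  have haM : P.a ∈ M := hM.R_le P.a_mem
  have hflipM : ∀ u : P.C, (u : G F V) ∈ M → (P.flip u : G F V) ∈ M := fun u hu =>
    M.mul_mem (M.mul_mem (M.inv_mem haM) hu) haM
  -- restrictions normalise the restricted group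
  have hres : ∀ u : P.C, (u : G F V) ∈ M → P.res u ∈ P.frame.Nm := by
    intro u hu
    refine P.frame.mem_Nm_of_conj fun r hr => ?_
    rw [← hK] at hr ⊢
    show P.ext _ ∈ M
    rw [P.ext_conj]
    exact M.mul_mem (M.mul_mem hu hr) (M.inv_mem hu)
  have hiso : ∀ u : P.C, (u : G F V) ∈ M → P.res u ∈ Iso P.B' := fun u hu =>
    P.res_mem_Iso (hM.le hu)
  let A : ∀ u : P.C, (u : G F V) ∈ M → (P.frame.E ≃ₗ[ZMod 2] P.frame.E) := fun u hu =>
    P.frame.act ⟨P.res u, hres u hu⟩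
  have hAmul : ∀ (u v : P.C) (hu : (u : G F V) ∈ M) (hv : (v : G F V) ∈ M),
      A (u * v) (M.mul_mem hu hv) = A u hu * A v hv := by
    intro u v hu hv
    show P.frame.act _ = P.frame.act _ * P.frame.act _
    rw [← map_mul]
    exact congrArg P.frame.act (Subtype.ext (map_mul P.res u v))
  have hAinv : ∀ (u : P.C) (hu : (u : G F V) ∈ M),
      A u⁻¹ (M.inv_mem hu) = (A u hu)⁻¹ := by
    intro u hu
    show P.frame.act _ = (P.frame.act _)⁻¹
    rw [← map_inv]
    exact congrArg P.frame.act (Subtype.ext (map_inv P.res u))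
  -- the action on the classes of lifts
  have hAcls : ∀ (u : P.C) (hu : (u : G F V) ∈ M) (r : P.C) (hr : (r : G F V) ∈ S.R),
      A u hu (P.frame.cls ⟨P.res r, P.res_mem_R' hr⟩) =
        P.frame.cls ⟨P.res (u * r * u⁻¹), by
          rw [map_mul, map_mul, map_inv]
          exact P.frame.conj_mem (hres u hu) (P.res_mem_R' hr)⟩ := by
    intro u hu r hr
    show P.frame.act _ _ = _
    rw [P.frame.act_cls]
    exact congrArg P.frame.cls (Subtype.ext (by simp))
  have hlift : ∀ x : P.frame.E, ∃ (r : P.C) (hr : (r : G F V) ∈ S.R),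
      P.frame.cls ⟨P.res r, P.res_mem_R' hr⟩ = x := by
    intro x
    obtain ⟨r', rfl⟩ := P.frame.cls_surjective x
    obtain ⟨r, hC, hr, e⟩ := P.mem_R'.1 r'.2
    exact ⟨⟨r, hC⟩, hr, congrArg P.frame.cls (Subtype.ext e)⟩
  -- the two halves of an element of the normaliser act alike
  have hflipN : ∀ (u : P.C) (hu : (u : G F V) ∈ M), (u : G F V) ∈ S.Nm →
      A (P.flip u) (hflipM u hu) = A u hu := by
    intro u hu huN
    refine LinearEquiv.ext fun x => ?_
    obtain ⟨r, hr, rfl⟩ := hlift x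
    have hfr : (P.flip r : G F V) ∈ S.R := (P.flip_pm hr).mem S.neg_one hr
    have e : P.frame.cls ⟨P.res r, P.res_mem_R' hr⟩ =
        P.frame.cls ⟨P.res (P.flip r), P.res_mem_R' hfr⟩ :=
      P.frame.pm_cls.1 (P.res_pm (P.flip_pm hr).symm)
    conv_lhs => rw [e]
    rw [hAcls (P.flip u) (hflipM u hu) _ hfr, hAcls u hu _ hr]
    refine P.frame.pm_cls.1 (P.res_pm ?_)
    rw [← P.flip_inv, ← P.flip_mul, ← P.flip_mul]
    refine P.flip_pm ?_
    exact S.conj_mem huN hr
  -- the kernel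
  have hker : ∀ (u : P.C) (hu : (u : G F V) ∈ M), A u hu = 1 → A (P.flip u) (hflipM u hu) = 1 := by
    intro u hu h1
    have h2 : P.res u ∈ P.frame.R := P.frame.mem_R_of_act_eq_one (g := ⟨_, hres u hu⟩) (hiso u hu) h1
    have h3 : P.ext (P.res u) ∈ M := by rwa [← hK] at h2
    have h4 : P.res (P.flip u) ∈ P.frame.R := by
      rw [← hK]
      show P.ext (P.res (P.flip u)) ∈ M
      have e : P.ext (P.res (P.flip u)) = P.a⁻¹ * ((P.ext (P.res u))⁻¹ * u) * P.a := by
        conv_rhs => arg 1; arg 2; arg 2; rw [P.eq_ext_mul_ext' u]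
        rw [inv_mul_cancel_left, P.ext'_eq]
        show P.ext _ = _
        group
        rfl
      rw [e]
      exact M.mul_mem (M.mul_mem (M.inv_mem haM) (M.mul_mem (M.inv_mem h3) hu)) haM
    exact P.frame.act_eq_one_of_mem_R h4
  set gC : P.C := ⟨g, hgC⟩ with hgCdef
  have hgM : (gC : G F V) ∈ M := hg
  -- the two halves of `g` act alike
  have hA : A (P.flip gC) (hflipM gC hgM) = A gC hgM := by
    set f := A gC hgM with hf
    set f' := A (P.flip gC) (hflipM gC hgM) with hf'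
    have hfq : ∀ x, P.frame.qv (f x) = P.frame.qv x := fun x => P.frame.qv_act _ x
    have hf'q : ∀ x, P.frame.qv (f' x) = P.frame.qv x := fun x => P.frame.qv_act _ x
    have hfiq : ∀ x, P.frame.qv (f⁻¹ x) = P.frame.qv x := fun x => by
      conv_rhs => rw [← f.apply_symm_apply x, hfq]
      rfl
    -- elements inducing products of two symmetries
    have hTT : ∀ a b, P.frame.qv a = 1 → P.frame.qv b = 1 → ∃ (u : P.C) (hu : (u : G F V) ∈ M),
        (u : G F V) ∈ S.Nm ∧ A u hu = P.frame.QS'.T a * P.frame.QS'.T b := by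
      intro a b ha hb
      obtain ⟨y', rfl⟩ := P.frame.cls_surjective a
      obtain ⟨z', rfl⟩ := P.frame.cls_surjective b
      have hy' := P.frame.qv_cls_eq_one.1 ha
      have hz' := P.frame.qv_cls_eq_one.1 hb
      obtain ⟨r, hr, hrq, hr'⟩ := P.exists_lift y'.2 hy'
      obtain ⟨s, hs, hsq, hs'⟩ := P.exists_lift z'.2 hz'
      set w := S.w (y := ⟨(r : G F V), hr⟩) (z := ⟨(s : G F V), hs⟩) hrq hsq with hw
      have hwC : w ∈ P.C := by
        rw [P.mem_C]
        refine Units.ext (LinearMap.ext fun v => ?_)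
        simp only [hw, Units.val_mul, Module.End.mul_apply, S.w_val, LinearMap.smul_apply,
          LinearMap.add_apply, Module.End.one_apply, map_smul, map_add, P.C_apply r.2, P.C_apply s.2]
      have hwres : P.res ⟨w, hwC⟩ = P.frame.w hy' hz' := by
        refine Units.ext (LinearMap.ext fun u => Subtype.ext ?_)
        rw [P.res_coe, P.frame.w_val]
        simp only [hw, S.w_val, LinearMap.smul_apply, Module.End.mul_apply, LinearMap.add_apply,
          Module.End.one_apply, map_add, Submodule.coe_smul, Submodule.coe_add, ← hr', ← hs',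
          P.res_coe]
      refine ⟨⟨w, hwC⟩, hM.w_mem _ _, (S.w_mem _ _).1, LinearEquiv.ext fun x => ?_⟩
      show P.frame.act _ x = _
      rw [show (⟨P.res ⟨w, hwC⟩, hres _ (hM.w_mem _ _)⟩ : P.frame.Nm) =
        ⟨_, (P.frame.w_mem hy' hz').1⟩ from Subtype.ext hwres, P.frame.act_w]
      rfl
    have hψ : f⁻¹ * f' = 1 := by
      refine P.frame.QS'.eq_one_of_commute_TT (by rw [Frame.QS'_k]; omega)
        (fun x => (hfiq _).trans (hf'q x)) fun a b ha hb => ?_
      obtain ⟨n, hn, hnN, hna⟩ := hTT a b ha hb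
      obtain ⟨m, hm, hmN, hma⟩ := hTT (f a) (f b) ((hfq a).trans ha) ((hfq b).trans hb)
      have hu : ((gC * n * gC⁻¹ * m⁻¹ : P.C) : G F V) ∈ M :=
        M.mul_mem (M.mul_mem (M.mul_mem hgM hn) (M.inv_mem hgM)) (M.inv_mem hm)
      have h0 : A (gC * n * gC⁻¹ * m⁻¹) hu = 1 := by
        rw [hAmul _ _ (M.mul_mem (M.mul_mem hgM hn) (M.inv_mem hgM)) (M.inv_mem hm),
          hAmul _ _ (M.mul_mem hgM hn) (M.inv_mem hgM), hAmul _ _ hgM hn, hAinv _ hgM, hAinv _ hm,
          hna, hma, ← hf,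
          show f * (P.frame.QS'.T a * P.frame.QS'.T b) * f⁻¹ =
            f * P.frame.QS'.T a * f⁻¹ * (f * P.frame.QS'.T b * f⁻¹) by group,
          P.frame.QS'.conj_T hfq, P.frame.QS'.conj_T hfq, mul_inv_cancel]
      have h1 := hker _ hu h0
      have hfn : ((P.flip n : P.C) : G F V) ∈ M := hflipM n hn
      have hfm : ((P.flip m : P.C) : G F V) ∈ M := hflipM m hm
      have e : P.flip (gC * n * gC⁻¹ * m⁻¹) =
          P.flip gC * P.flip n * (P.flip gC)⁻¹ * (P.flip m)⁻¹ := by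
        rw [P.flip_mul, P.flip_mul, P.flip_mul, P.flip_inv, P.flip_inv]
      have h2 : A (P.flip gC * P.flip n * (P.flip gC)⁻¹ * (P.flip m)⁻¹) (by rw [← e]; exact hflipM _ hu)
          = 1 := by
        rw [← h1]
        exact congrArg P.frame.act (Subtype.ext (congrArg P.res e.symm))
      have hfg : ((P.flip gC : P.C) : G F V) ∈ M := hflipM gC hgM
      rw [hAmul _ _ (M.mul_mem (M.mul_mem hfg hfn) (M.inv_mem hfg)) (M.inv_mem hfm),
        hAmul _ _ (M.mul_mem hfg hfn) (M.inv_mem hfg), hAmul _ _ hfg hfn, hAinv _ hfg, hAinv _ hfm,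
        hflipN n hn hnN, hflipN m hm hmN, hna, hma, ← hf',
        show f' * (P.frame.QS'.T a * P.frame.QS'.T b) * f'⁻¹ =
          f' * P.frame.QS'.T a * f'⁻¹ * (f' * P.frame.QS'.T b * f'⁻¹) by group,
        P.frame.QS'.conj_T hf'q, P.frame.QS'.conj_T hf'q, mul_inv_eq_one] at h2
      have h3 : f⁻¹ * (P.frame.QS'.T (f' a) * P.frame.QS'.T (f' b)) * f⁻¹⁻¹ =
          f⁻¹ * (P.frame.QS'.T (f a) * P.frame.QS'.T (f b)) * f⁻¹⁻¹ := by rw [h2]
      rw [show ∀ s t : P.frame.E ≃ₗ[ZMod 2] P.frame.E, f⁻¹ * (s * t) * f⁻¹⁻¹ =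
          f⁻¹ * s * f⁻¹⁻¹ * (f⁻¹ * t * f⁻¹⁻¹) from fun s t => by group,
        show ∀ s t : P.frame.E ≃ₗ[ZMod 2] P.frame.E, f⁻¹ * (s * t) * f⁻¹⁻¹ =
          f⁻¹ * s * f⁻¹⁻¹ * (f⁻¹ * t * f⁻¹⁻¹) from fun s t => by group,
        P.frame.QS'.conj_T hfiq, P.frame.QS'.conj_T hfiq, P.frame.QS'.conj_T hfiq,
        P.frame.QS'.conj_T hfiq] at h3
      show P.frame.QS'.T (f⁻¹ (f' a)) * P.frame.QS'.T (f⁻¹ (f' b)) = _
      rw [h3]
      exact congrArg₂ (fun s t => P.frame.QS'.T s * P.frame.QS'.T t) (f.symm_apply_apply a)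
        (f.symm_apply_apply b)
    exact (inv_mul_eq_one.1 hψ).symm
  -- hence `g` maps the centraliser of `x` in `R` into `R`
  have hmap : ∀ r : P.C, (r : G F V) ∈ S.R → g * r * g⁻¹ ∈ S.R := by
    intro r hr
    obtain ⟨r₁, hr₁, hr₁'⟩ := hlift (A gC hgM (P.frame.cls ⟨P.res r, P.res_mem_R' hr⟩))
    have h1 : PM (P.res (gC * r * gC⁻¹)) (P.res r₁) := by
      rw [hAcls gC hgM _ hr] at hr₁'
      exact P.frame.pm_cls.2 hr₁'.symm
    have h2 : PM (P.res (P.flip (gC * r * gC⁻¹))) (P.res (P.flip r₁)) := by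
      have hfr : (P.flip r : G F V) ∈ S.R := (P.flip_pm hr).mem S.neg_one hr
      have e : P.frame.cls ⟨P.res (P.flip r), P.res_mem_R' hfr⟩ =
          P.frame.cls ⟨P.res r, P.res_mem_R' hr⟩ := P.frame.pm_cls.1 (P.res_pm (P.flip_pm hr))
      have h := hAcls (P.flip gC) (hflipM gC hgM) (P.flip r) hfr
      rw [e, hA, ← hr₁'] at h
      have h' := P.frame.pm_cls.2 h.symm
      rw [P.flip_mul, P.flip_mul, P.flip_inv]
      exact h'.trans (P.res_pm (P.flip_pm hr₁).symm)
    obtain ⟨d, hd⟩ : ∃ d : P.C, d = r₁⁻¹ * (gC * r * gC⁻¹) := ⟨_, rfl⟩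
    have hd1 : PM (P.res d) 1 := by
      rw [hd, map_mul, map_inv]
      have := h1.mul_left (P.res r₁)⁻¹
      rwa [inv_mul_cancel] at this
    have hd2 : PM (P.res (P.flip d)) 1 := by
      rw [hd, P.flip_mul, P.flip_inv, map_mul, map_inv]
      have := h2.mul_left (P.res (P.flip r₁))⁻¹
      rwa [inv_mul_cancel] at this
    have hdR : (d : G F V) ∈ S.R := by
      rw [P.eq_ext_mul_ext' d]
      refine S.R.mul_mem ?_ ?_
      · rcases hd1 with e | e <;> rw [e]
        · simpa using S.R.one_mem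
        · rw [P.ext_neg_one]; exact S.neg_mem P.x_mem
      · show P.ext' (P.res (P.flip d)) ∈ S.R
        rcases hd2 with e | e <;> rw [e]
        · simpa using S.R.one_mem
        · rw [P.ext'_neg_one]; exact P.x_mem
    have := S.R.mul_mem hr₁ hdR
    rw [hd] at this
    simpa [gC] using this
  -- some nonsingular element commutes with `x`
  obtain ⟨v, hv1, hv2⟩ := S.QS'.exists_perp_q (by rw [S.QS'_k]; omega) (S.cls ⟨P.x, P.x_mem⟩) 1
  obtain ⟨y, rfl⟩ := S.cls_surjective v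
  have hyC : (y : G F V) ∈ P.C := P.mem_C.2 (S.bf_eq_zero.1 hv1)
  exact hM.mem_Nm_of_ns (S.qv_cls_eq_one.1 hv2) hg (hmap ⟨y, hyC⟩ y.2)

/-- An element of `M` moving a noncentral element of `R` into `R` normalises `R`. -/
theorem mem_Nm_of_move {r : S.R} (hr : S.cls r ≠ 0) {g : G F V} (hg : g ∈ M)
    (h : g * (r : G F V) * g⁻¹ ∈ S.R) : g ∈ S.Nm := by
  rcases S.sq_sign r r.2 with h1 | h1
  swap
  · exact hM.mem_Nm_of_ns h1 hg h
  set r₁ : S.R := ⟨_, h⟩ with hr₁
  have h11 : (r₁ : G F V) * r₁ = 1 := by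
    show g * (r : G F V) * g⁻¹ * (g * r * g⁻¹) = 1
    rw [show g * (r : G F V) * g⁻¹ * (g * r * g⁻¹) = g * ((r : G F V) * r) * g⁻¹ by group, h1]
    simp
  have hr₁0 : S.cls r₁ ≠ 0 := by
    rw [Ne, S.cls_eq_zero] at hr ⊢
    rintro (e | e) <;> apply hr
    · left
      have : g * (r : G F V) * g⁻¹ = 1 := e
      calc (r : G F V) = g⁻¹ * (g * r * g⁻¹) * g := by group
        _ = 1 := by rw [this, mul_one, inv_mul_cancel]
    · right
      have : g * (r : G F V) * g⁻¹ = -1 := e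
      calc (r : G F V) = g⁻¹ * (g * r * g⁻¹) * g := by group
        _ = -1 := by rw [this, gmul_neg, mul_one, gneg_mul, inv_mul_cancel]
  obtain ⟨n, hn, hnN, hnr⟩ := hM.exists_conj_mem hr₁0 hr
    (by rw [S.qv_cls_eq_zero.2 h11, S.qv_cls_eq_zero.2 h1])
  have hP : PM (n * g * (r : G F V) * (n * g)⁻¹) r := by
    rw [show n * g * (r : G F V) * (n * g)⁻¹ = n * (g * r * g⁻¹) * n⁻¹ by group]
    exact hnr
  obtain ⟨c, hc, hcomm⟩ := S.exists_fix hr hP
  obtain ⟨a, ha⟩ := S.exists_anti hr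
  let P : Blk S := ⟨r, a, r.2, a.2, h1, ha⟩
  have h2 := hM.centX P (M.mul_mem (hM.R_le hc) (M.mul_mem hn hg)) (P.mem_C.2 hcomm.symm)
  simpa [mul_assoc] using S.Nm.mul_mem (S.Nm.inv_mem hnN)
    (S.Nm.mul_mem (S.R_le_Nm (S.R.inv_mem hc)) h2)

end Over

end Cfsg.Agent.MaxSub.CSixOp
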