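import Mathlib

/-!
Nondegenerate quadratic spaces over `ZMod 2` of either type: orbits of products of two symmetries,
and groups normalised by them that fix no nonsingular vector.
-/

set_option autoImplicit false
set_option linter.unusedSectionVars false
attribute [-instance] AddSubgroupClass.instZModModule

namespace Cfsg.Agent.MaxSub.CSixOp

/-- A nondegenerate quadratic space over the field with two elements. -/
structure QS (E : Type*) [AddCommGroup E] [Module (ZMod 2) E] where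
  B : LinearMap.BilinForm (ZMod 2) E
  q : E → ZMod 2
  q_add : ∀ x y, q (x + y) = q x + q y + B x y
  nondeg : ∀ x, (∀ y, B x y = 0) → x = 0
  k : ℕ
  dim : Module.finrank (ZMod 2) E = 2 * k

lemma zmod2_cases (a : ZMod 2) : a = 0 ∨ a = 1 := by revert a; decide

lemma zmod2_ne_one {a : ZMod 2} : a ≠ 1 ↔ a = 0 := by revert a; decide

lemma zmod2_ne_zero {a : ZMod 2} : a ≠ 0 ↔ a = 1 := by revert a; decide

namespace QS

variable {E : Type*} [AddCommGroup E] [Module (ZMod 2) E] (Q : QS E)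

lemma add_self (x : E) : x + x = 0 := ZModModule.add_self x

lemma add_cancel_left' (x y : E) : x + (x + y) = y := by rw [← add_assoc, add_self, zero_add]

lemma add_cancel_right' (x y : E) : x + y + y = x := by rw [add_assoc, add_self, add_zero]

lemma q_zero : Q.q 0 = 0 := by
  have h := Q.q_add 0 0
  rw [add_zero, map_zero, add_zero, CharTwo.add_self_eq_zero] at h
  exact h

lemma B_self (x : E) : Q.B x x = 0 := by
  have h := Q.q_add x x
  rwa [add_self, Q.q_zero, CharTwo.add_self_eq_zero, zero_add, eq_comm] at h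

lemma B_comm (x y : E) : Q.B x y = Q.B y x := by
  have h1 := Q.q_add x y
  have h2 := Q.q_add y x
  rw [add_comm y x, h1, add_comm (Q.q y) (Q.q x)] at h2
  exact add_left_cancel h2

lemma ne_zero_of_q {x : E} (h : Q.q x = 1) : x ≠ 0 := fun h0 => by
  rw [h0, Q.q_zero] at h
  exact zero_ne_one h

lemma exists_B_eq_one {x : E} (hx : x ≠ 0) : ∃ y, Q.B x y = 1 := by
  by_contra h
  push Not at h
  exact hx (Q.nondeg x fun y => zmod2_ne_one.1 (h y))

lemma exists_vals {x y : E} (hx : x ≠ 0) (hy : y ≠ 0) (hxy : x ≠ y) (u v : ZMod 2) :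
    ∃ c, Q.B x c = u ∧ Q.B y c = v := by
  have hs : x + y ≠ 0 := fun h => hxy (by rw [← add_cancel_right' x y, h, zero_add])
  obtain ⟨c₁, h₁⟩ := Q.exists_B_eq_one hx
  obtain ⟨c₂, h₂⟩ := Q.exists_B_eq_one hy
  obtain ⟨c₃, h₃⟩ := Q.exists_B_eq_one hs
  rw [map_add, LinearMap.add_apply] at h₃
  have key : ∀ a b c d e : ZMod 2, d + e = 1 →
      ∃ r s t : ZMod 2, r * 1 + s * b + t * d = u ∧ r * a + s * 1 + t * e = v := by
    revert u v; decide
  obtain ⟨r, s, t, hu, hv⟩ := key (Q.B y c₁) (Q.B x c₂) 0 _ _ h₃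
  exact ⟨r • c₁ + s • c₂ + t • c₃, by simp [h₁, ← hu], by simp [h₂, ← hv]⟩

section Dim

variable [Finite E]

lemma finite_dim : Module.Finite (ZMod 2) E := Module.Finite.of_finite

lemma finrank_inf_ker (U : Submodule (ZMod 2) E) (φ : E →ₗ[ZMod 2] ZMod 2) :
    Module.finrank (ZMod 2) U ≤ Module.finrank (ZMod 2) ↥(U ⊓ LinearMap.ker φ) + 1 := by
  have h := (φ.comp U.subtype).finrank_range_add_finrank_ker
  have h1 : Module.finrank (ZMod 2) (LinearMap.range (φ.comp U.subtype)) ≤ 1 :=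
    (Submodule.finrank_le _).trans (le_of_eq (Module.finrank_self _))
  have h2 : Module.finrank (ZMod 2) (LinearMap.ker (φ.comp U.subtype)) =
      Module.finrank (ZMod 2) ↥(U ⊓ LinearMap.ker φ) := by
    rw [← Submodule.finrank_map_subtype_eq, LinearMap.ker_comp, Submodule.map_comap_subtype]
  omega

lemma finrank_top_eq : Module.finrank (ZMod 2) (⊤ : Submodule (ZMod 2) E) = 2 * Q.k := by
  rw [finrank_top, Q.dim]

/-- The orthogonal of a vector. -/
abbrev perp (x : E) : Submodule (ZMod 2) E := LinearMap.ker (Q.B x)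

lemma mem_perp {x y : E} : y ∈ Q.perp x ↔ Q.B x y = 0 := LinearMap.mem_ker

lemma finrank_inf_perp (U : Submodule (ZMod 2) E) (x : E) :
    Module.finrank (ZMod 2) U ≤ Module.finrank (ZMod 2) ↥(U ⊓ Q.perp x) + 1 :=
  finrank_inf_ker U (Q.B x)

lemma le_finrank_perp (x : E) : 2 * Q.k ≤ Module.finrank (ZMod 2) (Q.perp x) + 1 := by
  have h := finrank_inf_ker (⊤ : Submodule (ZMod 2) E) (Q.B x)
  rw [top_inf_eq, Q.finrank_top_eq] at h
  exact h

lemma le_finrank_perp₂ (x y : E) :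
    2 * Q.k ≤ Module.finrank (ZMod 2) ↥(Q.perp x ⊓ Q.perp y) + 2 := by
  have h := Q.finrank_inf_perp (Q.perp x) y
  have := Q.le_finrank_perp x
  omega

lemma exists_ne_zero_mem {U : Submodule (ZMod 2) E} (h : 1 ≤ Module.finrank (ZMod 2) U) :
    ∃ x ∈ U, x ≠ 0 := by
  refine Submodule.exists_mem_ne_zero_of_ne_bot fun h0 => ?_
  rw [h0, finrank_bot] at h
  omega

lemma exists_mem_ne {U : Submodule (ZMod 2) E} (h : 2 ≤ Module.finrank (ZMod 2) U) (p : E) :
    ∃ x ∈ U, x ≠ 0 ∧ x ≠ p := by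
  by_contra hc
  push Not at hc
  have hle : U ≤ Submodule.span (ZMod 2) {p} := fun x hx => by
    by_cases h0 : x = 0
    · exact h0 ▸ Submodule.zero_mem _
    · rw [hc x hx h0]; exact Submodule.mem_span_singleton_self _
  have := (Submodule.finrank_mono hle).trans (finrank_span_le_card ({p} : Set E))
  simp at this
  omega

lemma two_le_finrank {U : Submodule (ZMod 2) E} {x y : E} (hx : x ∈ U) (hy : y ∈ U) (hx0 : x ≠ 0)
    (hy0 : y ≠ 0) (hxy : x ≠ y) : 2 ≤ Module.finrank (ZMod 2) U := by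
  have hlt : Submodule.span (ZMod 2) {x} < U := by
    refine lt_of_le_of_ne ((Submodule.span_singleton_le_iff_mem x U).2 hx) fun h => ?_
    obtain ⟨c, hc⟩ := Submodule.mem_span_singleton.1 (h ▸ hy)
    rcases zmod2_cases c with rfl | rfl
    · exact hy0 (by rw [← hc, zero_smul])
    · exact hxy (by rw [← hc, one_smul])
  have := Submodule.finrank_lt_finrank_of_lt hlt
  rw [finrank_span_singleton hx0] at this
  omega

lemma nondegenerate : Q.B.Nondegenerate :=
  ⟨Q.nondeg, fun y h => Q.nondeg y fun x => by rw [Q.B_comm]; exact h x⟩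

lemma finrank_orth (U : Submodule (ZMod 2) E) :
    Module.finrank (ZMod 2) (Q.B.orthogonal U) = 2 * Q.k - Module.finrank (ZMod 2) U := by
  have : Module.Finite (ZMod 2) E := Module.Finite.of_finite
  rw [LinearMap.BilinForm.finrank_orthogonal Q.nondegenerate, Q.dim]

lemma le_orth_of_ts {U : Submodule (ZMod 2) E} (hU : ∀ u ∈ U, Q.q u = 0) : U ≤ Q.B.orthogonal U := by
  intro v hv
  rw [LinearMap.BilinForm.mem_orthogonal_iff]
  intro u hu
  have := Q.q_add u v
  rw [hU u hu, hU v hv, hU _ (U.add_mem hu hv), zero_add, zero_add] at this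
  exact this.symm

lemma ts (U : Submodule (ZMod 2) E) (hU : ∀ u ∈ U, Q.q u = 0) :
    Module.finrank (ZMod 2) U ≤ Q.k := by
  have : Module.Finite (ZMod 2) E := Module.Finite.of_finite
  have h := Submodule.finrank_mono (Q.le_orth_of_ts hU)
  rw [Q.finrank_orth] at h
  omega

lemma exists_mem_q_one {P : Submodule (ZMod 2) E} (hP : Q.k + 1 ≤ Module.finrank (ZMod 2) P) :
    ∃ d ∈ P, Q.q d = 1 := by
  by_contra hcon
  push Not at hcon
  have := Q.ts P fun u hu => zmod2_ne_one.1 (hcon u hu)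
  omega

/-- A coset of a subspace of dimension above `k` contains a nonsingular vector. -/
lemma exists_q_one {P : Submodule (ZMod 2) E} (hP : Q.k + 1 ≤ Module.finrank (ZMod 2) P) {c : E}
    (hc : c ∉ P) : ∃ d ∈ P, Q.q (c + d) = 1 := by
  by_contra hcon
  push Not at hcon
  simp only [zmod2_ne_one] at hcon
  have hqc : Q.q c = 0 := by simpa using hcon 0 (Submodule.zero_mem _)
  have hlin : ∀ d ∈ P, Q.B c d = 0 → Q.q d = 0 := fun d hd h => by
    have := hcon d hd
    rwa [Q.q_add, hqc, h, zero_add, add_zero] at this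
  set W := P ⊓ LinearMap.ker (Q.B c) with hW
  have hTS : ∀ u ∈ W ⊔ Submodule.span (ZMod 2) {c}, Q.q u = 0 := by
    intro u hu
    obtain ⟨d, hd, e, he, rfl⟩ := Submodule.mem_sup.1 hu
    obtain ⟨t, rfl⟩ := Submodule.mem_span_singleton.1 he
    rcases zmod2_cases t with rfl | rfl
    · rw [zero_smul, add_zero]; exact hlin d hd.1 hd.2
    · rw [one_smul, add_comm]; exact hcon d hd.1
  have hlt : W < W ⊔ Submodule.span (ZMod 2) {c} := by
    refine lt_of_le_of_ne le_sup_left fun h => hc ?_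
    have : c ∈ W := by rw [h]; exact Submodule.mem_sup_right (Submodule.mem_span_singleton_self c)
    exact this.1
  have := Submodule.finrank_lt_finrank_of_lt hlt
  have := finrank_inf_ker P (Q.B c)
  have := Q.ts _ hTS
  rw [← hW] at *
  omega

/-- A coset of a subspace of dimension above `k + 1` takes both values. -/
lemma exists_q_eq {P : Submodule (ZMod 2) E} (hP : Q.k + 2 ≤ Module.finrank (ZMod 2) P) (c : E)
    (v : ZMod 2) : ∃ d ∈ P, Q.q (c + d) = v := by
  by_contra hcon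
  push Not at hcon
  have hc0 : Q.q c ≠ v := by simpa using hcon 0 (Submodule.zero_mem _)
  have hTS : ∀ u ∈ P ⊓ LinearMap.ker (Q.B c), Q.q u = 0 := by
    rintro u ⟨hu, hu'⟩
    have h := hcon u hu
    rw [Q.q_add, LinearMap.mem_ker.1 hu', add_zero] at h
    have key : ∀ a b w : ZMod 2, a ≠ w → a + b ≠ w → b = 0 := by decide
    exact key _ _ _ hc0 h
  have := Q.ts _ hTS
  have := finrank_inf_ker P (Q.B c)
  omega

lemma exists_perp_q (hk : 3 ≤ Q.k) (x : E) (v : ZMod 2) : ∃ y, Q.B x y = 0 ∧ Q.q y = v := by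
  have := Q.le_finrank_perp x
  obtain ⟨d, hd, hq⟩ := Q.exists_q_eq (P := Q.perp x) (by omega) 0 v
  exact ⟨d, hd, by simpa using hq⟩

lemma exists_B_q (hk : 3 ≤ Q.k) {x : E} (hx : x ≠ 0) (v : ZMod 2) :
    ∃ y, Q.B x y = 1 ∧ Q.q y = v := by
  obtain ⟨c, hc⟩ := Q.exists_B_eq_one hx
  have := Q.le_finrank_perp x
  obtain ⟨d, hd, hq⟩ := Q.exists_q_eq (P := Q.perp x) (by omega) c v
  exact ⟨c + d, by rw [map_add, Q.mem_perp.1 hd, hc, add_zero], hq⟩

/-- Vectors with prescribed products and values. -/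
lemma exists_vals_q (hk : 4 ≤ Q.k) {x y : E} (hx : x ≠ 0) (hy : y ≠ 0) (hxy : x ≠ y)
    (u v w : ZMod 2) : ∃ c, Q.B x c = u ∧ Q.B y c = v ∧ Q.q c = w := by
  obtain ⟨c, h₁, h₂⟩ := Q.exists_vals hx hy hxy u v
  have := Q.le_finrank_perp₂ x y
  obtain ⟨d, hd, hq⟩ := Q.exists_q_eq (P := Q.perp x ⊓ Q.perp y) (by omega) c w
  exact ⟨c + d, by rw [map_add, Q.mem_perp.1 hd.1, h₁, add_zero],
    by rw [map_add, Q.mem_perp.1 hd.2, h₂, add_zero], hq⟩

lemma exists_vals_one (hk : 3 ≤ Q.k) {x y : E} (hx : x ≠ 0) (hy : y ≠ 0) (hxy : x ≠ y)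
    {u v : ZMod 2} (huv : u = 1 ∨ v = 1) : ∃ c, Q.B x c = u ∧ Q.B y c = v ∧ Q.q c = 1 := by
  obtain ⟨c, h₁, h₂⟩ := Q.exists_vals hx hy hxy u v
  have hc : c ∉ Q.perp x ⊓ Q.perp y := by
    rintro ⟨e₁, e₂⟩
    rw [SetLike.mem_coe, Q.mem_perp, h₁] at e₁
    rw [SetLike.mem_coe, Q.mem_perp, h₂] at e₂
    rcases huv with h | h
    · exact zero_ne_one (e₁.symm.trans h)
    · exact zero_ne_one (e₂.symm.trans h)
  have := Q.le_finrank_perp₂ x y
  obtain ⟨d, hd, hq⟩ := Q.exists_q_one (by omega) hc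
  exact ⟨c + d, by rw [map_add, Q.mem_perp.1 hd.1, h₁, add_zero],
    by rw [map_add, Q.mem_perp.1 hd.2, h₂, add_zero], hq⟩

lemma exists_perp₂_one (hk : 3 ≤ Q.k) (x y : E) : ∃ v, Q.B x v = 0 ∧ Q.B y v = 0 ∧ Q.q v = 1 := by
  have := Q.le_finrank_perp₂ x y
  obtain ⟨d, ⟨h1, h2⟩, h3⟩ := Q.exists_mem_q_one (P := Q.perp x ⊓ Q.perp y) (by omega)
  exact ⟨d, h1, h2, h3⟩

/-- Three independent vectors: prescribed products with a nonsingular vector. -/
lemma exists_vals₃_one (hk : 4 ≤ Q.k) {x y z : E} (hx : x ≠ 0) (hy : y ≠ 0) (hxy : x ≠ y)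
    (hzx : z ∉ Submodule.span (ZMod 2) {x, y}) (u v w : ZMod 2) (h : v = 1 ∨ w = 1) :
    ∃ c, Q.B x c = u ∧ Q.B y c = v ∧ Q.B z c = w ∧ Q.q c = 1 := by
  obtain ⟨d, hdP, hd⟩ : ∃ d ∈ Q.perp x ⊓ Q.perp y, Q.B z d = 1 := by
    by_contra hcon
    push Not at hcon
    obtain ⟨c₁, h11, h12⟩ := Q.exists_vals hx hy hxy 1 0
    obtain ⟨c₂, h21, h22⟩ := Q.exists_vals hx hy hxy 0 1
    refine hzx (Submodule.mem_span_pair.2 ⟨Q.B z c₁, Q.B z c₂, ?_⟩)
    refine eq_of_sub_eq_zero (Q.nondeg _ fun t => ?_)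
    have h0 : Q.B z (t + Q.B x t • c₁ + Q.B y t • c₂) = 0 := by
      refine zmod2_ne_one.1 (hcon _ ⟨?_, ?_⟩)
      · simp [h11, h21, CharTwo.add_self_eq_zero]
      · simp [h12, h22, CharTwo.add_self_eq_zero]
    simp only [map_add, map_smul, smul_eq_mul, map_sub, LinearMap.add_apply, LinearMap.smul_apply,
      LinearMap.sub_apply] at h0 ⊢
    rw [CharTwo.sub_eq_add]
    linear_combination h0
  obtain ⟨c, h1, h2⟩ := Q.exists_vals hx hy hxy u v
  set c' := c + (w + Q.B z c) • d with hc'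
  have e1 : Q.B x c' = u := by simp [hc', Q.mem_perp.1 hdP.1, h1]
  have e2 : Q.B y c' = v := by simp [hc', Q.mem_perp.1 hdP.2, h2]
  have e3 : Q.B z c' = w := by
    simp only [hc', map_add, map_smul, hd, smul_eq_mul, mul_one]
    rw [add_comm w, ← add_assoc, CharTwo.add_self_eq_zero, zero_add]
  have hn : c' ∉ Q.perp x ⊓ Q.perp y ⊓ Q.perp z := by
    rintro ⟨⟨-, g2⟩, g3⟩
    rw [SetLike.mem_coe, Q.mem_perp] at g2 g3
    rcases h with h | h
    · exact zero_ne_one (g2.symm.trans (e2.trans h))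
    · exact zero_ne_one (g3.symm.trans (e3.trans h))
  have := Q.le_finrank_perp₂ x y
  have := Q.finrank_inf_perp (Q.perp x ⊓ Q.perp y) z
  obtain ⟨e, ⟨⟨f1, f2⟩, f3⟩, hq⟩ := Q.exists_q_one (by omega) hn
  exact ⟨c' + e, by rw [map_add, Q.mem_perp.1 f1, e1, add_zero],
    by rw [map_add, Q.mem_perp.1 f2, e2, add_zero], by rw [map_add, Q.mem_perp.1 f3, e3, add_zero], hq⟩

end Dim

/-- The symmetry along `y`. -/
def T (y : E) : E ≃ₗ[ZMod 2] E :=
  LinearEquiv.ofInvolutive
    ((LinearMap.id : E →ₗ[ZMod 2] E) + LinearMap.smulRight (Q.B y) y) fun a => by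
    simp [Q.B_self, add_assoc, add_self]

@[simp] lemma T_apply (y a : E) : Q.T y a = a + Q.B y a • y := rfl

lemma T_mul_self (y : E) : Q.T y * Q.T y = 1 := by
  ext a
  show Q.T y (Q.T y a) = a
  simp [Q.B_self, add_assoc, add_self]

lemma T_inv (y : E) : (Q.T y)⁻¹ = Q.T y := inv_eq_of_mul_eq_one_left (Q.T_mul_self y)

lemma T_apply_of_perp {y a : E} (h : Q.B y a = 0) : Q.T y a = a := by simp [h]

lemma T_apply_of_one {y a : E} (h : Q.B y a = 1) : Q.T y a = a + y := by simp [h]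

lemma q_T {y : E} (hy : Q.q y = 1) (a : E) : Q.q (Q.T y a) = Q.q a := by
  rcases zmod2_cases (Q.B y a) with h | h
  · rw [Q.T_apply_of_perp h]
  · rw [Q.T_apply_of_one h, Q.q_add, hy, Q.B_comm, h, add_assoc, CharTwo.add_self_eq_zero,
      add_zero]

lemma B_of_iso {f : E ≃ₗ[ZMod 2] E} (hf : ∀ a, Q.q (f a) = Q.q a) (a b : E) :
    Q.B (f a) (f b) = Q.B a b := by
  have h1 := Q.q_add (f a) (f b)
  rw [← map_add, hf, hf, hf, Q.q_add] at h1
  exact (add_left_cancel h1).symm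

lemma conj_T {f : E ≃ₗ[ZMod 2] E} (hf : ∀ a, Q.q (f a) = Q.q a) (y : E) :
    f * Q.T y * f⁻¹ = Q.T (f y) := by
  ext a
  show f (Q.T y (f.symm a)) = Q.T (f y) a
  conv_rhs => rw [← f.apply_symm_apply a]
  simp only [T_apply, map_add, map_smul, Q.B_of_iso hf]

section Orbit

variable [Finite E]

/-- Orbits of products of two symmetries on the nonzero vectors. -/
theorem orbit (hk : 3 ≤ Q.k) (S : Set E)
    (hS : ∀ a ∈ S, ∀ y z, Q.q y = 1 → Q.q z = 1 → Q.T y (Q.T z a) ∈ S)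
    {a b : E} (ha : a ∈ S) (ha0 : a ≠ 0) (hb0 : b ≠ 0) (hab : Q.q a = Q.q b) : b ∈ S := by
  have step : ∀ a ∈ S, ∀ b, Q.q a = Q.q b → Q.B a b = 1 → b ∈ S := by
    intro a ha b hab h
    obtain ⟨z, hz, hqz⟩ := Q.exists_perp_q hk a 1
    have hy : Q.q (a + b) = 1 := by rw [Q.q_add, hab, h, CharTwo.add_self_eq_zero, zero_add]
    have := hS a ha (a + b) z hy hqz
    rwa [Q.T_apply_of_perp (a := a) (y := z) (by rw [Q.B_comm, hz]),
      Q.T_apply_of_one (by rw [map_add, LinearMap.add_apply, Q.B_self, Q.B_comm, h, zero_add]),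
      add_cancel_left'] at this
  by_cases hne : a = b
  · exact hne ▸ ha
  rcases zmod2_cases (Q.B a b) with h | h
  · obtain ⟨c, hc₁, hc₂, hcq⟩ : ∃ c, Q.B a c = 1 ∧ Q.B b c = 1 ∧ Q.q c = Q.q a := by
      rcases zmod2_cases (Q.q a) with hq | hq
      · obtain ⟨c, h₁, h₂⟩ := Q.exists_vals ha0 hb0 hne 1 1
        rcases zmod2_cases (Q.q c) with hqc | hqc
        · exact ⟨c, h₁, h₂, by rw [hqc, hq]⟩
        · refine ⟨c + a, by rw [map_add, h₁, Q.B_self, add_zero],
            by rw [map_add, h₂, Q.B_comm b a, h, add_zero], ?_⟩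
          rw [Q.q_add, hqc, hq, Q.B_comm, h₁]
          decide
      · obtain ⟨c, h₁, h₂, h₃⟩ := Q.exists_vals_one hk ha0 hb0 hne (u := 1) (v := 1) (Or.inl rfl)
        exact ⟨c, h₁, h₂, by rw [h₃, hq]⟩
    exact step c (step a ha c hcq.symm hc₁) b (hcq.trans hab) (by rw [Q.B_comm, hc₂])
  · exact step a ha b hab h

lemma eq_top_of_nonsingular (hk : 3 ≤ Q.k) (U : Submodule (ZMod 2) E)
    (hU : ∀ y, Q.q y = 1 → y ∈ U) : U = ⊤ := by
  refine eq_top_iff.2 fun b _ => ?_
  by_cases hb : b = 0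
  · exact hb ▸ U.zero_mem
  rcases zmod2_cases (Q.q b) with h | h
  · obtain ⟨c, hc, hqc⟩ := Q.exists_perp_q hk b 1
    rw [← add_cancel_right' b c]
    exact U.add_mem (hU _ (by rw [Q.q_add, h, hqc, hc]; decide)) (hU c hqc)
  · exact hU b h

/-- Irreducibility of the products of two symmetries. -/
theorem irred (hk : 3 ≤ Q.k) (U : Submodule (ZMod 2) E)
    (hU : ∀ a ∈ U, ∀ y z, Q.q y = 1 → Q.q z = 1 → Q.T y (Q.T z a) ∈ U) : U = ⊥ ∨ U = ⊤ := by
  refine or_iff_not_imp_left.2 fun hne => ?_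
  obtain ⟨a, ha, ha0⟩ := Submodule.exists_mem_ne_zero_of_ne_bot hne
  have hsame : ∀ b, b ≠ 0 → Q.q b = Q.q a → b ∈ U := fun b hb hq =>
    Q.orbit hk U hU ha ha0 hb hq.symm
  refine Q.eq_top_of_nonsingular hk U fun y hy => ?_
  rcases zmod2_cases (Q.q a) with h | h
  · obtain ⟨c, hc, hqc⟩ := Q.exists_B_q hk (Q.ne_zero_of_q hy) 0
    have hc0 : c ≠ 0 := fun h0 => by rw [h0, map_zero] at hc; exact zero_ne_one hc
    rw [← add_cancel_right' y c]
    refine U.add_mem (hsame _ (fun h0 => ?_) ?_) (hsame c hc0 (by rw [hqc, h]))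
    · have : y = c := by rw [← add_cancel_right' y c, h0, zero_add]
      rw [this, hqc] at hy
      exact zero_ne_one hy
    · rw [h, Q.q_add, hy, hqc, hc]; decide
  · exact hsame y (Q.ne_zero_of_q hy) (by rw [hy, h])

end Orbit

section Semiregular

variable [Finite E]

lemma eq_one_of_nonsingular (hk : 3 ≤ Q.k) {f : E ≃ₗ[ZMod 2] E} (h : ∀ a, Q.q a = 1 → f a = a) :
    f = 1 := by
  have := Q.eq_top_of_nonsingular hk (LinearMap.ker (f.toLinearMap - LinearMap.id))
    fun z hz => by simp [h z hz]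
  ext a
  have ha : a ∈ LinearMap.ker (f.toLinearMap - LinearMap.id) := this ▸ Submodule.mem_top
  simpa [sub_eq_zero] using ha

/-- An isometry commuting with all products of two symmetries is trivial. -/
lemma eq_one_of_commute_TT (hk : 3 ≤ Q.k) {f : E ≃ₗ[ZMod 2] E} (hf : ∀ a, Q.q (f a) = Q.q a)
    (h : ∀ a b, Q.q a = 1 → Q.q b = 1 → Q.T (f a) * Q.T (f b) = Q.T a * Q.T b) : f = 1 := by
  refine Q.eq_one_of_nonsingular hk fun a ha => ?_
  -- `a` lies in the span of `f a` and `f b`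
  have key : ∀ b, Q.q b = 1 → b ≠ a → a = f a ∨ a = f b ∨ a = f a + f b := by
    intro b hb hba
    obtain ⟨v, h1, h2⟩ := Q.exists_vals (Q.ne_zero_of_q ha) (Q.ne_zero_of_q hb) hba.symm 1 0
    have he := congrArg (fun g : E ≃ₗ[ZMod 2] E => g v) (h a b ha hb)
    change Q.T (f a) (Q.T (f b) v) = Q.T a (Q.T b v) at he
    rw [Q.T_apply_of_perp h2, Q.T_apply_of_one h1, T_apply, T_apply] at he
    rw [add_assoc, add_right_inj] at he
    rcases zmod2_cases (Q.B (f b) v) with e | e <;> rw [e] at he <;>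
      rcases zmod2_cases (Q.B (f a) (v + Q.B (f b) v • f b)) with e' | e' <;> rw [e] at e' <;>
      rw [e'] at he <;> simp only [zero_smul, one_smul, zero_add, add_zero] at he
    · exact absurd he.symm (Q.ne_zero_of_q ha)
    · exact Or.inl he.symm
    · exact Or.inr (Or.inl he.symm)
    · exact Or.inr (Or.inr (he.symm.trans (add_comm _ _)))
  by_contra hne
  -- three choices of `b` are too many
  obtain ⟨c, hc1, hc3⟩ := Q.exists_B_q hk (Q.ne_zero_of_q ha) 1
  have hca : c ≠ a := fun e => by rw [e, Q.B_self] at hc1; exact zero_ne_one hc1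
  have hac : Q.q (a + c) = 1 := by rw [Q.q_add, ha, hc3, hc1]; decide
  have haca : a + c ≠ a := fun e => Q.ne_zero_of_q hc3 (by simpa using e)
  obtain ⟨d, hd1, hd2, hd3⟩ := Q.exists_perp₂_one hk a c
  have hda : d ≠ a := fun e => by rw [e, Q.B_comm, hc1] at hd2; exact one_ne_zero hd2
  rcases key d hd3 hda with h1 | h1 | h1
  · exact hne h1.symm
  · -- `f d = a`
    rcases key c hc3 hca with h2 | h2 | h2
    · exact hne h2.symm
    · have := f.injective (h1.symm.trans h2)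
      rw [this, hc1] at hd1
      exact one_ne_zero hd1
    · rw [← map_add] at h2
      have := f.injective (h1.symm.trans h2)
      rw [this, map_add, Q.B_self, hc1, zero_add] at hd1
      exact one_ne_zero hd1
  · rw [← map_add] at h1
    have hs : Q.q a = 0 := by
      rw [h1, hf, Q.q_add, ha, hd3, hd1]
      decide
    rw [ha] at hs
    exact one_ne_zero hs

/-- A group normalised by all products of two symmetries in which only the identity fixes a
nonsingular vector is trivial. -/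
theorem eq_bot_of_semiregular (hk : 3 ≤ Q.k) {H : Subgroup (E ≃ₗ[ZMod 2] E)}
    (hiso : ∀ h ∈ H, ∀ a, Q.q (h a) = Q.q a)
    (hconj : ∀ h ∈ H, ∀ y z, Q.q y = 1 → Q.q z = 1 →
      (Q.T y * Q.T z) * h * (Q.T y * Q.T z)⁻¹ ∈ H)
    (hsr : ∀ h ∈ H, ∀ a, Q.q a = 1 → h a = a → h = 1) : H = ⊥ := by
  -- commutators with products of two symmetries
  have hcm : ∀ h ∈ H, ∀ y z, Q.q y = 1 → Q.q z = 1 →
      Q.T (h y) * Q.T (h z) * Q.T z * Q.T y ∈ H := by
    intro h hh y z hy hz
    have e1 := H.mul_mem hh (hconj h⁻¹ (H.inv_mem hh) y z hy hz)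
    have e : h * (Q.T y * Q.T z * h⁻¹ * (Q.T y * Q.T z)⁻¹) =
        (h * Q.T y * h⁻¹) * (h * Q.T z * h⁻¹) * Q.T z * Q.T y := by
      rw [mul_inv_rev, Q.T_inv, Q.T_inv]
      group
    rwa [e, Q.conj_T (hiso h hh), Q.conj_T (hiso h hh)] at e1
  have hcm1 : ∀ h ∈ H, ∀ y z, Q.q y = 1 → Q.q z = 1 → ∀ v, Q.q v = 1 → Q.B y v = 0 →
      Q.B z v = 0 → Q.B (h y) v = 0 → Q.B (h z) v = 0 →
      Q.T (h y) * Q.T (h z) * Q.T z * Q.T y = 1 := by
    intro h hh y z hy hz v hv b1 b2 b3 b4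
    refine hsr _ (hcm h hh y z hy hz) v hv ?_
    show Q.T (h y) (Q.T (h z) (Q.T z (Q.T y v))) = v
    rw [Q.T_apply_of_perp b1, Q.T_apply_of_perp b2, Q.T_apply_of_perp b4, Q.T_apply_of_perp b3]
  -- the shape of a nontrivial element at a nonsingular vector
  have step1 : ∀ h ∈ H, h ≠ 1 → ∀ a, Q.q a = 1 →
      (h (h a) = a ∧ Q.B a (h a) = 0) ∨ (h (h a) = a + h a ∧ Q.B a (h a) = 1) := by
    intro h hh hne a ha
    set b := h a with hb
    set d := h b with hd
    have hbq : Q.q b = 1 := by rw [hb, hiso h hh, ha]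
    have hdq : Q.q d = 1 := by rw [hd, hiso h hh, hbq]
    have hba : b ≠ a := fun e => hne (hsr h hh a ha e)
    have hdb : d ≠ b := fun e => hba (h.injective e)
    obtain ⟨v, hv, v1, v2, v3⟩ : ∃ v, Q.q v = 1 ∧ Q.B a v = 0 ∧ Q.B b v = 0 ∧ Q.B d v = 0 := by
      by_contra hcon
      push Not at hcon
      set P := Q.perp a ⊓ Q.perp b ⊓ Q.perp d with hP
      have hts : ∀ u ∈ P, Q.q u = 0 := fun u hu => zmod2_ne_one.1 fun hq =>
        hcon u hq hu.1.1 hu.1.2 hu.2
      have h1 := Q.le_finrank_perp₂ a b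
      have h2 := Q.finrank_inf_perp (Q.perp a ⊓ Q.perp b) d
      rw [← hP] at h2
      have h3 := Q.ts P hts
      have hfin : Module.Finite (ZMod 2) E := Module.Finite.of_finite
      have heq : P = Q.B.orthogonal P := Submodule.eq_of_le_of_finrank_le (Q.le_orth_of_ts hts)
        (by rw [Q.finrank_orth]; omega)
      have haP : a ∈ Q.B.orthogonal P := by
        rw [LinearMap.BilinForm.mem_orthogonal_iff]
        exact fun u hu => (Q.B_comm u a).trans hu.1.1
      rw [← heq] at haP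
      exact one_ne_zero (ha.symm.trans (hts a haP))
    have hone := hcm1 h hh a b ha hbq v hv v1 v2 v2 v3
    rw [← hb, ← hd] at hone
    have he : Q.T b * Q.T d = Q.T a * Q.T b := by
      rw [mul_eq_one_iff_eq_inv, Q.T_inv] at hone
      rw [eq_mul_inv_of_mul_eq hone, Q.T_inv]
    obtain ⟨t, t1, t2⟩ := Q.exists_vals (Q.ne_zero_of_q hdq) (Q.ne_zero_of_q hbq) hdb 0 1
    have e1 := congrArg (fun g : E ≃ₗ[ZMod 2] E => g t) he
    change Q.T b (Q.T d t) = Q.T a (Q.T b t) at e1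
    rw [Q.T_apply_of_perp t1, Q.T_apply_of_one t2, T_apply, left_eq_add, smul_eq_zero,
      or_iff_left (Q.ne_zero_of_q ha), map_add] at e1
    by_cases hda : d = a
    · exact Or.inl ⟨hda, by rwa [show Q.B a t = 0 by rw [← hda]; exact t1, zero_add] at e1⟩
    obtain ⟨hs, -⟩ : d = a + b ∧ True := by
      refine ⟨?_, trivial⟩
      by_contra hdab
      -- otherwise `a` is outside the span of `b` and `d`
      have hns : a ∉ Submodule.span (ZMod 2) {d, b} := by
        intro hmem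
        obtain ⟨r, s, hrs⟩ := Submodule.mem_span_pair.1 hmem
        rcases zmod2_cases r with rfl | rfl <;> rcases zmod2_cases s with rfl | rfl <;>
          simp only [zero_smul, one_smul, zero_add, add_zero] at hrs
        · exact Q.ne_zero_of_q ha hrs.symm
        · exact hba hrs
        · exact hda hrs
        · exact hdab (by rw [← hrs, add_cancel_right'])
      have hfree : ∀ u, ∃ t, Q.B d t = 0 ∧ Q.B b t = 1 ∧ Q.B a t = u := by
        intro u
        obtain ⟨e, he1, he2⟩ : ∃ e ∈ Q.perp d ⊓ Q.perp b, Q.B a e = 1 := by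
          by_contra hcon
          push Not at hcon
          obtain ⟨c₁, h11, h12⟩ := Q.exists_vals (Q.ne_zero_of_q hdq) (Q.ne_zero_of_q hbq) hdb 1 0
          obtain ⟨c₂, h21, h22⟩ := Q.exists_vals (Q.ne_zero_of_q hdq) (Q.ne_zero_of_q hbq) hdb 0 1
          refine hns (Submodule.mem_span_pair.2 ⟨Q.B a c₁, Q.B a c₂, ?_⟩)
          refine eq_of_sub_eq_zero (Q.nondeg _ fun t => ?_)
          have h0 : Q.B a (t + Q.B d t • c₁ + Q.B b t • c₂) = 0 := by
            refine zmod2_ne_one.1 (hcon _ ⟨?_, ?_⟩)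
            · simp [h11, h21, CharTwo.add_self_eq_zero]
            · simp [h12, h22, CharTwo.add_self_eq_zero]
          simp only [map_add, map_smul, smul_eq_mul, map_sub, LinearMap.add_apply,
            LinearMap.smul_apply, LinearMap.sub_apply] at h0 ⊢
          rw [CharTwo.sub_eq_add]
          linear_combination h0
        refine ⟨t + (u + Q.B a t) • e, by simp [t1, Q.mem_perp.1 he1.1],
          by simp [t2, Q.mem_perp.1 he1.2], ?_⟩
        simp only [map_add, map_smul, he2, smul_eq_mul, mul_one]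
        rw [add_comm u, ← add_assoc, CharTwo.add_self_eq_zero, zero_add]
      obtain ⟨t', t1', t2', t3'⟩ := hfree (Q.B a b + 1)
      have e2 := congrArg (fun g : E ≃ₗ[ZMod 2] E => g t') he
      change Q.T b (Q.T d t') = Q.T a (Q.T b t') at e2
      rw [Q.T_apply_of_perp t1', Q.T_apply_of_one t2', T_apply, left_eq_add, smul_eq_zero,
        or_iff_left (Q.ne_zero_of_q ha), map_add, t3'] at e2
      rcases zmod2_cases (Q.B a b) with e | e <;> rw [e] at e2 <;> revert e2 <;> decide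
    refine Or.inr ⟨hs, ?_⟩
    have h4 : Q.q d = 1 + 1 + Q.B a b := by rw [hs, Q.q_add, ha, hbq]
    rw [hdq] at h4
    rcases zmod2_cases (Q.B a b) with e | e <;> rw [e] at h4 ⊢ <;> revert h4 <;> decide
  -- no elements of order three
  have step2 : ∀ h ∈ H, h ≠ 1 → ∀ a, Q.q a = 1 → h (h a) = a := by
    intro h hh hne a ha
    rcases step1 h hh hne a ha with e | ⟨ea, hab⟩
    · exact e.1
    exfalso
    have hba : h a ≠ a := fun e => hne (hsr h hh a ha e)
    obtain ⟨b, b1, b2, hb⟩ := Q.exists_perp₂_one hk a (h a)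
    rcases step1 h hh hne b hb with ⟨eb, -⟩ | ⟨eb, hbb⟩
    · have h2 : h * h = 1 := hsr _ (H.mul_mem hh hh) b hb eb
      have : h (h a) = a := congrArg (fun g : E ≃ₗ[ZMod 2] E => g a) h2
      rw [ea] at this
      exact Q.ne_zero_of_q (x := h a) (by rw [hiso h hh, ha]) (by simpa using this)
    have hBh := Q.B_of_iso (hiso h hh)
    have b4 : Q.B (h a) (h b) = 0 := by rw [hBh, b1]
    have b3 : Q.B a (h b) = 0 := by
      have := hBh (h a) b
      rw [b2, ea, map_add, LinearMap.add_apply, b4, add_zero] at this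
      exact this
    -- a nonsingular vector orthogonal to both planes
    obtain ⟨v, hv, v1, v2, v3, v4⟩ : ∃ v, Q.q v = 1 ∧ Q.B a v = 0 ∧ Q.B (h a) v = 0 ∧
        Q.B b v = 0 ∧ Q.B (h b) v = 0 := by
      by_contra hcon
      push Not at hcon
      set P := Q.perp a ⊓ Q.perp (h a) ⊓ Q.perp b ⊓ Q.perp (h b) with hP
      have hts : ∀ u ∈ P, Q.q u = 0 := fun u hu => zmod2_ne_one.1 fun hq =>
        hcon u hq hu.1.1.1 hu.1.1.2 hu.1.2 hu.2
      have h1 := Q.le_finrank_perp₂ a (h a)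
      have h2 := Q.finrank_inf_perp (Q.perp a ⊓ Q.perp (h a)) b
      have h3 := Q.finrank_inf_perp (Q.perp a ⊓ Q.perp (h a) ⊓ Q.perp b) (h b)
      rw [← hP] at h3
      obtain ⟨v, hvP, hv0⟩ := exists_ne_zero_mem (U := P) (by omega)
      refine hv0 (Q.nondeg v fun u => ?_)
      have c1 : Q.B (h a) a = 1 := by rw [Q.B_comm, hab]
      have c2 : Q.B (h b) b = 1 := by rw [Q.B_comm, hbb]
      set u' := u + Q.B (h a) u • a + Q.B a u • h a + Q.B (h b) u • b + Q.B b u • h b with hu'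
      have hu'P : u' ∈ P := by
        refine ⟨⟨⟨?_, ?_⟩, ?_⟩, ?_⟩ <;> rw [SetLike.mem_coe, Q.mem_perp] <;>
          simp only [hu', map_add, map_smul, smul_eq_mul, Q.B_self, hab, hbb, c1, c2, b1, b2, b3,
            b4, Q.B_comm b a, Q.B_comm (h b) a, Q.B_comm b (h a), Q.B_comm (h b) (h a), mul_zero,
            mul_one, add_zero, CharTwo.add_self_eq_zero]
      have h5 := Q.q_add v u'
      rw [hts v hvP, hts u' hu'P, hts _ (P.add_mem hvP hu'P), zero_add, zero_add] at h5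
      rw [h5]
      simp only [hu', map_add, map_smul, Q.B_comm v a, Q.B_comm v (h a), Q.B_comm v b,
        Q.B_comm v (h b), Q.mem_perp.1 hvP.1.1.1, Q.mem_perp.1 hvP.1.1.2, Q.mem_perp.1 hvP.1.2,
        Q.mem_perp.1 hvP.2, smul_zero, add_zero]
    have hone := congrArg (fun g : E ≃ₗ[ZMod 2] E => g a) (hcm1 h hh a b ha hb v hv v1 v3 v2 v4)
    change Q.T (h a) (Q.T (h b) (Q.T b (Q.T a a))) = a at hone
    rw [Q.T_apply_of_perp (Q.B_self a),
      Q.T_apply_of_perp (y := b) (a := a) (by rw [Q.B_comm, b1]),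
      Q.T_apply_of_perp (y := h b) (a := a) (by rw [Q.B_comm, b3]),
      Q.T_apply_of_one (y := h a) (a := a) (by rw [Q.B_comm, hab]), add_eq_left] at hone
    exact Q.ne_zero_of_q (by rw [hiso h hh, ha]) hone
  have hsq : ∀ h ∈ H, h * h = 1 := by
    intro h hh
    by_cases hne : h = 1
    · rw [hne, one_mul]
    · exact Q.eq_one_of_nonsingular hk (step2 h hh hne)
  -- a common fixed vector
  have hp : IsPGroup 2 H := fun h => ⟨1, Subtype.ext (by rw [pow_one, pow_two]; exact hsq h h.2)⟩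
  let U : Submodule (ZMod 2) E :=
    ⨅ h : H, LinearMap.ker ((h : E ≃ₗ[ZMod 2] E).toLinearMap - LinearMap.id)
  have hmemU : ∀ u, u ∈ U ↔ ∀ h ∈ H, h u = u := by
    intro u
    simp [U, Submodule.mem_iInf, sub_eq_zero]
  obtain ⟨w, hw0, hw⟩ : ∃ w : E, w ≠ 0 ∧ w ∈ U := by
    have : Fact (Nat.Prime 2) := ⟨Nat.prime_two⟩
    have hfin : Finite (E ≃ₗ[ZMod 2] E) := DFunLike.finite _
    have h2 : 2 ∣ Nat.card E := by
      have : Module.Finite (ZMod 2) E := Module.Finite.of_finite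
      rw [Module.natCard_eq_pow_finrank (K := ZMod 2) (V := E), Q.dim, Nat.card_zmod]
      exact dvd_pow_self 2 (by omega)
    obtain ⟨w, hw, hne⟩ := hp.exists_fixed_point_of_prime_dvd_card_of_fixed_point E h2
      (a := (0 : E)) fun h => map_zero (h : E ≃ₗ[ZMod 2] E)
    exact ⟨w, hne.symm, (hmemU w).2 fun h hh => hw ⟨h, hh⟩⟩
  have hinv : ∀ u ∈ U, ∀ y z, Q.q y = 1 → Q.q z = 1 → Q.T y (Q.T z u) ∈ U := by
    intro u hu y z hy hz
    refine (hmemU _).2 fun h hh => ?_
    have h1 := (hmemU u).1 hu _ (hconj h hh z y hz hy)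
    rw [mul_inv_rev, Q.T_inv, Q.T_inv] at h1
    change Q.T z (Q.T y (h (Q.T y (Q.T z u)))) = u at h1
    apply (Q.T y).injective
    apply (Q.T z).injective
    rw [h1]
    show u = Q.T z (Q.T y (Q.T y (Q.T z u)))
    rw [← LinearEquiv.mul_apply (Q.T y), Q.T_mul_self]
    show u = (Q.T z * Q.T z) u
    rw [Q.T_mul_self]
    rfl
  rcases Q.irred hk U hinv with hU | hU
  · rw [hU, Submodule.mem_bot] at hw
    exact absurd hw hw0
  · refine (Subgroup.eq_bot_iff_forall _).2 fun h hh => LinearEquiv.ext fun u => ?_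
    exact (hmemU u).1 (hU ▸ Submodule.mem_top) h hh

end Semiregular

end QS

end Cfsg.Agent.MaxSub.CSixOp
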