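import Cfsg.Agent.MaxSub.CSixOp.Quad

/-!
Extraspecial two-groups of isometries spanning the endomorphisms of a symmetric space: the
quotient by the signs as a quadratic space and the action of the normaliser.
-/

set_option autoImplicit false
set_option linter.unusedSectionVars false
attribute [-instance] AddSubgroupClass.instZModModule

namespace Cfsg.Agent.MaxSub.CSixOp

variable {F : Type*} [Field F] {V : Type*} [AddCommGroup V] [Module F V]

/-- The units of the endomorphism ring. -/
abbrev G (F V : Type*) [Field F] [AddCommGroup V] [Module F V] := (Module.End F V)ˣ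

/-- A group of isometries with squares `±1`, containing `-1` and spanning the endomorphisms. -/
structure Frame (B : LinearMap.BilinForm F V) where
  two_ne : (2 : F) ≠ 0
  symm : ∀ u v, B u v = B v u
  nondeg : B.Nondegenerate
  R : Subgroup (G F V)
  isom : ∀ r ∈ R, ∀ u v, B ((r : Module.End F V) u) ((r : Module.End F V) v) = B u v
  neg_one : (-1 : G F V) ∈ R
  sq_sign : ∀ r ∈ R, r * r = 1 ∨ r * r = -1
  span_eq : Submodule.span F ((fun r : G F V => (r : Module.End F V)) '' (R : Set (G F V))) = ⊤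
  k : ℕ
  dim : Module.finrank F V = 2 ^ k

/-- The isometry group. -/
def Iso (B : LinearMap.BilinForm F V) : Subgroup (G F V) where
  carrier := {g | ∀ u v, B ((g : Module.End F V) u) ((g : Module.End F V) v) = B u v}
  one_mem' := fun u v => rfl
  mul_mem' := fun {a b} ha hb u v => by
    simp only [Units.val_mul, Module.End.mul_apply]
    rw [ha, hb]
  inv_mem' := fun {a} ha u v => by
    conv_rhs => rw [← Module.End.one_apply (R := F) u, ← Module.End.one_apply (R := F) v,
      ← Units.val_one, ← mul_inv_cancel a, Units.val_mul]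
    simp only [Module.End.mul_apply]
    rw [ha]

lemma mem_Sp {B : LinearMap.BilinForm F V} {g : G F V} :
    g ∈ Iso B ↔ ∀ u v, B ((g : Module.End F V) u) ((g : Module.End F V) v) = B u v := Iff.rfl

/-- The sign of a square. -/
noncomputable def sgn (g : G F V) : ZMod 2 := by
  classical exact if g * g = 1 then 0 else 1

/-- The sign of a commutator. -/
noncomputable def cm (a b : G F V) : ZMod 2 := by
  classical exact if a * b = b * a then 0 else 1

lemma sgn_eq_zero {g : G F V} : sgn g = 0 ↔ g * g = 1 := by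
  rw [sgn]; split_ifs with h <;> simp [h]

lemma cm_eq_zero {a b : G F V} : cm a b = 0 ↔ a * b = b * a := by
  rw [cm]; split_ifs with h <;> simp [h]

lemma sgn_neg (g : G F V) : sgn (-g) = sgn g := by rw [sgn, sgn, neg_mul_neg]

lemma cm_neg_left (a b : G F V) : cm (-a) b = cm a b := by
  classical
  rw [cm, cm]
  exact if_congr (by rw [neg_mul, mul_neg, neg_inj]) rfl rfl

lemma cm_neg_right (a b : G F V) : cm a (-b) = cm a b := by
  classical
  rw [cm, cm]
  exact if_congr (by rw [neg_mul, mul_neg, neg_inj]) rfl rfl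

namespace Frame

variable {B : LinearMap.BilinForm F V} (S : Frame B)

include S in
lemma nontrivial : Nontrivial V :=
  Module.nontrivial_of_finrank_pos (R := F) (by rw [S.dim]; positivity)

include S in
lemma finite_dim : FiniteDimensional F V :=
  FiniteDimensional.of_finrank_pos (by rw [S.dim]; positivity)

include S in
lemma n_ne : ((Module.finrank F V : ℕ) : F) ≠ 0 := by
  rw [S.dim, Nat.cast_pow, Nat.cast_ofNat]
  exact pow_ne_zero _ S.two_ne

include S in
lemma one_ne_neg_one : (1 : G F V) ≠ -1 := by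
  intro h
  have := S.nontrivial
  obtain ⟨v, hv⟩ := exists_ne (0 : V)
  have h' := congrArg (fun g : G F V => (g : Module.End F V) v) h
  simp only [Units.val_one, Units.val_neg, LinearMap.neg_apply, Module.End.one_apply] at h'
  refine hv ((smul_eq_zero.1 ?_).resolve_left S.two_ne)
  rw [two_smul]
  nth_rewrite 1 [h']
  exact neg_add_cancel v

include S in
lemma ne_neg (g : G F V) : g ≠ -g := fun h => S.one_ne_neg_one (by
  have := congrArg (fun x => x * g⁻¹) h
  simpa using this)

lemma R_le_Iso : S.R ≤ Iso B := fun r hr => S.isom r hr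

lemma neg_mem {r : G F V} (hr : r ∈ S.R) : -r ∈ S.R := by
  simpa using S.R.mul_mem S.neg_one hr

lemma inv_eq {r : G F V} (hr : r ∈ S.R) : r⁻¹ = r ∨ r⁻¹ = -r := by
  rcases S.sq_sign r hr with h | h
  · exact Or.inl (inv_eq_of_mul_eq_one_right h)
  · exact Or.inr (inv_eq_of_mul_eq_one_right (by rw [mul_neg, h, neg_neg]))

lemma comm_sign {a b : G F V} (ha : a ∈ S.R) (hb : b ∈ S.R) :
    a * b = b * a ∨ a * b = -(b * a) := by
  have h := mul_inv_rev a b
  rcases S.inv_eq (S.R.mul_mem ha hb) with h1 | h1 <;> rcases S.inv_eq ha with h2 | h2 <;>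
    rcases S.inv_eq hb with h3 | h3 <;> rw [h1, h2, h3] at h <;>
    first
      | (simp only [mul_neg, neg_mul, neg_neg, neg_eq_iff_eq_neg] at h; tauto)
      | tauto

lemma cm_eq_one {a b : G F V} (ha : a ∈ S.R) (hb : b ∈ S.R) :
    cm a b = 1 ↔ a * b = -(b * a) := by
  rcases S.comm_sign ha hb with h | h
  · rw [(cm_eq_zero).2 h, iff_false_intro (zero_ne_one : (0 : ZMod 2) ≠ 1), false_iff, h]
    exact S.ne_neg _
  · simp only [h, iff_true]
    rw [cm, if_neg]
    rw [h]
    exact fun e => S.ne_neg _ e.symm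

lemma sgn_eq_one {a : G F V} (ha : a ∈ S.R) : sgn a = 1 ↔ a * a = -1 := by
  rcases S.sq_sign a ha with h | h
  · rw [sgn_eq_zero.2 h, iff_false_intro (zero_ne_one : (0 : ZMod 2) ≠ 1), false_iff, h]
    exact S.one_ne_neg_one
  · simp only [h, iff_true]
    rw [sgn, if_neg]
    rw [h]
    exact S.one_ne_neg_one.symm

lemma cm_comm (a b : G F V) : cm a b = cm b a := by
  classical
  rw [cm, cm]
  exact if_congr ⟨Eq.symm, Eq.symm⟩ rfl rfl

lemma cm_mul_right {a b c : G F V} (ha : a ∈ S.R) (hb : b ∈ S.R) (hc : c ∈ S.R) :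
    cm a (b * c) = cm a b + cm a c := by
  rcases S.comm_sign ha hb with h | h <;> rcases S.comm_sign ha hc with h' | h'
  · rw [cm_eq_zero.2 h, cm_eq_zero.2 h', add_zero, cm_eq_zero, ← mul_assoc, h, mul_assoc, h',
      mul_assoc]
  · rw [cm_eq_zero.2 h, (S.cm_eq_one ha hc).2 h', zero_add, S.cm_eq_one ha (S.R.mul_mem hb hc),
      ← mul_assoc, h, mul_assoc, h', mul_neg, mul_assoc]
  · rw [(S.cm_eq_one ha hb).2 h, cm_eq_zero.2 h', add_zero, S.cm_eq_one ha (S.R.mul_mem hb hc),
      ← mul_assoc, h, neg_mul, mul_assoc, h', mul_assoc]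
  · rw [(S.cm_eq_one ha hb).2 h, (S.cm_eq_one ha hc).2 h', CharTwo.add_self_eq_zero, cm_eq_zero,
      ← mul_assoc, h, neg_mul, mul_assoc, h', mul_neg, neg_neg, mul_assoc]

lemma sgn_mul {a b : G F V} (ha : a ∈ S.R) (hb : b ∈ S.R) :
    sgn (a * b) = sgn a + sgn b + cm a b := by
  have e : a * b * (a * b) = a * (b * a) * b := by simp only [mul_assoc]
  have hab := S.R.mul_mem ha hb
  rcases S.comm_sign ha hb with h | h
  · rw [cm_eq_zero.2 h, add_zero]
    rw [← h, show a * (a * b) * b = a * a * (b * b) by simp only [mul_assoc]] at e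
    rcases S.sq_sign a ha with h1 | h1 <;> rcases S.sq_sign b hb with h2 | h2 <;> rw [h1, h2] at e
    · rw [sgn_eq_zero.2 h1, sgn_eq_zero.2 h2, add_zero, sgn_eq_zero, e, one_mul]
    · rw [sgn_eq_zero.2 h1, (S.sgn_eq_one hb).2 h2, zero_add, S.sgn_eq_one hab, e, one_mul]
    · rw [(S.sgn_eq_one ha).2 h1, sgn_eq_zero.2 h2, add_zero, S.sgn_eq_one hab, e, mul_one]
    · rw [(S.sgn_eq_one ha).2 h1, (S.sgn_eq_one hb).2 h2, CharTwo.add_self_eq_zero, sgn_eq_zero, e,
        neg_mul_neg, one_mul]
  · rw [(S.cm_eq_one ha hb).2 h]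
    have h' : b * a = -(a * b) := by rw [h, neg_neg]
    rw [h', show a * -(a * b) * b = -(a * a * (b * b)) by
      simp only [mul_neg, neg_mul, mul_assoc]] at e
    rcases S.sq_sign a ha with h1 | h1 <;> rcases S.sq_sign b hb with h2 | h2 <;> rw [h1, h2] at e
    · rw [sgn_eq_zero.2 h1, sgn_eq_zero.2 h2, zero_add, zero_add, S.sgn_eq_one hab, e, one_mul]
    · rw [sgn_eq_zero.2 h1, (S.sgn_eq_one hb).2 h2, zero_add, CharTwo.add_self_eq_zero, sgn_eq_zero,
        e, one_mul, neg_neg]
    · rw [(S.sgn_eq_one ha).2 h1, sgn_eq_zero.2 h2, add_zero, CharTwo.add_self_eq_zero, sgn_eq_zero,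
        e, mul_one, neg_neg]
    · rw [(S.sgn_eq_one ha).2 h1, (S.sgn_eq_one hb).2 h2, CharTwo.add_self_eq_zero, zero_add,
        S.sgn_eq_one hab, e, neg_mul_neg, one_mul]

/-! ### Scalars and traces -/

lemma scalar_of_commute {f : Module.End F V}
    (h : ∀ r ∈ S.R, f * (r : Module.End F V) = r * f) :
    ∃ c : F, f = c • (1 : Module.End F V) := by
  have hc : ∀ g : Module.End F V, f * g = g * f := by
    intro g
    have hg : g ∈ Submodule.span F
        ((fun r : G F V => (r : Module.End F V)) '' (S.R : Set (G F V))) :=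
      S.span_eq ▸ Submodule.mem_top
    induction hg using Submodule.span_induction with
    | mem x hx => obtain ⟨r, hr, rfl⟩ := hx; exact h r hr
    | zero => simp
    | add x y _ _ hx hy => rw [mul_add, add_mul, hx, hy]
    | smul c x _ hx => rw [mul_smul_comm, smul_mul_assoc, hx]
  have := S.nontrivial
  obtain ⟨v, hv⟩ := exists_ne (0 : V)
  obtain ⟨φ, hφ⟩ := Module.Projective.exists_dual_ne_zero F hv
  refine ⟨(φ v)⁻¹ * φ (f v), LinearMap.ext fun w => ?_⟩
  have := congrArg (fun g : Module.End F V => g v) (hc (LinearMap.smulRight φ w))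
  simp only [Module.End.mul_apply, LinearMap.smulRight_apply, map_smul] at this
  rw [LinearMap.smul_apply, Module.End.one_apply, mul_smul, ← this, smul_smul,
    inv_mul_cancel₀ hφ, one_smul]

include S in
lemma sign_of_scalar {g : G F V} (hg : g ∈ Iso B) {c : F}
    (h : (g : Module.End F V) = c • (1 : Module.End F V)) : g = 1 ∨ g = -1 := by
  have := S.nontrivial
  obtain ⟨u, hu⟩ := exists_ne (0 : V)
  obtain ⟨v, hv⟩ : ∃ v, B u v ≠ 0 := by
    by_contra hcon
    push Not at hcon
    exact hu (S.nondeg.1 u hcon)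
  have h1 := hg u v
  simp only [h, LinearMap.smul_apply, Module.End.one_apply, map_smul, smul_eq_mul] at h1
  rcases mul_self_eq_one_iff.1 (mul_right_cancel₀ hv (by linear_combination h1 :
    c * c * B u v = 1 * B u v)) with rfl | rfl
  · exact Or.inl (Units.ext (by simpa using h))
  · exact Or.inr (Units.ext (by simpa using h))

lemma eq_sign_of_commute {g : G F V} (hg : g ∈ Iso B) (h : ∀ r ∈ S.R, g * r = r * g) :
    g = 1 ∨ g = -1 := by
  obtain ⟨c, hc⟩ := S.scalar_of_commute (f := g) fun r hr => by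
    simpa using congrArg (fun x : G F V => (x : Module.End F V)) (h r hr)
  exact S.sign_of_scalar hg hc

lemma trace_eq_zero {r : G F V} (hr : r ∈ S.R) (h1 : r ≠ 1) (h2 : r ≠ -1) :
    LinearMap.trace F V (r : Module.End F V) = 0 := by
  obtain ⟨s, hs, hsr⟩ : ∃ s ∈ S.R, r * s = -(s * r) := by
    by_contra hcon
    push Not at hcon
    rcases S.eq_sign_of_commute (S.R_le_Iso hr) fun s hs =>
      (S.comm_sign hr hs).resolve_right (hcon s hs) with h | h
    exacts [h1 h, h2 h]
  have e : ((s⁻¹ * (r * s) : G F V) : Module.End F V) = -(r : Module.End F V) := by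
    rw [hsr, mul_neg, inv_mul_cancel_left, Units.val_neg]
  have ht : LinearMap.trace F V ((s⁻¹ * (r * s) : G F V) : Module.End F V) =
      LinearMap.trace F V (r : Module.End F V) := by
    rw [Units.val_mul, LinearMap.trace_mul_comm, ← Units.val_mul, mul_assoc, mul_inv_cancel,
      mul_one]
  rw [e, map_neg] at ht
  refine (mul_eq_zero.1 ?_).resolve_left S.two_ne
  linear_combination -ht

/-- The coefficient of `A` along the monomial `a`. -/
noncomputable def co (a : G F V) : Module.End F V →ₗ[F] F :=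
  ((Module.finrank F V : ℕ) : F)⁻¹ •
    (LinearMap.trace F V ∘ₗ LinearMap.mulLeft F ((a⁻¹ : G F V) : Module.End F V))

lemma co_apply (a : G F V) (A : Module.End F V) :
    co a A = ((Module.finrank F V : ℕ) : F)⁻¹ *
      LinearMap.trace F V (((a⁻¹ : G F V) : Module.End F V) * A) := rfl

include S in
lemma co_self (a : G F V) : co a (a : Module.End F V) = 1 := by
  have := S.finite_dim
  rw [co_apply, Units.inv_mul, LinearMap.trace_one, inv_mul_cancel₀ S.n_ne]

include S in
lemma co_neg_self (a : G F V) : co a ((-a : G F V) : Module.End F V) = -1 := by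
  rw [Units.val_neg, map_neg, S.co_self]

lemma co_eq_zero {a r : G F V} (ha : a ∈ S.R) (hr : r ∈ S.R) (h1 : r ≠ a) (h2 : r ≠ -a) :
    co a (r : Module.End F V) = 0 := by
  rw [co_apply, ← Units.val_mul, S.trace_eq_zero (S.R.mul_mem (S.R.inv_mem ha) hr)
    (fun h => h1 (inv_mul_eq_one.1 h).symm)
    (fun h => h2 (by rw [← mul_inv_cancel_left a r, h, mul_neg, mul_one])), mul_zero]

/-! ### The quotient by the signs -/

/-- The signs in `R`. -/
def Z : Subgroup S.R where
  carrier := {r | (r : G F V) = 1 ∨ (r : G F V) = -1}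
  one_mem' := Or.inl rfl
  mul_mem' := by
    rintro a b (ha | ha) (hb | hb)
    · left; rw [Subgroup.coe_mul, ha, hb, one_mul]
    · right; rw [Subgroup.coe_mul, ha, hb, one_mul]
    · right; rw [Subgroup.coe_mul, ha, hb, mul_one]
    · left; rw [Subgroup.coe_mul, ha, hb, neg_mul_neg, one_mul]
  inv_mem' := by
    rintro a (ha | ha)
    · left; rw [Subgroup.coe_inv, ha, inv_one]
    · right; rw [Subgroup.coe_inv, ha, inv_neg, inv_one]

lemma mem_Z {r : S.R} : r ∈ S.Z ↔ (r : G F V) = 1 ∨ (r : G F V) = -1 := Iff.rfl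

instance : S.Z.Normal := by
  refine ⟨fun z hz r => ?_⟩
  rcases hz with h | h
  · left; simp [h]
  · right; simp [h]

instance : CommGroup (S.R ⧸ S.Z) :=
  { (inferInstance : Group (S.R ⧸ S.Z)) with
    mul_comm := by
      intro x y
      induction x using QuotientGroup.induction_on with
      | H a =>
        induction y using QuotientGroup.induction_on with
        | H b =>
          rw [← QuotientGroup.mk_mul, ← QuotientGroup.mk_mul, QuotientGroup.eq, S.mem_Z]
          simp only [Subgroup.coe_mul, Subgroup.coe_inv]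
          rcases S.comm_sign a.2 b.2 with h | h
          · left; rw [h, inv_mul_cancel]
          · right; rw [h, inv_neg, neg_mul, inv_mul_cancel] }

/-- `R` modulo signs, as an additive group. -/
abbrev E := Additive (S.R ⧸ S.Z)

/-- The class of an element of `R`. -/
def cls (r : S.R) : S.E := Additive.ofMul (QuotientGroup.mk r)

lemma cls_surjective : Function.Surjective S.cls := fun x => by
  obtain ⟨r, hr⟩ := QuotientGroup.mk_surjective (Additive.toMul x)
  exact ⟨r, by rw [cls, hr]; rfl⟩

lemma cls_mul (a b : S.R) : S.cls (a * b) = S.cls a + S.cls b := rfl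

lemma cls_one : S.cls 1 = 0 := rfl

lemma cls_eq_iff {a b : S.R} :
    S.cls a = S.cls b ↔ (b : G F V) = a ∨ (b : G F V) = -a := by
  rw [cls, cls, Additive.ofMul.apply_eq_iff_eq, QuotientGroup.eq, S.mem_Z]
  simp only [Subgroup.coe_mul, Subgroup.coe_inv, inv_mul_eq_iff_eq_mul, mul_one, mul_neg]

lemma cls_eq_zero {a : S.R} : S.cls a = 0 ↔ (a : G F V) = 1 ∨ (a : G F V) = -1 := by
  rw [← S.cls_one, eq_comm, S.cls_eq_iff]
  rfl

lemma E_two_nsmul (x : S.E) : 2 • x = 0 := by
  obtain ⟨r, rfl⟩ := S.cls_surjective x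
  rw [two_nsmul, ← S.cls_mul, S.cls_eq_zero]
  exact S.sq_sign r r.2

instance : Module (ZMod 2) S.E := AddCommGroup.zmodModule S.E_two_nsmul

/-- A representative of a class. -/
noncomputable def rep (x : S.E) : S.R := Function.surjInv S.cls_surjective x

lemma cls_rep (x : S.E) : S.cls (S.rep x) = x := Function.surjInv_eq S.cls_surjective x

lemma cls_inv (a : S.R) : S.cls a⁻¹ = S.cls a := by
  rw [S.cls_eq_iff]
  rcases S.inv_eq a.2 with h | h
  · left; simp [h]
  · right; simp [h]

/-- The value of the quadratic form. -/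
noncomputable def qv (x : S.E) : ZMod 2 := sgn (S.rep x : G F V)

lemma qv_cls (a : S.R) : S.qv (S.cls a) = sgn (a : G F V) := by
  rcases S.cls_eq_iff.1 (S.cls_rep (S.cls a)) with h | h
  · rw [qv, h]
  · conv_rhs => rw [h]
    rw [qv, sgn_neg]

/-- The value of the commutator form. -/
noncomputable def bv (x y : S.E) : ZMod 2 := cm (S.rep x : G F V) (S.rep y)

lemma bv_cls (a b : S.R) : S.bv (S.cls a) (S.cls b) = cm (a : G F V) b := by
  rcases S.cls_eq_iff.1 (S.cls_rep (S.cls a)) with h | h <;>
    rcases S.cls_eq_iff.1 (S.cls_rep (S.cls b)) with h' | h' <;>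
    conv_rhs => rw [h, h']
  all_goals simp only [bv, cm_neg_left, cm_neg_right]

lemma bv_add_right (x y z : S.E) : S.bv x (y + z) = S.bv x y + S.bv x z := by
  obtain ⟨a, rfl⟩ := S.cls_surjective x
  obtain ⟨b, rfl⟩ := S.cls_surjective y
  obtain ⟨c, rfl⟩ := S.cls_surjective z
  rw [← S.cls_mul, S.bv_cls, S.bv_cls, S.bv_cls, Subgroup.coe_mul, S.cm_mul_right a.2 b.2 c.2]

lemma bv_comm (x y : S.E) : S.bv x y = S.bv y x := cm_comm _ _

/-- The commutator form. -/
noncomputable def bf : LinearMap.BilinForm (ZMod 2) S.E :=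
  AddMonoidHom.toZModLinearMap 2
    { toFun := fun x => AddMonoidHom.toZModLinearMap 2 (AddMonoidHom.mk' (S.bv x) (S.bv_add_right x))
      map_zero' := by
        ext y
        show S.bv 0 y = 0
        have h := S.bv_add_right y 0 0
        rw [add_zero] at h
        rw [S.bv_comm, ← add_left_cancel (a := S.bv y 0) (b := S.bv y 0) (c := 0) (by
          rw [← h, add_zero])]
      map_add' := fun x y => by
        ext z
        show S.bv (x + y) z = S.bv x z + S.bv y z
        rw [S.bv_comm, S.bv_add_right, S.bv_comm z x, S.bv_comm z y] }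

@[simp] lemma bf_apply (x y : S.E) : S.bf x y = S.bv x y := rfl

lemma bf_cls (a b : S.R) : S.bf (S.cls a) (S.cls b) = cm (a : G F V) b := S.bv_cls a b

lemma bf_eq_zero {a b : S.R} :
    S.bf (S.cls a) (S.cls b) = 0 ↔ (a : G F V) * b = b * a := by rw [S.bf_cls, cm_eq_zero]

lemma bf_eq_one {a b : S.R} :
    S.bf (S.cls a) (S.cls b) = 1 ↔ (a : G F V) * b = -(b * a) := by
  rw [S.bf_cls, S.cm_eq_one a.2 b.2]

lemma qv_add (x y : S.E) : S.qv (x + y) = S.qv x + S.qv y + S.bf x y := by
  obtain ⟨a, rfl⟩ := S.cls_surjective x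
  obtain ⟨b, rfl⟩ := S.cls_surjective y
  rw [← S.cls_mul, S.qv_cls, S.qv_cls, S.qv_cls, S.bf_cls, Subgroup.coe_mul, S.sgn_mul a.2 b.2]

lemma bf_nondeg (x : S.E) (h : ∀ y, S.bf x y = 0) : x = 0 := by
  obtain ⟨a, rfl⟩ := S.cls_surjective x
  rw [S.cls_eq_zero]
  exact S.eq_sign_of_commute (S.R_le_Iso a.2) fun r hr => S.bf_eq_zero.1 (h (S.cls ⟨r, hr⟩))

lemma co_rep {x y : S.E} (h : x ≠ y) : co (S.rep x : G F V) ((S.rep y : G F V) : Module.End F V) = 0 := by
  refine S.co_eq_zero (S.rep x).2 (S.rep y).2 (fun e => h ?_) (fun e => h ?_) <;>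
    rw [← S.cls_rep x, ← S.cls_rep y, S.cls_eq_iff]
  · exact Or.inl e
  · exact Or.inr e

lemma linearIndependent_rep :
    LinearIndependent F fun x : S.E => ((S.rep x : G F V) : Module.End F V) := by
  classical
  rw [linearIndependent_iff']
  intro s g hg i hi
  have h := congrArg (co (S.rep i : G F V)) hg
  rw [map_sum, map_zero, Finset.sum_eq_single i] at h
  · rwa [map_smul, S.co_self, smul_eq_mul, mul_one] at h
  · intro j _ hj
    rw [map_smul, S.co_rep hj.symm, smul_zero]
  · exact fun h' => absurd hi h'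

lemma span_rep :
    Submodule.span F (Set.range fun x : S.E => ((S.rep x : G F V) : Module.End F V)) = ⊤ := by
  rw [eq_top_iff, ← S.span_eq, Submodule.span_le]
  rintro _ ⟨r, hr, rfl⟩
  rcases S.cls_eq_iff.1 (S.cls_rep (S.cls ⟨r, hr⟩)) with h | h
  · exact Submodule.subset_span ⟨_, congrArg Units.val h.symm⟩
  · show (r : Module.End F V) ∈ _
    rw [show r = -(S.rep (S.cls ⟨r, hr⟩) : G F V) from h, Units.val_neg]
    exact Submodule.neg_mem _ (Submodule.subset_span ⟨_, rfl⟩)

instance : Finite S.E := by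
  have := S.finite_dim
  exact Module.Finite.finite_basis (Module.Basis.mk S.linearIndependent_rep S.span_rep.ge)

lemma card_E : Nat.card S.E = 2 ^ (2 * S.k) := by
  have := S.finite_dim
  have := Fintype.ofFinite S.E
  have h := Module.finrank_eq_card_basis (Module.Basis.mk S.linearIndependent_rep S.span_rep.ge)
  rw [Module.finrank_linearMap, S.dim] at h
  rw [Nat.card_eq_fintype_card, ← h]
  ring

lemma finrank_E : Module.finrank (ZMod 2) S.E = 2 * S.k := by
  have h := Module.natCard_eq_pow_finrank (K := ZMod 2) (V := S.E)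
  rw [S.card_E, Nat.card_zmod] at h
  exact (Nat.pow_right_injective le_rfl h).symm

lemma bf_nondegenerate : S.bf.Nondegenerate :=
  ⟨S.bf_nondeg, fun y h => S.bf_nondeg y fun x => by rw [bf_apply, S.bv_comm]; exact h x⟩

/-- The quadratic space of a frame. -/
noncomputable def QS' : QS S.E where
  B := S.bf
  q := S.qv
  q_add := S.qv_add
  nondeg := S.bf_nondeg
  k := S.k
  dim := S.finrank_E

end Frame

end Cfsg.Agent.MaxSub.CSixOp
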