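import Cfsg.Agent.MaxSub.CSixOp.Core

/-!
The centraliser in an overgroup of an involution of `R` normalises `R`.
-/

set_option autoImplicit false
set_option linter.unusedSectionVars false
attribute [-instance] AddSubgroupClass.instZModModule

namespace Cfsg.Agent.MaxSub.CSixOp

variable {F : Type*} [Field F] {V : Type*} [AddCommGroup V] [Module F V]

namespace Blk

variable {B : LinearMap.BilinForm F V} {S : Frame B} (P : Blk S)

/-- Conjugation by the anticommuting element, on the centraliser of the involution. -/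
def flip (g : P.C) : P.C := ⟨P.a⁻¹ * g * P.a, P.conj_a_inv_mem_C g.2⟩

lemma flip_mul (g h : P.C) : P.flip (g * h) = P.flip g * P.flip h :=
  Subtype.ext (by simp [flip, mul_assoc])

lemma flip_inv (g : P.C) : P.flip g⁻¹ = (P.flip g)⁻¹ :=
  Subtype.ext (by simp [flip, mul_assoc])

lemma flip_pm {r : P.C} (hr : (r : G F V) ∈ S.R) : PM (P.flip r : G F V) r := by
  show PM (P.a⁻¹ * (r : G F V) * P.a) _
  rcases S.comm_sign hr P.a_mem with e | e
  · exact Or.inl (by rw [mul_assoc, e, inv_mul_cancel_left])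
  · exact Or.inr (by rw [mul_assoc, e, mul_neg, inv_mul_cancel_left])

lemma flip_ext (h : G F P.U) : (P.flip ⟨P.ext h, P.ext_mem_C h⟩ : G F V) = P.ext' h := by
  show P.a⁻¹ * P.ext h * P.a = _
  rw [P.ext'_eq]
  rcases S.inv_eq P.a_mem with e | e <;> rw [e] <;> simp

lemma res_pm {g h : P.C} (e : PM (g : G F V) h) : PM (P.res g) (P.res h) := by
  rcases e with e | e
  · exact Or.inl (congrArg P.res (Subtype.ext e))
  · refine Or.inr (Units.ext (LinearMap.ext fun w => Subtype.ext ?_))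
    rw [Units.val_neg, LinearMap.neg_apply, Submodule.coe_neg, res_coe, res_coe, e, Units.val_neg,
      LinearMap.neg_apply]

lemma res_mem_R' {r : P.C} (hr : (r : G F V) ∈ S.R) : P.res r ∈ P.frame.R :=
  P.mem_R'.2 ⟨r, r.2, hr, rfl⟩

lemma ext_conj (g : P.C) (h : G F P.U) :
    P.ext (P.res g * h * (P.res g)⁻¹) = (g : G F V) * P.ext h * (g : G F V)⁻¹ := by
  have hc : ∀ k, P.ext' k * P.ext h = P.ext h * P.ext' k := fun k => (P.commute_ext h k).eq.symm
  conv_rhs => rw [P.eq_ext_mul_ext' g]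
  set A' := P.res ⟨P.a⁻¹ * (g : G F V) * P.a, P.conj_a_inv_mem_C g.2⟩
  rw [mul_assoc (P.ext (P.res g)), hc, map_mul, map_mul, map_inv]
  group

lemma ext_neg_one : P.ext (-1) = -P.x := by
  refine Units.ext (LinearMap.ext fun v => ?_)
  rw [ext_apply, Units.val_neg, Units.val_neg, LinearMap.neg_apply, LinearMap.neg_apply, Units.val_one,
    Module.End.one_apply, Submodule.coe_neg, pr_coe]
  match_scalars <;> field_simp [S.two_ne] <;> ring

lemma ext'_neg_one : P.ext' (-1) = P.x := by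
  rw [ext'_eq, ext_neg_one, mul_neg, ← P.anti, mul_assoc, mul_inv_cancel, mul_one]

lemma res_x : P.res ⟨P.x, P.x_mem_C⟩ = 1 :=
  Units.ext (LinearMap.ext fun w => Subtype.ext (by
    rw [res_coe]; exact P.mem_U.1 w.2))

/-- An element of `R` trivial on the fixed space is `1` or the involution. -/
lemma res_eq_one {r : P.C} (hr : (r : G F V) ∈ S.R) (h : P.res r = 1) :
    (r : G F V) = 1 ∨ (r : G F V) = P.x := by
  by_contra hcon
  push Not at hcon
  obtain ⟨h1, hx⟩ := hcon
  have := S.nontrivial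
  have := S.finite_dim
  have hne : P.frame.R = P.R' := rfl
  have h1n : (r : G F V) ≠ -1 := fun e => by
    have := congrArg P.res (Subtype.ext e : r = ⟨-1, P.mem_C.2 (by simp)⟩)
    rw [h, P.res_neg_one] at this
    exact P.frame.one_ne_neg_one this
  have hxn : (r : G F V) ≠ -P.x := fun e => by
    have h2 : PM (r : G F V) ((⟨P.x, P.x_mem_C⟩ : P.C) : G F V) := Or.inr e
    have := congrArg P.res (Subtype.ext (e.trans (neg_one_mul P.x).symm) :
      r = ⟨-1, P.mem_C.2 (by simp)⟩ * ⟨P.x, P.x_mem_C⟩)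
    rw [h, map_mul, P.res_neg_one, P.res_x, mul_one] at this
    exact P.frame.one_ne_neg_one this
  have hx1 : P.x * P.x = 1 := P.x_sq
  have ht1 := S.trace_eq_zero hr h1 h1n
  have ht2 := S.trace_eq_zero (S.R.mul_mem hr P.x_mem)
    (fun e => hx (by rw [← mul_one (r : G F V), ← hx1, ← mul_assoc, e, one_mul]))
    (fun e => hxn (by rw [← mul_one (r : G F V), ← hx1, ← mul_assoc, e, neg_one_mul]))
  have key : ((r : G F V) : Module.End F V) + ((r : G F V) * P.x : G F V) =
      1 + (P.x : Module.End F V) := by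
    refine LinearMap.ext fun v => ?_
    have e := P.res_coe r (P.pr v)
    rw [h] at e
    simp only [Units.val_one, Module.End.one_apply, pr_coe, map_smul, map_add] at e
    simp only [Units.val_mul, LinearMap.add_apply, Module.End.one_apply, Module.End.mul_apply]
    exact smul_right_injective V (inv_ne_zero S.two_ne) e.symm
  have htx : LinearMap.trace F V (P.x : Module.End F V) = 0 := by
    refine S.trace_eq_zero P.x_mem (fun e => ?_) (fun e => ?_)
    · have := P.anti
      rw [e, one_mul, mul_one] at this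
      exact S.ne_neg _ this
    · have := P.anti
      rw [e, neg_one_mul, mul_neg_one, neg_neg] at this
      exact S.ne_neg _ this.symm
  have := congrArg (LinearMap.trace F V) key
  rw [map_add, map_add, ht1, ht2, htx, LinearMap.trace_one, add_zero, add_zero] at this
  exact S.n_ne this.symm

/-- The lift of the class of a nonsingular element of the restricted frame. -/
lemma exists_lift {r' : G F P.U} (hr' : r' ∈ P.frame.R) (hq : r' * r' = -1) :
    ∃ r : P.C, ∃ hr : (r : G F V) ∈ S.R,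
      (r : G F V) * r = -1 ∧ P.res r = r' := by
  obtain ⟨g, hg, hgR, rfl⟩ := P.mem_R'.1 hr'
  refine ⟨⟨g, hg⟩, hgR, (S.sq_sign g hgR).resolve_left fun e => ?_, rfl⟩
  rw [← map_mul, show (⟨g, hg⟩ * ⟨g, hg⟩ : P.C) = 1 from Subtype.ext e, map_one] at hq
  exact P.frame.one_ne_neg_one hq

/-- Half of an element of `R` is a quarter turn. -/
lemma w_x_mul {r : P.C} (hr : (r : G F V) ∈ S.R) (hq : (r : G F V) * r = -1)
    (hq' : ((⟨P.x, P.x_mem⟩ * ⟨r, hr⟩ : S.R) : G F V) * (⟨P.x, P.x_mem⟩ * ⟨r, hr⟩ : S.R) = -1) :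
    S.w (y := ⟨(r : G F V), hr⟩) hq hq' = P.ext (P.res r) := by
  refine Units.ext (LinearMap.ext fun v => ?_)
  rw [S.w_val, ext_apply, res_coe]
  have h1 : ((r : G F V) : Module.End F V) ((P.x : Module.End F V) v) =
      (P.x : Module.End F V) (((r : G F V) : Module.End F V) v) := (P.C_apply r.2 v).symm
  have h2 : ∀ u, ((r : G F V) : Module.End F V) (((r : G F V) : Module.End F V) u) = -u := fun u => by
    simpa using congrArg (fun g : G F V => (g : Module.End F V) u) hq
  simp only [LinearMap.smul_apply, Module.End.mul_apply, LinearMap.add_apply, Module.End.one_apply,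
    map_add, Subgroup.coe_mul, Units.val_mul, pr_coe, map_smul]
  rw [← P.C_apply r.2 (((r : G F V) : Module.End F V) v), h2, ← h1, map_neg]
  match_scalars <;> field_simp [S.two_ne] <;> ring

end Blk

namespace Over

variable {B : LinearMap.BilinForm F V} {S : Frame B} {M : Subgroup (G F V)} (hM : Over S M)

include hM

/-- The elements of the fixed space acting inside `M`. -/
theorem half_eq (P : Blk S) : M.comap P.ext = P.frame.R := by
  have hk := hM.k_le
  have hk' : 3 ≤ P.frame.k := by rw [P.frame_k]; omega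
  have := hM.fin
  set K := M.comap P.ext with hK
  have hfinU : Finite (G F P.U) := Finite.of_injective P.ext P.ext_injective
  have hKiso : K ≤ Iso P.B' := fun h hh => by
    have := P.res_mem_Iso (g := ⟨P.ext h, P.ext_mem_C h⟩) (hM.le hh)
    rwa [P.res_ext] at this
  have hns : ∀ r' : P.frame.R, (r' : G F P.U) * r' = -1 → (r' : G F P.U) ∈ K := by
    intro r' hq
    obtain ⟨r, hr, hrq, hres⟩ := P.exists_lift r'.2 hq
    have hq' : ((⟨P.x, P.x_mem⟩ * ⟨r, hr⟩ : S.R) : G F V) *
        (⟨P.x, P.x_mem⟩ * ⟨r, hr⟩ : S.R) = -1 := by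
      show P.x * r * (P.x * r) = -1
      rw [mul_assoc, ← mul_assoc (r : G F V), ← P.mem_C.1 r.2, mul_assoc P.x, hrq, ← mul_assoc,
        P.x_sq, one_mul]
    show P.ext r' ∈ M
    rw [← hres, ← P.w_x_mul hr hrq hq']
    exact hM.w_mem _ _
  have hRK : P.frame.R ≤ K := by
    intro r hr
    rcases P.frame.sq_sign r hr with h | h
    · obtain ⟨x, hx1, hx2⟩ := P.frame.QS'.exists_perp_q (by rw [Frame.QS'_k]; omega)
        (P.frame.cls ⟨r, hr⟩) 1
      obtain ⟨b, rfl⟩ := P.frame.cls_surjective x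
      have hrb : ((⟨r, hr⟩ * b : P.frame.R) : G F P.U) * (⟨r, hr⟩ * b : P.frame.R) = -1 := by
        refine P.frame.qv_cls_eq_one.1 ?_
        have e1 : P.frame.qv (P.frame.cls ⟨r, hr⟩) = 0 := P.frame.qv_cls_eq_zero.2 h
        rw [Frame.QS'_B] at hx1
        rw [Frame.QS'_q] at hx2
        rw [P.frame.cls_mul, P.frame.qv_add, e1, hx2, hx1]
        decide
      simpa using K.mul_mem (hns _ hrb) (K.inv_mem (hns b (P.frame.qv_cls_eq_one.1 hx2)))
    · exact hns ⟨r, hr⟩ h
  -- the centraliser of a nonsingular element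
  have hcent : ∀ h ∈ K, ∀ r' : P.frame.R, (r' : G F P.U) * r' = -1 →
      PM (h * (r' : G F P.U) * h⁻¹) r' → h ∈ P.frame.R := by
    intro h hh r' hq hpm
    obtain ⟨c, hc, hcomm⟩ := P.frame.exists_fix (P.frame.ns_ne_zero hq) hpm
    suffices ∀ h ∈ K, h * (r' : G F P.U) = r' * h → h ∈ P.frame.R by
      simpa using P.frame.R.mul_mem (P.frame.R.inv_mem hc)
        (this _ (K.mul_mem (hRK hc) hh) hcomm)
    clear! h c
    intro h hh hcomm
    obtain ⟨r, hr, hrq, hres⟩ := P.exists_lift r'.2 hq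
    have hcm : P.ext h * (r : G F V) = r * P.ext h := by
      obtain ⟨A, hA⟩ : ∃ A, (r : G F V) = P.ext r' * P.ext' A :=
        ⟨_, hres ▸ P.eq_ext_mul_ext' r⟩
      rw [hA, ← mul_assoc, ← map_mul, hcomm, map_mul, mul_assoc, mul_assoc, (P.commute_ext h A).eq]
    have hN := hM.centC (y := ⟨(r : G F V), hr⟩) hrq hh hcm
    refine P.frame.mem_R_of_pm (hKiso hh) fun s' hs' => ?_
    obtain ⟨s, hsC, hs, hres'⟩ := P.mem_R'.1 hs'
    let sC : P.C := ⟨s, hsC⟩
    let eC : P.C := ⟨P.ext h, P.ext_mem_C h⟩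
    let d : P.C := sC⁻¹ * (eC * sC * eC⁻¹)
    have hd : (d : G F V) ∈ S.R := S.R.mul_mem (S.R.inv_mem hs) (S.conj_mem hN hs)
    have hd1 : P.res (P.flip d) = 1 := by
      have : P.res (P.flip eC) = 1 := by
        rw [show P.flip eC = ⟨P.ext' h, P.ext'_mem_C h⟩ from Subtype.ext (P.flip_ext h)]
        exact P.res_ext' h
      simp only [d, P.flip_mul, P.flip_inv, map_mul, map_inv, this, one_mul, inv_one, mul_one,
        inv_mul_cancel]
    have hd' : (P.flip d : G F V) ∈ S.R := by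
      exact (P.flip_pm hd).mem S.neg_one hd
    have hflip : (P.flip d : G F V) = 1 ∨ (P.flip d : G F V) = P.x := P.res_eq_one hd' hd1
    have hpmd : PM (d : G F V) 1 ∨ PM (d : G F V) P.x := by
      rcases hflip with e | e
      · exact Or.inl (e ▸ (P.flip_pm hd).symm)
      · exact Or.inr (e ▸ (P.flip_pm hd).symm)
    have hres2 : PM (P.res d) 1 := by
      rcases hpmd with e | e
      · simpa using P.res_pm (g := d) (h := 1) e
      · simpa [P.res_x] using P.res_pm (g := d) (h := ⟨P.x, P.x_mem_C⟩) e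
    have e : P.res d = s'⁻¹ * (h * s' * h⁻¹) := by
      simp only [d, map_mul, map_inv, eC, P.res_ext, sC, hres']
    rw [e] at hres2
    rcases hres2 with e' | e'
    · exact Or.inl (mul_inv_eq_iff_eq_mul.1 (inv_mul_eq_one.1 e').symm)
    · right
      rw [inv_mul_eq_iff_eq_mul, gmul_neg, mul_one, mul_inv_eq_iff_eq_mul, gneg_mul] at e'
      simpa [gneg_mul] using e'
  -- the part normalising the restricted group
  have hnorm : ∀ h ∈ K, h ∈ P.frame.Nm → h ∈ P.frame.R := by
    let H : Subgroup (P.frame.E ≃ₗ[ZMod 2] P.frame.E) :=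
      (K.subgroupOf P.frame.Nm).map P.frame.act
    have hmem : ∀ e, e ∈ H ↔ ∃ h : P.frame.Nm, (h : G F P.U) ∈ K ∧ P.frame.act h = e := fun e =>
      Iff.rfl
    have hH : H = ⊥ := by
      refine P.frame.QS'.eq_bot_of_semiregular (by rw [Frame.QS'_k]; omega) ?_ ?_ ?_
      · rintro e he a
        obtain ⟨h, -, rfl⟩ := (hmem e).1 he
        exact P.frame.qv_act h a
      · rintro e he y z hy hz
        obtain ⟨h, hh, rfl⟩ := (hmem e).1 he
        obtain ⟨y', rfl⟩ := P.frame.cls_surjective y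
        obtain ⟨z', rfl⟩ := P.frame.cls_surjective z
        have hy' := P.frame.qv_cls_eq_one.1 hy
        have hz' := P.frame.qv_cls_eq_one.1 hz
        obtain ⟨r, hr, hrq, hr'⟩ := P.exists_lift y'.2 hy'
        obtain ⟨s, hs, hsq, hs'⟩ := P.exists_lift z'.2 hz'
        set w := S.w (y := ⟨(r : G F V), hr⟩) (z := ⟨(s : G F V), hs⟩) hrq hsq with hw
        have hwC : w ∈ P.C := by
          rw [P.mem_C]
          refine Units.ext (LinearMap.ext fun v => ?_)
          simp only [hw, Units.val_mul, Module.End.mul_apply, S.w_val, LinearMap.smul_apply,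
            LinearMap.add_apply, Module.End.one_apply, map_smul, map_add, P.C_apply r.2, P.C_apply s.2]
        have hres : P.res ⟨w, hwC⟩ = P.frame.w hy' hz' := by
          refine Units.ext (LinearMap.ext fun u => Subtype.ext ?_)
          rw [P.res_coe, P.frame.w_val]
          simp only [hw, S.w_val, LinearMap.smul_apply, Module.End.mul_apply, LinearMap.add_apply,
            Module.End.one_apply, map_add, Submodule.coe_smul, Submodule.coe_add, ← hr', ← hs',
            P.res_coe]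
        have hN : P.res ⟨w, hwC⟩ ∈ P.frame.Nm := hres ▸ (P.frame.w_mem hy' hz').1
        refine (hmem _).2 ⟨⟨_, hN⟩ * h * ⟨_, hN⟩⁻¹, ?_, ?_⟩
        · show P.ext (P.res ⟨w, hwC⟩ * (h : G F P.U) * (P.res ⟨w, hwC⟩)⁻¹) ∈ M
          rw [P.ext_conj]
          exact M.mul_mem (M.mul_mem (hM.w_mem _ _) hh) (M.inv_mem (hM.w_mem _ _))
        · rw [map_mul, map_mul, map_inv]
          have : P.frame.act ⟨_, hN⟩ =
              P.frame.QS'.T (P.frame.cls y') * P.frame.QS'.T (P.frame.cls z') := by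
            refine LinearEquiv.ext fun x => ?_
            have e : (⟨_, hN⟩ : P.frame.Nm) = ⟨_, (P.frame.w_mem hy' hz').1⟩ := Subtype.ext hres
            rw [e, P.frame.act_w]
            rfl
          rw [this]
      · rintro e he a ha hfix
        obtain ⟨h, hh, rfl⟩ := (hmem e).1 he
        obtain ⟨a', rfl⟩ := P.frame.cls_surjective a
        rw [P.frame.act_cls'] at hfix
        have := hcent h hh a' (P.frame.qv_cls_eq_one.1 ha) (P.frame.pm_cls.2 hfix)
        exact P.frame.act_eq_one_of_mem_R this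
    intro h hh hN
    have : P.frame.act ⟨h, hN⟩ ∈ H := (hmem _).2 ⟨⟨h, hN⟩, hh, rfl⟩
    rw [hH, Subgroup.mem_bot] at this
    exact P.frame.mem_R_of_act_eq_one (hKiso hh) this
  -- a mover of a nonsingular element lies in the restricted group
  have hmove : ∀ u ∈ K, ∀ a b : P.frame.R, (a : G F P.U) * a = -1 → (b : G F P.U) * b = -1 →
      PM (u * (a : G F P.U) * u⁻¹) b → u ∈ P.frame.R := by
    intro u hu a b ha hb hab
    refine hnorm u hu (P.frame.mem_Nm_of_conj fun r hr => ?_)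
    refine hcent _ (K.mul_mem (K.mul_mem hu (hRK hr)) (K.inv_mem hu)) b hb ?_
    have hra : PM (r * (a : G F P.U) * r⁻¹) a := pm_conj_of_comm (P.frame.comm_sign hr a.2)
    have e1 := (hab.symm).conj (u * r * u⁻¹)
    have e2 := hra.conj u
    rw [show u * r * u⁻¹ * (u * (a : G F P.U) * u⁻¹) * (u * r * u⁻¹)⁻¹ =
      u * (r * a * r⁻¹) * u⁻¹ by group] at e1
    exact e1.trans (e2.trans hab)
  refine le_antisymm (fun h hh => ?_) hRK
  -- two anticommuting nonsingular elements
  obtain ⟨x0, hx0⟩ : ∃ a : P.frame.R, (a : G F P.U) * a = -1 := by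
    obtain ⟨x, -, hx⟩ := P.frame.QS'.exists_perp_q (by rw [Frame.QS'_k]; omega) 0 1
    exact ⟨P.frame.rep x, P.frame.sq_of_qv_one hx⟩
  obtain ⟨b0, hab, hb0⟩ : ∃ b : P.frame.R, (x0 : G F P.U) * b = -(b * x0) ∧
      (b : G F P.U) * b = -1 := by
    obtain ⟨x, h1, h2⟩ := P.frame.QS'.exists_B_q (by rw [Frame.QS'_k]; omega)
      (P.frame.ns_ne_zero hx0) 1
    obtain ⟨b, rfl⟩ := P.frame.cls_surjective x
    exact ⟨b, P.frame.bf_eq_one.1 h1, P.frame.qv_cls_eq_one.1 h2⟩
  have hx0b : ¬ PM (x0 : G F P.U) b0 := by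
    rintro (e | e) <;> rw [e] at hab
    · exact P.frame.ne_neg _ hab
    · rw [gneg_mul, gmul_neg, gneg_neg] at hab
      exact P.frame.ne_neg _ hab.symm
  obtain ⟨z, hz, hz1, hza, hzb, g, hg, hconj⟩ :=
    exists_mid (K := K) (a := (x0 : G F P.U)) (b := h * (b0 : G F P.U) * h⁻¹) (hRK x0.2)
      (K.mul_mem (K.mul_mem hh (hRK b0.2)) (K.inv_mem hh)) (Or.inr hx0)
      (Or.inr (conj_sq_neg_one hb0 h)) (by
    intro g hg hpm
    have hu : h⁻¹ * g ∈ K := K.mul_mem (K.inv_mem hh) hg
    have h2 : PM (h⁻¹ * g * (x0 : G F P.U) * (h⁻¹ * g)⁻¹) b0 := by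
      have := hpm.unconj
      rwa [show h⁻¹ * g * (x0 : G F P.U) * (h⁻¹ * g)⁻¹ = h⁻¹ * (g * x0 * g⁻¹) * h by group]
    have hmem := hmove _ hu x0 b0 hx0 hb0 h2
    exact hx0b (PM.trans (PM.symm (pm_conj_of_comm (P.frame.comm_sign hmem x0.2))) h2))
  have hzR : z ∈ P.frame.R := hcent z hz x0 hx0 hza
  have hz'R : h⁻¹ * z * h ∈ P.frame.R := by
    refine hcent _ (K.mul_mem (K.mul_mem (K.inv_mem hh) hz) hh) b0 hb0 ?_
    have := hzb.unconj
    rwa [show h⁻¹ * z * h * (b0 : G F P.U) * (h⁻¹ * z * h)⁻¹ =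
      h⁻¹ * (z * (h * b0 * h⁻¹) * z⁻¹) * h by group]
  -- if `z` is nonsingular we are done
  have hdone : z * z = -1 → h ∈ P.frame.R := fun hz2 => by
    refine hmove h hh ⟨_, hz'R⟩ ⟨z, hzR⟩ ?_ hz2 (Or.inl ?_)
    · show h⁻¹ * z * h * (h⁻¹ * z * h) = -1
      simpa using conj_sq_neg_one hz2 h⁻¹
    · show h * (h⁻¹ * z * h) * h⁻¹ = z
      group
  rcases P.frame.sq_sign z hzR with hz2 | hz2
  swap
  · exact hdone hz2
  have hza' : (x0 : G F P.U) * z = z * x0 ∨ (x0 : G F P.U) * z = -(z * x0) :=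
    P.frame.comm_sign x0.2 hzR
  rcases hconj with hc | hc
  · exfalso
    have hq : (x0 : G F P.U) * z * (x0 * z) = -1 := hc.sq.trans (conj_sq_neg_one hx0 g)
    have hgR := hmove g hg x0 ⟨_, P.frame.R.mul_mem x0.2 hzR⟩ hx0 hq hc.symm
    have h3 : PM (g * (x0 : G F P.U) * g⁻¹) x0 := pm_conj_of_comm (P.frame.comm_sign hgR x0.2)
    have h4 := (hc.trans h3).mul_left (x0 : G F P.U)⁻¹
    rw [inv_mul_cancel_left, inv_mul_cancel] at h4
    exact hz1 h4
  · -- `x0 z` is conjugate to a conjugate of `b0`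
    have hq : (x0 : G F P.U) * z * (x0 * z) = -1 :=
      hc.sq.trans (conj_sq_neg_one (conj_sq_neg_one hb0 h) g)
    have hc' : PM ((x0 : G F P.U) * z) (g * h * b0 * (g * h)⁻¹) := by
      simpa [mul_assoc] using hc
    have hghR := hmove _ (K.mul_mem hg hh) b0 ⟨_, P.frame.R.mul_mem x0.2 hzR⟩ hb0 hq hc'.symm
    have h3 : PM (g * h * (b0 : G F P.U) * (g * h)⁻¹) b0 :=
      pm_conj_of_comm (P.frame.comm_sign hghR b0.2)
    have h4 := (hc'.trans h3).mul_left (x0 : G F P.U)⁻¹
    rw [inv_mul_cancel_left] at h4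
    refine hdone ?_
    have hinv : (x0 : G F P.U)⁻¹ = -x0 :=
      inv_eq_of_mul_eq_one_right (by rw [gmul_neg, hx0, gneg_neg])
    rw [hinv, gneg_mul] at h4
    rw [h4.sq, gneg_mul, gmul_neg, gneg_neg]
    have e : (b0 : G F P.U) * x0 = -(x0 * b0) := by rw [hab, gneg_neg]
    rw [mul_assoc, ← mul_assoc (b0 : G F P.U), e, gneg_mul, gmul_neg, mul_assoc, hb0, gmul_neg, mul_one,
      gmul_neg, gneg_neg, hx0]

end Over

end Cfsg.Agent.MaxSub.CSixOp
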