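import Cfsg.Agent.MaxSub.CSixOp.Move

/-!
Weak closure: an element of an overgroup moving a noncentral element of `R` into the normaliser
normalises `R`; hence the overgroup normalises `R`.
-/

set_option autoImplicit false
set_option linter.unusedSectionVars false
attribute [-instance] AddSubgroupClass.instZModModule

namespace Cfsg.Agent.MaxSub.CSixOp

variable {F : Type*} [Field F] {V : Type*} [AddCommGroup V] [Module F V]

namespace Frame

variable {B : LinearMap.BilinForm F V} (S : Frame B)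

/-- The classes of the elements moved into the normaliser. -/
noncomputable def inN (g : G F V) : Submodule (ZMod 2) S.E :=
  AddSubgroup.toZModSubmodule 2 (
    { carrier := {x | g * (S.rep x : G F V) * g⁻¹ ∈ S.Nm}
      zero_mem' := by
        show _ ∈ S.Nm
        rcases S.cls_eq_zero.1 (S.cls_rep 0) with e | e <;> rw [e]
        · simpa using S.Nm.one_mem
        · simpa using S.R_le_Nm S.neg_one
      add_mem' := fun {x y} hx hy => by
        show _ ∈ S.Nm
        have h : PM (S.rep (x + y) : G F V) ((S.rep x : G F V) * S.rep y) := by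
          have e : S.cls (S.rep (x + y)) = S.cls (S.rep x * S.rep y) := by
            rw [S.cls_mul, S.cls_rep, S.cls_rep, S.cls_rep]
          exact S.pm_cls.2 e
        refine (h.conj g).mem (S.R_le_Nm S.neg_one) ?_
        rw [show g * ((S.rep x : G F V) * S.rep y) * g⁻¹ =
          g * (S.rep x : G F V) * g⁻¹ * (g * S.rep y * g⁻¹) by group]
        exact S.Nm.mul_mem hx hy
      neg_mem' := fun {x} hx => by
        show _ ∈ S.Nm
        rw [ZModModule.neg_eq_self]
        exact hx } : AddSubgroup S.E)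

lemma mem_inN {g : G F V} {r : S.R} : S.cls r ∈ S.inN g ↔ g * (r : G F V) * g⁻¹ ∈ S.Nm := by
  have h : PM (S.rep (S.cls r) : G F V) r := S.pm_cls.2 (S.cls_rep _)
  constructor
  · exact fun hm => (h.symm.conj g).mem (S.R_le_Nm S.neg_one) hm
  · exact fun hm => (h.conj g).mem (S.R_le_Nm S.neg_one) hm

end Frame

namespace Over

variable {B : LinearMap.BilinForm F V} {S : Frame B} {M : Subgroup (G F V)} (hM : Over S M)

include hM

/-- Facts about an element outside the normaliser and a class moved into it. -/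
lemma fixed_eq {g : G F V} (hg : g ∈ M) (hgN : g ∉ S.Nm) {u : S.R} (hu : S.cls u ∈ S.inN g)
    (hu0 : S.cls u ≠ 0) :
    (∀ x, x ∈ S.inN g⁻¹ ↔ S.act ⟨_, S.mem_inN.1 hu⟩ x = x) ∧
    (∀ x, S.act ⟨_, S.mem_inN.1 hu⟩ (S.act ⟨_, S.mem_inN.1 hu⟩ x) = x) ∧
    S.act ⟨_, S.mem_inN.1 hu⟩ ≠ 1 := by
  set s := g * (u : G F V) * g⁻¹ with hs
  have hsN : s ∈ S.Nm := S.mem_inN.1 hu
  have hsM : s ∈ M := M.mul_mem (M.mul_mem hg (hM.R_le u.2)) (M.inv_mem hg)
  have htriv : ∀ t : S.R, PM (g * (t : G F V) * g⁻¹) 1 → S.cls t = 0 := fun t ht => by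
    rw [S.cls_eq_zero]
    have h := ht.conj g⁻¹
    rw [inv_inv, mul_one, inv_mul_cancel, show g⁻¹ * (g * (t : G F V) * g⁻¹) * g = t by group] at h
    exact h
  -- common elements of the two frames are signs
  have hTI : ∀ t : S.R, g * (t : G F V) * g⁻¹ ∈ S.R → S.cls t = 0 := by
    intro t ht
    by_contra h0
    exact hgN (hM.mem_Nm_of_move h0 hg ht)
  refine ⟨fun x => ?_, fun x => ?_, fun h => ?_⟩
  · obtain ⟨d, rfl⟩ := S.cls_surjective x
    rw [S.mem_inN, inv_inv, S.act_cls]
    constructor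
    · intro hd
      -- the commutator lies in both frames
      let c : S.R := ⟨d⁻¹ * (s * d * s⁻¹), S.R.mul_mem (S.R.inv_mem d.2) (S.conj_mem hsN d.2)⟩
      let c₀ : S.R := ⟨g⁻¹ * (d : G F V)⁻¹ * g * u * (g⁻¹ * d * g) * (u : G F V)⁻¹,
        S.R.mul_mem (by
          have := S.conj_mem (S.Nm.inv_mem hd) u.2
          simpa [mul_assoc] using this) (S.R.inv_mem u.2)⟩
      have e : g * (c₀ : G F V) * g⁻¹ = c := by
        show g * (g⁻¹ * (d : G F V)⁻¹ * g * u * (g⁻¹ * d * g) * (u : G F V)⁻¹) * g⁻¹ =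
          (d : G F V)⁻¹ * (s * d * s⁻¹)
        rw [hs]
        group
      have h1 := hTI c₀ (e ▸ c.2)
      have h2 : PM (c : G F V) 1 := by
        rw [← e]
        have := PM.conj (S.cls_eq_zero.1 h1 : PM (c₀ : G F V) 1) g
        rwa [mul_one, mul_inv_cancel] at this
      refine S.pm_cls.1 ?_
      have := h2.mul_left (d : G F V)
      rw [show (c : G F V) = (d : G F V)⁻¹ * (s * d * s⁻¹) from rfl, mul_inv_cancel_left,
        mul_one] at this
      exact this
    · intro hd
      have hd' : PM (s * (d : G F V) * s⁻¹) d := S.pm_cls.2 hd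
      -- `d` moves `u` to `± u` in the other frame
      have hD : g⁻¹ * d * g ∈ M := M.mul_mem (M.mul_mem (M.inv_mem hg) (hM.R_le d.2)) hg
      refine hM.mem_Nm_of_move hu0 hD ?_
      have h2 : PM ((d : G F V) * s * (d : G F V)⁻¹) s := by
        refine pm_conj_of_comm ?_
        rcases hd' with e | e
        · exact Or.inl (mul_inv_eq_iff_eq_mul.1 e).symm
        · right
          rw [mul_inv_eq_iff_eq_mul.1 e, gneg_mul, gneg_neg]
      have h3 := h2.conj g⁻¹
      rw [inv_inv, show g⁻¹ * ((d : G F V) * s * (d : G F V)⁻¹) * g =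
          g⁻¹ * d * g * u * (g⁻¹ * d * g)⁻¹ by rw [hs]; group,
        show g⁻¹ * s * g = u by rw [hs]; group] at h3
      exact h3.mem S.neg_one u.2
  · obtain ⟨d, rfl⟩ := S.cls_surjective x
    rw [S.act_cls, S.act_cls]
    refine S.pm_cls.1 ?_
    show PM (s * (s * (d : G F V) * s⁻¹) * s⁻¹) d
    have e : s * s = g * ((u : G F V) * u) * g⁻¹ := by rw [hs]; group
    rw [show s * (s * (d : G F V) * s⁻¹) * s⁻¹ = (s * s) * d * (s * s)⁻¹ by group, e]
    refine pm_conj_of_comm (Or.inl ?_)
    rcases S.sq_sign u u.2 with h | h <;> rw [h] <;> simp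
  · refine hu0 (hTI u (S.mem_R_of_act_eq_one (g := ⟨s, hsN⟩) (hM.le hsM) h))

lemma k_le_finrank {g : G F V} (hg : g ∈ M) (hgN : g ∉ S.Nm) {u : S.R} (hu : S.cls u ∈ S.inN g)
    (hu0 : S.cls u ≠ 0) : S.k ≤ Module.finrank (ZMod 2) (S.inN g⁻¹) := by
  obtain ⟨hfix, hinv, -⟩ := hM.fixed_eq hg hgN hu hu0
  set φ := S.act ⟨_, S.mem_inN.1 hu⟩
  let ψ : S.E →ₗ[ZMod 2] S.E := φ.toLinearMap + LinearMap.id
  have hker : LinearMap.ker ψ = S.inN g⁻¹ := by
    ext x
    rw [hfix, LinearMap.mem_ker]
    simp only [ψ, LinearMap.add_apply, LinearEquiv.coe_coe, LinearMap.id_apply]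
    constructor
    · intro h
      rw [← QS.add_cancel_right' (φ x) x, h, zero_add]
    · intro h
      rw [h, QS.add_self]
  have hle : LinearMap.range ψ ≤ LinearMap.ker ψ := by
    rintro _ ⟨a, rfl⟩
    simp only [LinearMap.mem_ker, ψ, LinearMap.add_apply, LinearEquiv.coe_coe, LinearMap.id_apply,
      map_add, hinv]
    rw [add_comm a (φ a), QS.add_self]
  have h1 := ψ.finrank_range_add_finrank_ker
  have h2 := Submodule.finrank_mono hle
  rw [S.finrank_E] at h1
  rw [← hker]
  omega

/-- An element of `M` moving a noncentral element of `R` into the normaliser normalises `R`. -/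
theorem weak_closure {g : G F V} (hg : g ∈ M) {r : S.R} (hr : S.cls r ≠ 0)
    (h : g * (r : G F V) * g⁻¹ ∈ S.Nm) : g ∈ S.Nm := by
  by_contra hgN
  have hk := hM.k_le
  have hgiN : g⁻¹ ∉ S.Nm := fun h => hgN (by simpa using S.Nm.inv_mem h)
  set W := S.inN g with hW
  set D := S.inN g⁻¹ with hD
  have hrW : S.cls r ∈ W := S.mem_inN.2 h
  have hDk : S.k ≤ Module.finrank (ZMod 2) D := hM.k_le_finrank hg hgN hrW hr
  have hWk : S.k ≤ Module.finrank (ZMod 2) W := by
    obtain ⟨x, hx, hx0⟩ := QS.exists_ne_zero_mem (U := D) (by omega)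
    obtain ⟨d, rfl⟩ := S.cls_surjective x
    have h' := hM.k_le_finrank (M.inv_mem hg) hgiN hx hx0
    rwa [inv_inv] at h'
  have hmem : ∀ x ∈ W, S.cls (S.rep x) ∈ S.inN g := fun x hx => by rwa [S.cls_rep]
  let φ : W →+ Additive (S.E ≃ₗ[ZMod 2] S.E) :=
    AddMonoidHom.mk' (fun x => Additive.ofMul (S.act ⟨_, S.mem_inN.1 (hmem x x.2)⟩)) fun x y => by
      have e : S.act ⟨_, S.mem_inN.1 (hmem _ (x + y).2)⟩ =
          S.act ⟨_, S.mem_inN.1 (hmem x x.2)⟩ * S.act ⟨_, S.mem_inN.1 (hmem y y.2)⟩ := by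
        rw [← map_mul]
        have hP : PM (g * (S.rep ((x + y : W) : S.E) : G F V) * g⁻¹)
            (g * (S.rep (x : S.E) : G F V) * g⁻¹ * (g * (S.rep (y : S.E) : G F V) * g⁻¹)) := by
          have h1 : S.cls (S.rep ((x + y : W) : S.E)) = S.cls (S.rep x * S.rep y) := by
            rw [S.cls_mul, S.cls_rep, S.cls_rep, S.cls_rep]; rfl
          have h2 := (S.pm_cls.2 h1).conj g
          rwa [Subgroup.coe_mul, show g * ((S.rep (x : S.E) : G F V) * S.rep (y : S.E)) * g⁻¹ =
            g * (S.rep (x : S.E) : G F V) * g⁻¹ * (g * S.rep (y : S.E) * g⁻¹) by group] at h2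
        rcases hP with e | e
        · exact congrArg S.act (Subtype.ext e)
        · rw [show (⟨_, S.mem_inN.1 (hmem _ (x + y).2)⟩ : S.Nm) =
            ⟨-1, S.R_le_Nm S.neg_one⟩ * (⟨_, S.mem_inN.1 (hmem x x.2)⟩ *
              ⟨_, S.mem_inN.1 (hmem y y.2)⟩) from Subtype.ext (by
              show _ = -1 * _
              rw [gneg_mul, one_mul]; exact e),
            map_mul, S.act_eq_one_of_mem_R S.neg_one, one_mul]
      show Additive.ofMul _ = _
      rw [e]
      rfl
  have hfacts : ∀ x : W, (x : S.E) ≠ 0 →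
      (∀ v, v ∈ D ↔ Additive.toMul (φ x) v = v) ∧
      (∀ v, Additive.toMul (φ x) (Additive.toMul (φ x) v) = v) ∧ Additive.toMul (φ x) ≠ 1 := by
    intro x hx
    exact hM.fixed_eq hg hgN (hmem x x.2) (by rwa [S.cls_rep])
  have hq : ∀ (x : W) v, S.qv (Additive.toMul (φ x) v) = S.qv v := fun x v => S.qv_act _ v
  -- the image of `φ x + 1` is orthogonal to `D`
  have hperp : ∀ (x : W) v, ∀ d ∈ D, S.bf (Additive.toMul (φ x) v + v) d = 0 := by
    intro x v d hd
    by_cases hx : (x : S.E) = 0
    · rw [show x = 0 from Subtype.ext hx, map_zero, toMul_zero]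
      show S.bf (v + v) d = 0
      rw [QS.add_self, map_zero, LinearMap.zero_apply]
    · have h1 := S.QS'.B_of_iso (hq x) v d
      rw [((hfacts x hx).1 d).1 hd, Frame.QS'_B] at h1
      rw [map_add, LinearMap.add_apply, h1, CharTwo.add_self_eq_zero]
  have hinD : ∀ (x : W) v, Additive.toMul (φ x) v + v ∈ D := by
    intro x v
    by_cases hx : (x : S.E) = 0
    · rw [show x = 0 from Subtype.ext hx, map_zero, toMul_zero]
      show v + v ∈ D
      rw [QS.add_self]; exact D.zero_mem
    · rw [(hfacts x hx).1, map_add, (hfacts x hx).2.1, add_comm]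
  -- linearity in `x`
  have hlin : ∀ (x y : W) v, Additive.toMul (φ (x + y)) v + v =
      (Additive.toMul (φ x) v + v) + (Additive.toMul (φ y) v + v) := by
    intro x y v
    rw [map_add, toMul_add, LinearEquiv.mul_apply]
    by_cases hx : (x : S.E) = 0
    · rw [show x = 0 from Subtype.ext hx, map_zero, toMul_zero]
      show _ = (v + v) + _
      rw [QS.add_self, zero_add]
      rfl
    · have e := ((hfacts x hx).1 _).1 (hinD y v)
      rw [map_add, ← eq_sub_iff_add_eq, ZModModule.sub_eq_add] at e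
      rw [e]
      abel
  -- for a vector outside `D` the evaluation is injective, onto `D`
  have hev : ∀ v, v ∉ D → ∀ d ∈ D, ∃ x : W, Additive.toMul (φ x) v + v = d := by
    intro v hv
    let L : W →+ S.E := AddMonoidHom.mk' (fun x => Additive.toMul (φ x) v + v) (fun x y => hlin x y v)
    have hLinj : Function.Injective (L.toZModLinearMap 2) := by
      refine (injective_iff_map_eq_zero _).2 fun x hx => ?_
      by_contra hne
      have hx0 : (x : S.E) ≠ 0 := fun e => hne (Subtype.ext e)
      refine hv (((hfacts x hx0).1 v).2 ?_)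
      have hx' : Additive.toMul (φ x) v + v = 0 := hx
      rw [← QS.add_cancel_right' (Additive.toMul (φ x) v) v, hx', zero_add]
    have hLrange : LinearMap.range (L.toZModLinearMap 2) ≤ D ⊓ S.bf.orthogonal D := by
      rintro _ ⟨x, rfl⟩
      refine ⟨hinD x v, ?_⟩
      rw [SetLike.mem_coe, LinearMap.BilinForm.mem_orthogonal_iff]
      exact fun d hd => by
        show S.bf d (Additive.toMul (φ x) v + v) = 0
        rw [← Frame.QS'_B, S.QS'.B_comm, Frame.QS'_B]
        exact hperp x v d hd
    have h1 := LinearMap.finrank_range_of_inj hLinj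
    have h2 := Submodule.finrank_mono (hLrange.trans inf_le_right)
    have h3 := S.QS'.finrank_orth D
    rw [Frame.QS'_B, Frame.QS'_k] at h3
    have hdim : Module.finrank (ZMod 2) D = S.k := by omega
    have heq : LinearMap.range (L.toZModLinearMap 2) = D :=
      Submodule.eq_of_le_of_finrank_le (hLrange.trans inf_le_left) (by omega)
    intro d hd
    obtain ⟨x, hx⟩ := heq.ge hd
    exact ⟨x, hx⟩
  -- the quadratic form on `D`
  have hqD : ∀ v, v ∉ D → ∀ d ∈ D, S.qv d = S.bf v d := by
    intro v hv d hd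
    obtain ⟨x, rfl⟩ := hev v hv d hd
    have h1 := hq x v
    rw [← QS.add_cancel_right' (Additive.toMul (φ x) v) v, S.qv_add] at h1
    rw [add_comm _ v] at h1 ⊢
    have h2 : S.bf (v + Additive.toMul (φ x) v) v = S.bf v (v + Additive.toMul (φ x) v) := by
      rw [← Frame.QS'_B, S.QS'.B_comm]
    rw [h2] at h1
    revert h1
    generalize S.qv (v + Additive.toMul (φ x) v) = A
    generalize S.bf v (v + Additive.toMul (φ x) v) = C
    generalize S.qv v = E
    revert A C E
    decide
  -- hence `D` is in the radical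
  have hDdim : Module.finrank (ZMod 2) D + 2 ≤ 2 * S.k := by
    obtain ⟨v, hv⟩ : ∃ v, v ∉ D := by
      obtain ⟨hf1, -, hf3⟩ := hM.fixed_eq hg hgN hrW hr
      by_contra hcon
      push Not at hcon
      exact hf3 (LinearEquiv.ext fun v => (hf1 v).1 (hcon v))
    have hev' := hev v hv
    let L : W →+ S.E := AddMonoidHom.mk' (fun x => Additive.toMul (φ x) v + v) (fun x y => hlin x y v)
    have hLinj : Function.Injective (L.toZModLinearMap 2) := by
      refine (injective_iff_map_eq_zero _).2 fun x hx => ?_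
      by_contra hne
      have hx0 : (x : S.E) ≠ 0 := fun e => hne (Subtype.ext e)
      refine hv (((hfacts x hx0).1 v).2 ?_)
      have hx' : Additive.toMul (φ x) v + v = 0 := hx
      rw [← QS.add_cancel_right' (Additive.toMul (φ x) v) v, hx', zero_add]
    have hLrange : LinearMap.range (L.toZModLinearMap 2) ≤ S.bf.orthogonal D := by
      rintro _ ⟨x, rfl⟩
      rw [LinearMap.BilinForm.mem_orthogonal_iff]
      exact fun d hd => by
        show S.bf d (Additive.toMul (φ x) v + v) = 0
        rw [← Frame.QS'_B, S.QS'.B_comm, Frame.QS'_B]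
        exact hperp x v d hd
    have h1 := LinearMap.finrank_range_of_inj hLinj
    have h2 := Submodule.finrank_mono hLrange
    have h3 := S.QS'.finrank_orth D
    rw [Frame.QS'_B, Frame.QS'_k] at h3
    omega
  obtain ⟨d, hd, hd0⟩ := QS.exists_ne_zero_mem (U := D) (by omega)
  refine hd0 (S.bf_nondeg d fun w => ?_)
  have hout : ∀ v, v ∉ D → S.bf v d = 0 := by
    intro v hv
    obtain ⟨v', hv', hvv'⟩ : ∃ v', v' ∉ D ∧ v + v' ∉ D := by
      by_contra hcon
      push Not at hcon
      have htop : (⊤ : Submodule (ZMod 2) S.E) ≤ D ⊔ Submodule.span (ZMod 2) {v} := by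
        intro w _
        by_cases hw : w ∈ D
        · exact Submodule.mem_sup_left hw
        · have := hcon w hw
          rw [← QS.add_cancel_left' v w, add_comm v]
          exact Submodule.add_mem _ (Submodule.mem_sup_left this)
            (Submodule.mem_sup_right (Submodule.mem_span_singleton_self v))
      have h1 := Submodule.finrank_mono htop
      have h2 := Submodule.finrank_add_le_finrank_add_finrank D (Submodule.span (ZMod 2) {v})
      have h3 := finrank_span_le_card (R := ZMod 2) ({v} : Set S.E)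
      simp only [Set.toFinset_singleton, Finset.card_singleton] at h3
      rw [finrank_top, S.finrank_E] at h1
      omega
    have h1 := hqD v hv d hd
    have h2 := hqD v' hv' d hd
    have h3 := hqD _ hvv' d hd
    rw [map_add, LinearMap.add_apply, ← h1, ← h2, CharTwo.add_self_eq_zero] at h3
    rw [← h1, h3]
  rw [← Frame.QS'_B, S.QS'.B_comm, Frame.QS'_B]
  by_cases hw : w ∈ D
  · obtain ⟨v, hv⟩ : ∃ v, v ∉ D := by
      by_contra hcon
      push Not at hcon
      have := Submodule.finrank_mono (fun v _ => hcon v : (⊤ : Submodule (ZMod 2) S.E) ≤ D)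
      rw [finrank_top, S.finrank_E] at this
      omega
    have hvw : w + v ∉ D := fun h => hv (by
      have := D.add_mem hw h
      rwa [QS.add_cancel_left'] at this)
    have := hout _ hvw
    rwa [map_add, LinearMap.add_apply, hout v hv, add_zero] at this
  · exact hout w hw

/-- An overgroup with controlled centralisers normalises `R`. -/
theorem le_Nm : M ≤ S.Nm := by
  intro g hg
  have hk := hM.k_le
  have := hM.fin
  obtain ⟨x, -, hx⟩ := S.QS'.exists_perp_q (by rw [S.QS'_k]; omega) 0 1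
  obtain ⟨a, rfl⟩ := S.cls_surjective x
  have ha : (a : G F V) * a = -1 := S.qv_cls_eq_one.1 hx
  obtain ⟨x', hx'1, hx'2⟩ := S.QS'.exists_B_q (by rw [S.QS'_k]; omega) (S.ns_ne_zero ha) 0
  obtain ⟨b, rfl⟩ := S.cls_surjective x'
  have hb : (b : G F V) * b = 1 := S.qv_cls_eq_zero.1 hx'2
  have hb0 : S.cls b ≠ 0 := fun e => by rw [e, map_zero] at hx'1; exact zero_ne_one hx'1
  set b' := g * (b : G F V) * g⁻¹ with hb'
  have hb'sq : b' * b' = 1 := by
    rw [hb', show g * (b : G F V) * g⁻¹ * (g * b * g⁻¹) = g * ((b : G F V) * b) * g⁻¹ by group, hb]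
    simp
  obtain ⟨z, hz, hz1, hza, hzb, t, ht, hconj⟩ :=
    exists_mid (K := M) (a := (a : G F V)) (b := b') (hM.R_le a.2)
      (M.mul_mem (M.mul_mem hg (hM.R_le b.2)) (M.inv_mem hg)) (Or.inr ha) (Or.inl hb'sq)
      (fun t _ h => by
        have := h.sq
        rw [conj_sq_neg_one ha, hb'sq] at this
        exact S.one_ne_neg_one this.symm)
  -- `z` and its conjugate normalise `R`
  have hzN : z ∈ S.Nm := hM.mem_Nm_of_ns ha hz (hza.mem S.neg_one a.2)
  have hz'M : g⁻¹ * z * g ∈ M := M.mul_mem (M.mul_mem (M.inv_mem hg) hz) hg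
  have hz'N : g⁻¹ * z * g ∈ S.Nm := by
    refine hM.mem_Nm_of_move hb0 hz'M ?_
    have := hzb.unconj
    rw [hb', show g⁻¹ * (z * (g * (b : G F V) * g⁻¹) * z⁻¹) * g =
      g⁻¹ * z * g * b * (g⁻¹ * z * g)⁻¹ by group] at this
    exact this.mem S.neg_one b.2
  have hazN : (a : G F V) * z ∈ S.Nm := S.Nm.mul_mem (S.R_le_Nm a.2) hzN
  -- `a z` is conjugate to an element of `R`, hence lies in `R`
  have hazR : (a : G F V) * z ∈ S.R := by
    have key : ∀ c ∈ M, ∀ s : S.R, S.cls s ≠ 0 → PM ((a : G F V) * z) (c * s * c⁻¹) →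
        (a : G F V) * z ∈ S.R := by
      intro c hc s hs hp
      have hcN := hM.weak_closure hc hs (hp.symm.mem (S.R_le_Nm S.neg_one) hazN)
      exact hp.mem S.neg_one (S.conj_mem hcN s.2)
    rcases hconj with h | h
    · exact key t ht a (S.ns_ne_zero ha) h
    · refine key (t * g) (M.mul_mem ht hg) b hb0 ?_
      rw [show t * g * (b : G F V) * (t * g)⁻¹ = t * (g * b * g⁻¹) * t⁻¹ by group]
      exact h
  have hzR : z ∈ S.R := by simpa using S.R.mul_mem (S.R.inv_mem a.2) hazR
  have hzcls : S.cls ⟨z, hzR⟩ ≠ 0 := fun e => hz1 (S.cls_eq_zero.1 e)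
  have := hM.weak_closure (M.inv_mem hg) hzcls (by simpa using hz'N)
  simpa using S.Nm.inv_mem this

end Over

end Cfsg.Agent.MaxSub.CSixOp
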